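import Cfsg.Agent.StdU.LinV

/-! Elementary abelian `2`-subgroups of `SU`: induction on the dimension, through the Levi factor of
the stabiliser of a fixed isotropic vector. -/

set_option autoImplicit false
set_option linter.unusedSectionVars false

namespace Cfsg.Agent.StdU

open Subgroup Cfsg.Agent.Class.U Cfsg.Agent.KSG Cfsg.Agent.PLocal.Amb
open Cfsg.Agent.StdL (El Od Uq cjh)
open scoped commutatorElement

variable {F : Type*} [Field F] {m q : ℕ} [UF F q] [CharP F 2]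

local notation "𝐡" => hermForm m F q

variable {X : Submodule F (Fin m → F)} {B : Subgroup (SU m F q)}

variable {U : Submodule F (Fin m → F)} {p y w x : Fin m → F} {a : F} {g : SU m F q}

@[to_additive]
theorem lJ_card_mul {A A' : Type*} [Group A] [Group A'] (f : A →* A') (H : Subgroup A) :
    Nat.card H = Nat.card ↥(f.ker ⊓ H) * Nat.card (H.map f) := by
  rw [← relIndex_ker, ← inf_relIndex_right, relIndex, ← card_mul_index ((f.ker ⊓ H).subgroupOf H),
    Nat.card_congr (subgroupOfEquivOfLe inf_le_right).toEquiv]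

theorem lJ_fin : Finite (SU m F q) :=
  have : Finite F := UF.finite q
  inferInstance

theorem lJ_card_sub (U : Submodule F (Fin m → F)) : Nat.card U = q ^ (2 * Module.finrank F U) := by
  have : Finite F := UF.finite q
  rw [Module.natCard_eq_pow_finrank (K := F), UF.card_eq (q := q), pow_mul]

theorem lJ_dim (hX : Split q X) (hU : U ≤ X) :
    Module.finrank F ↥(X ⊓ perp q U) + Module.finrank F U = Module.finrank F X := by
  have h1 := finrank_perp (q := q) (perp q X ⊔ U)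
  have h2 := Submodule.finrank_sup_add_finrank_inf_eq (perp q X) U
  have h3 := finrank_perp (q := q) X
  rw [perp_sup, perp_perp] at h1
  rw [show perp q X ⊓ U = ⊥ from eq_bot_iff.2 fun u hu => hX.eq_zero (hU hu.2) fun w hw =>
    herm_comm_zero (hu.1 w hw), finrank_bot] at h2
  omega

variable (q) in
/-- a hyperbolic pair in a nondegenerate subspace -/
structure Hyp (X : Submodule F (Fin m → F)) (p y : Fin m → F) : Prop where
  sp : Split q X
  hp : p ∈ X
  hy : y ∈ X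
  pp : hermForm m F q p p = 0
  yy : hermForm m F q y y = 0
  py : hermForm m F q p y = 1

namespace Hyp

variable (H : Hyp q X p y)
include H

theorem ne : p ≠ 0 := fun e => zero_ne_one ((herm_zero_left y).symm.trans (e ▸ H.py))

theorem sp' : Split q (perp2 q X p y) := H.sp.perp2 H.hp H.hy H.pp H.yy H.py

theorem dim : Module.finrank F (perp2 q X p y) + 2 = Module.finrank F X := by
  have h1 : perp2 q X p y < X ⊓ perp q (Submodule.span F {p}) := lt_of_le_of_ne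
    (fun x hx => ⟨hx.1, mem_perp_span.2 fun _ e => e ▸ hx.2.1⟩) fun e => zero_ne_one
      ((e.ge ⟨H.hp, mem_perp_span.2 fun _ e => e ▸ H.pp⟩).2.2.symm.trans H.py)
  have h2 : X ⊓ perp q (Submodule.span F {p}) < X := lt_of_le_of_ne inf_le_left fun e =>
    zero_ne_one ((mem_perp_span.1 (e.ge H.hy).2 p rfl).symm.trans (herm_comm_one H.py))
  have := Submodule.finrank_lt_finrank_of_lt h1
  have := Submodule.finrank_lt_finrank_of_lt h2
  have := finrank_le_perp2 (q := q) X p y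
  omega

theorem cong {x' : Fin m → F} (hx : x ∈ perp2 q X p y) (hx' : x' ∈ perp2 q X p y) {c : F}
    (e : x = x' + c • p) : x = x' := by
  have := hx.2.2
  rw [e, herm_add_left, hx'.2.2, herm_smul_left, H.py, mul_one, zero_add] at this
  rw [e, this, zero_smul, add_zero]

theorem uniq {l l' : SU m F q} (h : l ∈ VW q (perp2 q X p y)) (h' : l' ∈ VW q (perp2 q X p y))
    (e : ∀ x ∈ perp2 q X p y, ∃ c : F, l • x = l' • x + c • p) : l = l' := SU_ext fun x => by
  obtain ⟨w, hw, h1⟩ := H.sp' x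
  obtain ⟨c, hc⟩ := e w hw
  rw [← add_sub_cancel w x, smul_add, smul_add, h _ h1, h' _ h1,
    H.cong (H.sp'.smul_mem h hw) (H.sp'.smul_mem h' hw) hc]

theorem dec (hg : g ∈ VW q X) (hp : g • p = p) : ∃ l ∈ VW q (perp2 q X p y),
    ∃ w ∈ perp2 q X p y, ∃ a, Ok q p w a ∧ g = sg q p w a * l := by
  have h1 := sub_mem_perp2 H.hp H.hy H.pp H.yy H.py (H.sp.smul_mem hg H.hy)
  have yp := herm_comm_one H.py
  rw [show 𝐡 (g • y) p = 1 by rw [← yp, ← SU_herm g y p, hp], one_smul] at h1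
  generalize e : g • y - 𝐡 (g • y) y • p - y = w at h1
  generalize 𝐡 (g • y) y = a at e
  replace e : g • y = y + w + a • p := by rw [← e]; abel
  have h2 : Ok q p w a := ⟨H.pp, h1.2.1, by
    have := SU_herm g y y
    simp only [e, herm_add_left, herm_add_right, herm_smul_left, herm_smul_r, H.pp, H.yy, H.py, yp,
      h1.2.1, h1.2.2, herm_comm_zero h1.2.1, herm_comm_zero h1.2.2] at this
    linear_combination this⟩
  refine ⟨(sg q p w a)⁻¹ * g, H.sp.fix_perp2 H.hp H.hy H.pp H.yy H.py (fun x hx => ?_) ?_ ?_, w, h1,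
    a, h2, by simp⟩ <;> rw [mul_smul, inv_smul_eq_iff]
  · rw [hg x hx, h2.isSiegel.smul_of_orth (hx p H.hp) (hx w h1.1)]
  · rw [hp, h2.isSiegel.smul_of_orth H.pp (herm_comm_zero h1.2.1)]
  · rw [e, sg_smul h2, yp, herm_comm_zero h1.2.2]; simp

omit H in
theorem act {l : SU m F q} (h : Ok q p w a) (hl : l • p = p) (hx : 𝐡 x p = 0) :
    (sg q p w a * l) • x = l • x + 𝐡 (l • x) w • p := by
  rw [mul_smul, sg_smul h, show 𝐡 (l • x) p = 0 by rw [← hx, ← SU_herm l x p, hl]]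
  simp

theorem fix {l : SU m F q} (h : l ∈ VW q (perp2 q X p y)) : l • p = p :=
  h p fun _ hw => herm_comm_zero hw.2.1

/-- the Levi projection -/
theorem levi (hB : B ≤ VW q X) (hp : ∀ g ∈ B, g • p = p) : ∃ l : B →* SU m F q,
    (∀ g, l g ∈ VW q (perp2 q X p y)) ∧
    (∀ g : B, ∃ w ∈ perp2 q X p y, ∃ a, Ok q p w a ∧ g.1 = sg q p w a * l g) ∧
    ∀ (g : B) x, 𝐡 x p = 0 → ∃ c : F, l g • x = g.1 • x + c • p := by
  choose l h1 h2 using fun g : B => H.dec (hB g.2) (hp g g.2)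
  have h3 : ∀ (g : B) x, 𝐡 x p = 0 → ∃ c : F, l g • x = g.1 • x + c • p := fun g x hx => by
    obtain ⟨w, -, a, h3, h4⟩ := h2 g
    exact ⟨_, by rw [h4, act h3 (H.fix (h1 g)) hx, add_assoc, lA_add_self, add_zero]⟩
  refine ⟨.mk' l fun g k => H.uniq (h1 _) (mul_mem (h1 g) (h1 k)) fun x hx => ?_, h1, h2, h3⟩
  obtain ⟨c1, e1⟩ := h3 (g * k) x hx.2.1
  obtain ⟨c2, e2⟩ := h3 k x hx.2.1
  obtain ⟨c3, e3⟩ := h3 g _ (H.sp'.smul_mem (h1 k) hx).2.1
  refine ⟨c1 - c2 - c3, ?_⟩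
  rw [mul_smul, e3, e2, e1, smul_add, SU_smul_comm, hp g g.2, Subgroup.coe_mul, mul_smul, sub_smul,
    sub_smul]
  abel

omit H in
/-- elements commuting with a Siegel element -/
theorem cmt (h0 : p ≠ 0) (h : Ok q p w a) (hp : g • p = p) (e : g * sg q p w a = sg q p w a * g) :
    ∃ b : F, b ^ q = b ∧ g • w = w + b • p := by
  obtain ⟨h1, h2⟩ := h.conj g
  rw [hp] at h1 h2
  rw [e, mul_inv_cancel_right] at h2
  obtain ⟨b, h3, h4⟩ := h.inj h1 h0 h2
  rw [add_assoc] at h4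
  exact ⟨b, (CharTwo.add_eq_zero.1 (left_eq_add.1 h4)).symm, h3⟩

end Hyp

theorem lJ_ker {K : Type*} (f : K → SU m F q) (hf : Function.Injective f)
    {P : (Fin m → F) → Prop} {Q : F → Prop} (h : ∀ g, ∃ w a, P w ∧ Q a ∧ f g = sg q p w a) :
    Nat.card K ≤ Nat.card {w // P w} * Nat.card {a // Q a} := by
  have : Finite F := UF.finite q
  choose w a h1 h2 h3 using h
  rw [← Nat.card_prod]
  exact Nat.card_le_card_of_injective (fun g => (⟨w g, h1 g⟩, ⟨a g, h2 g⟩)) fun g k e => hf (by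
    simp only [Prod.mk.injEq, Subtype.mk.injEq] at e
    rw [h3, h3, e.1, e.2])

theorem card_iso_le (hX : Split q X) {Y : AddSubgroup (Fin m → F)}
    (hY : ∀ y ∈ Y, y ∈ X ∧ 𝐡 y y = 0) : Nat.card Y ≤ q ^ (2 * (Module.finrank F X / 2)) := by
  have : Finite F := UF.finite q
  induction hn : Module.finrank F X using Nat.strong_induction_on generalizing X Y with
  | _ n ih =>
  by_cases h0 : Y = ⊥
  · rw [h0, AddSubgroup.card_bot]
    exact Nat.pow_pos (by have := two_le_q F q; omega)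
  obtain ⟨⟨p, hp⟩, p0⟩ := AddSubgroup.ne_bot_iff_exists_ne_zero.1 h0
  obtain ⟨y, a1, a2, a3⟩ := hX.exists_partner (hY p hp).1 (by simpa using p0) (hY p hp).2
  have H : Hyp q X p y := ⟨hX, (hY p hp).1, a1, (hY p hp).2, a2, a3⟩
  have pol : ∀ u ∈ Y, ∀ v ∈ Y, 𝐡 u v ^ q = 𝐡 u v := fun u hu v hv => by
    have := (hY _ (add_mem hu hv)).2
    rw [herm_add_left, herm_add_right, herm_add_right, (hY u hu).2, (hY v hv).2, zero_add,
      add_zero] at this
    rw [herm_pow, CharTwo.add_eq_zero.1 this]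
  let φ : (Fin m → F) →+ F := .mk' (𝐡 · p) fun _ _ => herm_add_left _ _ _
  let π : (Fin m → F) →+ (Fin m → F) := .mk' (fun x => x + 𝐡 x y • p) fun _ _ => by
    rw [herm_add_left, add_smul]; abel
  have h1 := ih _ (by have := H.dim; omega) H.sp' (Y := (φ.ker ⊓ Y).map π) (by
    rintro _ ⟨x, ⟨h1, h2⟩, rfl⟩
    have h3 : 𝐡 x p = 0 := h1
    refine ⟨⟨X.add_mem (hY x h2).1 (X.smul_mem _ H.hp), ?_, ?_⟩, ?_⟩ <;>
      simp [π, herm_add_left, herm_add_right, herm_smul_left, herm_smul_r, h3, H.pp, H.py,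
        herm_comm_zero h3, (hY x h2).2, CharTwo.add_self_eq_zero]) rfl
  have h2 : ∀ {P : F → Prop}, (∀ c : F, c • p ∈ Y → P c) →
      Nat.card ↥(π.ker ⊓ (φ.ker ⊓ Y)) ≤ Nat.card {c // P c} := fun h =>
    Nat.card_le_card_of_injective (fun x => ⟨𝐡 x y, h _ (lA_add_eq_zero.1 x.2.1 ▸ x.2.2.2)⟩)
      fun x x' e => Subtype.ext ((lA_add_eq_zero.1 x.2.1).trans
        ((congrArg (·.1 • p) e).trans (lA_add_eq_zero.1 x'.2.1).symm))
  have h3 : Nat.card ↥(π.ker ⊓ (φ.ker ⊓ Y)) * Nat.card (Y.map φ) ≤ q ^ 2 := by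
    by_cases e : Y.map φ = ⊥
    · rw [e, AddSubgroup.card_bot, mul_one, ← UF.card_eq (F := F)]
      exact (h2 (P := fun _ => True) fun _ _ => trivial).trans (Finite.card_subtype_le _)
    obtain ⟨⟨_, x, hx, rfl⟩, x0⟩ := AddSubgroup.ne_bot_iff_exists_ne_zero.1 e
    rw [pow_two]
    refine Nat.mul_le_mul ((h2 fun c hc => ?_).trans_eq (card_fixed F q))
      ((Nat.card_mono (Set.toFinite _) ?_).trans_eq (card_fixed F q))
    · have := pol x hx _ hc
      rw [herm_smul_r, mul_pow, pol x hx p hp, lA_pow_pow] at this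
      exact (mul_right_cancel₀ (fun c => x0 (Subtype.ext c)) this).symm
    · rintro _ ⟨z, hz, rfl⟩
      exact pol z hz p hp
  rw [lJ_card_add φ Y, lJ_card_add π, mul_right_comm, ← hn, ← H.dim, Nat.add_div_right _ two_pos,
    mul_add, pow_add, mul_comm]
  exact Nat.mul_le_mul h1 h3

theorem lJ_ti_le (hX : Split q X) (hU : U ≤ X) (h : TI q U) :
    Module.finrank F U ≤ Module.finrank F X / 2 := by
  have := lJ_dim hX hU
  have := Submodule.finrank_mono (le_inf hU h.le_perp)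
  omega

/-- the fixed space -/
def lJ_fix (B : Subgroup (SU m F q)) : Submodule F (Fin m → F) where
  carrier := {x | ∀ g ∈ B, g • x = x}
  add_mem' ha hb g hg := by rw [smul_add, ha g hg, hb g hg]
  zero_mem' g _ := smul_zero g
  smul_mem' c _ ha g hg := by rw [SU_smul_comm, ha g hg]

theorem lJ_exists (hB : El B) (h0 : B ≠ ⊥) : ∃ g ∈ B, ∃ U, TI q U ∧ g ∈ VW q U ∧
    (∀ u ∈ U, ∃ x, g • x + x = u) ∧ ∃ p ∈ U ⊓ lJ_fix B, p ≠ 0 := by
  have : Finite F := UF.finite q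
  obtain ⟨⟨g, hg⟩, g1⟩ := ne_bot_iff_exists_ne_one.1 h0
  obtain ⟨U, h1, h2, h3⟩ := exists_im (hB g hg)
  obtain ⟨x, hx, x0⟩ := U.exists_mem_ne_zero_of_ne_bot fun e =>
    g1 (Subtype.ext (by rwa [e, VW_bot] at h2))
  obtain ⟨p, h4, h5, h6⟩ := lB_fix (q := q) (U := ⊥) (W := U)
    ((LnT.pgrp_of_sq hB).map (MulAction.toPermHom _ (Fin m → F)))
    (by rintro _ ⟨k, -, rfl⟩; exact ⟨_, si_su k⟩)
    (by rintro _ ⟨k, -, rfl⟩ v; exact smul_eq_zero_iff_eq k) (by
      rintro _ ⟨k, hk, rfl⟩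
      refine mv_of_le (si_su k) (fun v hv => ?_) rfl
      obtain ⟨z, rfl⟩ := h3 v hv
      have := mem_VW'.1 h2 (k • z)
      rwa [← mul_smul, hB.comm hg hk, mul_smul, ← smul_add] at this) hx x0
  exact ⟨g, hg, U, h1, h2, h3, p, ⟨h4, fun k hk => lA_add_eq_zero.1 (h6 _ ⟨k, hk, rfl⟩)⟩, h5⟩

theorem lJ_le (hg : g ∈ VW q X) (h : ∀ u ∈ U, ∃ x, g • x + x = u) : U ≤ X := fun u hu =>
  let ⟨x, e⟩ := h u hu
  e ▸ mem_VW'.1 hg x

theorem lJ_el {l : B →* SU m F q} (hB : El B) : El l.range := by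
  rintro _ ⟨g, rfl⟩
  rw [← map_mul, show g * g = 1 from Subtype.ext (hB g g.2), map_one]

theorem el_aux (hX : Split q X) (hB : El B) (h : B ≤ VW q X) :
    Nat.card B ≤ q ^ (Module.finrank F X / 2) ^ 2 ∧ (q ^ (Module.finrank F X / 2) ^ 2 ≤ Nat.card B →
      ∃ W ≤ X, TI q W ∧ Module.finrank F W = Module.finrank F X / 2 ∧ B = VW q W) := by
  have : Finite F := UF.finite q
  have q2 := two_le_q F q
  induction hn : Module.finrank F X using Nat.strong_induction_on generalizing X B with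
  | _ n ih =>
  by_cases h0 : B = ⊥
  · rw [h0, card_bot]
    refine ⟨Nat.pow_pos (by omega), fun e => ⟨⊥, bot_le, fun u hu w _ => by
      rw [(Submodule.mem_bot F).1 hu, herm_zero_left], ?_, VW_bot.symm⟩⟩
    rw [finrank_bot, eq_comm, ← pow_eq_zero_iff two_ne_zero]
    exact (Nat.pow_eq_one.1 (le_antisymm e (Nat.pow_pos (by omega)))).resolve_left (by omega)
  obtain ⟨g, hg, U, h1, -, h2, p, ⟨h3, hp⟩, p0⟩ := lJ_exists hB h0
  obtain ⟨y, a1, a2, a3⟩ := hX.exists_partner (lJ_le (h hg) h2 h3) p0 (h1 p h3 p h3)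
  have H : Hyp q X p y := ⟨hX, lJ_le (h hg) h2 h3, a1, h1 p h3 p h3, a2, a3⟩
  clear h0 hg h1 h2 h3 a1 a2 a3 g U
  obtain ⟨l, l1, l2, l3⟩ := H.levi h hp
  obtain ⟨i1, i2⟩ := ih _ (by have := H.dim; omega) H.sp' (lJ_el (l := l) hB)
    (by rintro _ ⟨g, rfl⟩; exact l1 g) rfl
  have iso : ∀ {w a}, Ok q p w a → sg q p w a * sg q p w a = 1 → 𝐡 w w = 0 := fun {w a} b e =>
    T_inj H.pp p0 (herm_pow w w) lA_zero_pow (by rw [← b.sq, e, T_zero H.pp])
  let Y : AddSubgroup (Fin m → F) :=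
    { carrier := {w | w ∈ perp2 q X p y ∧ ∃ a, Ok q p w a ∧ sg q p w a ∈ B}
      add_mem' := fun ⟨b, _, c, d⟩ ⟨b', _, c', d'⟩ =>
        ⟨add_mem b b', _, (c.mul c').1, (c.mul c').2 ▸ mul_mem d d'⟩
      zero_mem' := ⟨zero_mem _, 0, (O2.zero H.pp).ok, B.mem_carrier.1 (by
        rw [show sg q p 0 0 = 1 from S_zero H.pp]; exact one_mem B)⟩
      neg_mem' := fun h => by rwa [lA_neg] }
  have hY : ∀ w ∈ Y, w ∈ perp2 q X p y ∧ 𝐡 w w = 0 := fun w ⟨b, _, c, d⟩ => ⟨b, iso c (hB _ d)⟩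
  have c1 := card_iso_le H.sp' hY
  have c2 := lJ_ker (p := p) (fun g : l.ker => g.1.1) (fun _ _ e => Subtype.ext (Subtype.ext e))
    (P := (· ∈ Y)) (Q := fun a => conj F q a = a) fun g => by
      obtain ⟨w, b, a, c, d⟩ := l2 g
      rw [g.2, mul_one] at d
      have := c.tr
      rw [iso c (d ▸ hB _ g.1.2), add_zero] at this
      exact ⟨w, a, ⟨b, a, c, d ▸ g.1.2⟩, (CharTwo.add_eq_zero.1 this).symm, d⟩
  rw [card_fixed] at c2
  have c3 : Nat.card B = Nat.card l.ker * Nat.card l.range := by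
    rw [← index_ker, card_mul_index]
  obtain ⟨k, hk⟩ : ∃ k, Module.finrank F (perp2 q X p y) / 2 = k := ⟨_, rfl⟩
  rw [hk] at i1 i2 c1
  have e1 : n / 2 = k + 1 := by have := H.dim; omega
  have e2 : q ^ (k + 1) ^ 2 = q ^ (2 * k) * q * q ^ k ^ 2 := by ring
  rw [e1]
  refine ⟨c3 ▸ e2 ▸ Nat.mul_le_mul (c2.trans (Nat.mul_le_mul_right q c1)) i1, fun e => ?_⟩
  have e3 := e
  rw [c3, e2] at e3
  obtain ⟨W, w1, w2, w3, w4⟩ := i2 (Nat.le_of_mul_le_mul_left (e3.trans (Nat.mul_le_mul_right _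
    (c2.trans (Nat.mul_le_mul_right q c1)))) (by positivity))
  have c4 : q ^ (2 * k) ≤ Nat.card Y := Nat.le_of_mul_le_mul_right (Nat.le_of_mul_le_mul_right
    (e3.trans (Nat.mul_le_mul c2 i1)) (by positivity)) (by omega)
  have mx : ∀ w ∈ perp2 q X p y, 𝐡 w w = 0 → w ∈ perp q W → w ∈ W := fun w b c d => by
    have := lJ_ti_le H.sp' (sup_le w1 ((Submodule.span_singleton_le_iff_mem _ _).2 b)) (w2.sup c d)
    exact (Submodule.eq_of_le_of_finrank_le le_sup_left (by rwa [w3, ← hk])).ge lV_mem_v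
  have cm : ∀ w ∈ Y, ∀ g : B, ∃ b : F, b ^ q = b ∧ g.1 • w = w + b • p := fun w ⟨_, _, c, d⟩ g =>
    Hyp.cmt p0 c (hp g g.2) (hB.comm g.2 d)
  have y1 : Y = W.toAddSubgroup := AddSubgroup.eq_of_le_of_card_ge (fun w hw => mx w (hY w hw).1
    (hY w hw).2 fun v hv => by
      obtain ⟨g, e⟩ := w4.ge (T_mem_VW (w2 v hv v hv) (one_pow q) hv)
      obtain ⟨c, e4⟩ := l3 g w (hY w hw).1.2.1
      obtain ⟨b, -, e5⟩ := cm w hw g
      have := H.cong (H.sp'.smul_mem (l1 g) (hY w hw).1) (hY w hw).1 (c := b + c)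
        (by rw [e4, e5, add_smul, add_assoc])
      rw [e, T_smul (w2 v hv v hv) (one_pow q), one_mul, add_eq_left, smul_eq_zero] at this
      exact this.elim id fun e => e ▸ herm_zero_right w) (by
        exact (lJ_card_sub (q := q) W).trans_le (w3 ▸ c4))
  have t1 := w2.sup H.pp fun w hw => herm_comm_zero (w1 hw).2.1
  have x1 : W ⊔ Submodule.span F {p} ≤ X := sup_le (fun w hw => (w1 hw).1)
    ((Submodule.span_singleton_le_iff_mem _ _).2 H.hp)
  have b1 : B ≤ VW q (W ⊔ Submodule.span F {p}) := fun g hg => by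
    obtain ⟨w, b, a, c, d⟩ := l2 ⟨g, hg⟩
    have hl : l ⟨g, hg⟩ ∈ VW q W := w4.le ⟨_, rfl⟩
    have f1 : ∀ v ∈ W, 𝐡 v w ^ q = 𝐡 v w := fun v hv => by
      obtain ⟨b', e4, e5⟩ := cm v (y1.ge hv) ⟨g, hg⟩
      rw [d, Hyp.act c (H.fix (l1 _)) (w1 hv).2.1, hl v (w2.le_perp hv)] at e5
      rwa [smul_left_injective F p0 (add_left_cancel e5)]
    have f2 : w ∈ perp q W := fun v hv => herm_comm_zero (by
      obtain ⟨ω, hω⟩ := exists_om (F := F) (q := q)
      have := f1 _ (W.smul_mem ω hv)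
      rw [herm_smul_left, mul_pow, f1 v hv] at this
      rw [← one_mul (𝐡 v w), ← hω, add_mul, this, CharTwo.add_self_eq_zero])
    have f3 := (c.conj (l ⟨g, hg⟩)).2
    rw [H.fix (l1 _), hl w f2, mul_inv_eq_iff_eq_mul] at f3
    have f4 := hB g hg
    change g = _ at d
    rw [d, mul_assoc, ← mul_assoc (l _), f3, ← mul_assoc, ← mul_assoc, mul_assoc, w2.el _ hl,
      mul_one] at f4
    rw [d]
    exact mul_mem (fun x hx => c.isSiegel.smul_of_orth (hx p lV_mem_v)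
      (hx w (Submodule.mem_sup_left (mx w b (iso c f4) f2)))) (VW_mono le_sup_left hl)
  have c5 := card_VW t1
  have c6 := lJ_ti_le hX x1 t1
  have c7 := (Nat.pow_le_pow_iff_right (by omega)).1 (e.trans ((card_le_of_le b1).trans_eq c5))
  have c8 : Module.finrank F ↥(W ⊔ Submodule.span F {p}) = k + 1 :=
    le_antisymm (by omega) ((Nat.pow_le_pow_iff_left two_ne_zero).1 c7)
  exact ⟨_, x1, t1, c8, eq_of_le_of_card_ge b1 (by rwa [c5, c8])⟩

theorem lJ_top : B ≤ VW q ⊤ := fun _ _ => mem_VW'.2 fun _ => trivial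

theorem el_card_le (hB : El B) : Nat.card B ≤ q ^ (m / 2) ^ 2 := by
  simpa using (el_aux split_top hB lJ_top).1

theorem el_eq_VW (hB : El B) (h : q ^ (m / 2) ^ 2 ≤ Nat.card B) : ∃ W, MTI q W ∧ B = VW q W := by
  obtain ⟨W, -, a, b, c⟩ := (el_aux split_top hB lJ_top).2 (by simpa using h)
  exact ⟨W, ⟨a, by simpa using b⟩, c⟩

end Cfsg.Agent.StdU
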