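import Cfsg.Agent.StdU.LinC
import Cfsg.Agent.StdU.J

/-! Elementary abelian `2`-subgroups centralised by a field automorphism (symplectic bound). -/

set_option autoImplicit false
set_option linter.unusedSectionVars false

namespace Cfsg.Agent.StdU

open Subgroup Cfsg.Agent.Class.U Cfsg.Agent.KSG Cfsg.Agent.PLocal.Amb
open Cfsg.Agent.StdL (El Od Uq cjh)
open scoped commutatorElement

variable {F : Type*} [Field F] {m q : ℕ} [UF F q] [CharP F 2]

local notation "𝐡" => hermForm m F q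

variable {B : Subgroup (SU m F q)} {s : F ≃+* F} {γ : Equiv.Perm (Fin m → F)}

variable {U X D : Submodule F (Fin m → F)} {p u v : Fin m → F}

theorem jb_two (n : ℕ) : 2 * (n * (n + 1) / 2) = n * (n + 1) :=
  Nat.mul_div_cancel' (Nat.even_mul_succ_self n).two_dvd

theorem jb_pos [Finite F] (s : F ≃+* F) : 0 < Nat.card {a : F // s a = a} :=
  have : Nonempty {a : F // s a = a} := ⟨⟨0, map_zero s⟩⟩
  Nat.card_pos

theorem SI.jb_perp (h : SI q s γ) (hu : γ u = u) (e : 𝐡 v u = 0) : 𝐡 (γ v) u = 0 := by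
  rw [← hu, h.herm, e, map_zero]

theorem jb_top : Mv γ (⊤ : Submodule F (Fin m → F)) ⊤ := fun _ => by simp

theorem SI.jb_card (h : SI q s γ) (hN : γ ^ orderOf s = 1) (hU : Mv γ U U) :
    Nat.card {v // v ∈ U ∧ γ v = v} ≤ Nat.card {a : F // s a = a} ^ Module.finrank F U := by
  have : Finite F := UF.finite q
  obtain ⟨b, hb⟩ := h.lC_basis hN hU
  rw [← Nat.card_fin (Module.finrank F U), ← Nat.card_fun]
  refine Nat.card_le_card_of_injective (fun v i => ⟨b.repr ⟨v, v.2.1⟩ i, ?_⟩) fun v w e =>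
    Subtype.ext (Subtype.mk.inj (b.repr.injective (Finsupp.ext fun i =>
      congrArg Subtype.val (congrFun e i)) : (⟨v, v.2.1⟩ : U) = ⟨w, w.2.1⟩))
  have h1 : ∑ i, s (b.repr ⟨v, v.2.1⟩ i) • b i = ⟨v, v.2.1⟩ := Subtype.ext (by
    have := congrArg (fun x : U => γ x) (b.sum_repr ⟨v, v.2.1⟩)
    simpa only [h.semi.sum, h.semi.smul, hb, v.2.2, Submodule.coe_sum, Submodule.coe_smul] using this)
  exact (congrFun (b.repr_sum_self _) i).symm.trans (by rw [h1])

theorem SI.jb_ex (h : SI q s γ) (hN : γ ^ orderOf s = 1) (hU : Mv γ U U) (e : ¬ U ≤ D) :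
    ∃ v ∈ U, γ v = v ∧ v ∉ D := by
  by_contra c
  push Not at c
  exact e ((h.span_fix hN hU).trans (Submodule.span_le.2 fun v hv => c v hv.1 hv.2))

theorem SI.jb_sq (h : SI q s γ) (hN : γ ^ orderOf s = 1) (hD : Mv γ D D) (hB : B ≤ VW q D)
    (hc : ∀ g ∈ B, Rel γ g g) : Nat.card B ≤
      Nat.card {a : F // s a = a} ^ (Module.finrank F D * (Module.finrank F D + 1) / 2) := by
  have : Finite F := UF.finite q
  induction hn : Module.finrank F D using Nat.strong_induction_on generalizing D B with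
  | _ n ih =>
  by_cases h0 : D = ⊥
  · rw [h0, VW_bot, le_bot_iff] at hB
    rw [hB, card_bot]
    exact Nat.pow_pos (jb_pos s)
  obtain ⟨x, -, h1, h2⟩ := h.jb_ex hN jb_top (D := perp q D) fun e => h0 (eq_bot_iff.2 fun d hd =>
    eq_zero_of_herm_right fun x => e trivial d hd)
  have h3 : D ⊓ perp q (Submodule.span F {x}) < D := lt_of_le_of_ne inf_le_left fun e =>
    h2 fun d hd => herm_comm_zero (mem_perp_span.1 (e.ge hd).2 x rfl)
  have h4 := Submodule.finrank_lt_finrank_of_lt h3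
  have h5 := ih _ (hn ▸ h4) (B := (MulAction.stabilizer B x).map B.subtype)
    (D := D ⊓ perp q (Submodule.span F {x}))
    (mv_of_le h (fun v hv => ⟨(hD v).2 hv.1, mem_perp_span.2 fun _ e =>
      e ▸ h.jb_perp h1 (mem_perp_span.1 hv.2 x rfl)⟩) rfl) (by
      rintro _ ⟨g, hg, rfl⟩
      refine mem_VW'.2 fun z => ⟨mem_VW'.1 (hB g.2) z, mem_perp_span.2 fun _ e => ?_⟩
      rw [e, herm_add_left, ← SU_herm g.1 z x, show g.1 • x = x from hg]
      exact CharTwo.add_self_eq_zero _) (by rintro _ ⟨g, -, rfl⟩; exact hc g g.2) rfl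
  have h6 : (MulAction.orbit B x).ncard ≤ _ := (Nat.card_le_card_of_injective
    (fun y : MulAction.orbit B x => (⟨y.1 + x, by
      obtain ⟨_, g, rfl⟩ := y
      refine ⟨mem_VW'.1 (hB g.2) x, ?_⟩
      change γ (g.1 • x + x) = g.1 • x + x
      rw [h.semi.add, ← hc g g.2, h1]⟩ : {v // v ∈ D ∧ γ v = v}))
    fun a b e => Subtype.ext (add_right_cancel (congrArg Subtype.val e))).trans (h.jb_card hN hD)
  rw [card_subtype] at h5
  rw [← card_mul_index (MulAction.stabilizer B x), MulAction.index_stabilizer]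
  refine (Nat.mul_le_mul h5 h6).trans ?_
  rw [← pow_add, hn] at *
  refine Nat.pow_le_pow_right (jb_pos s) ?_
  generalize Module.finrank F ↥(D ⊓ perp q (Submodule.span F {x})) = d at h4
  have := jb_two d
  have := jb_two n
  nlinarith

theorem SI.jb_hyp (h : SI q s γ) (hN : γ ^ orderOf s = 1) (hX : Split q X) (hX' : Mv γ X X)
    (hp : p ∈ X) (p0 : p ≠ 0) (pp : 𝐡 p p = 0) (h1 : γ p = p) :
    ∃ y, Hyp q X p y ∧ Mv γ (perp2 q X p y) (perp2 q X p y) := by
  obtain ⟨y, h2, h3, h4⟩ := h.jb_ex hN hX' (D := perp q (Submodule.span F {p})) fun e =>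
    p0 (hX.eq_zero hp fun w hw => mem_perp_span.1 (e hw) p rfl)
  replace h4 : 𝐡 p y ≠ 0 := fun e => h4 (mem_perp_span.2 fun _ e' => e' ▸ herm_comm_zero e)
  obtain ⟨t, ht⟩ := exists_isotropic_sub pp h4
  have h5 : ∀ x, 𝐡 x p = 0 → 𝐡 x ((𝐡 p y)⁻¹ ^ q • (y - t • p)) = (𝐡 p y)⁻¹ * 𝐡 x y := fun x e => by
    rw [herm_smul_r, lA_pow_pow, herm_sub_right, herm_smul_r, e, mul_zero, sub_zero]
  refine ⟨(𝐡 p y)⁻¹ ^ q • (y - t • p), ⟨hX, hp, X.smul_mem _ (X.sub_mem h2 (X.smul_mem _ hp)), pp,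
    by rw [herm_smul_left, herm_smul_r, ht, mul_zero, mul_zero], by
      rw [h5 p pp, inv_mul_cancel₀ h4]⟩, mv_of_le h (fun v hv => ?_) rfl⟩
  have h6 := h.jb_perp h1 hv.2.1
  have h7 := hv.2.2
  rw [h5 v hv.2.1, mul_eq_zero, inv_eq_zero, or_iff_right h4] at h7
  exact ⟨(hX' v).2 hv.1, h6, by rw [h5 _ h6, h.jb_perp h3 h7, mul_zero]⟩

theorem SI.jb_even (h : SI q s γ) (hN : γ ^ orderOf s = 1) (hX : Split q X) (hX' : Mv γ X X)
    (e : ∀ v ∈ X, γ v = v → 𝐡 v v = 0) : Even (Module.finrank F X) := by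
  induction hn : Module.finrank F X using Nat.strong_induction_on generalizing X with
  | _ n ih =>
  by_cases h0 : X ≤ ⊥
  · rw [← hn, le_bot_iff.1 h0, finrank_bot]; exact Even.zero
  obtain ⟨p, h1, h2, h3⟩ := h.jb_ex hN hX' h0
  obtain ⟨y, H, h4⟩ := h.jb_hyp hN hX hX' h1 h3 (e p h1 h2) h2
  rw [← hn, ← H.dim]
  exact (ih _ (by have := H.dim; omega) H.sp' h4 (fun v hv => e v hv.1) rfl).add even_two

theorem SI.jb_fix (h : SI q s γ) (hc : ∀ g ∈ B, Rel γ g g) (hU : ∀ v ∈ U, γ v ∈ U) :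
    Mv γ (U ⊓ lJ_fix B) (U ⊓ lJ_fix B) :=
  mv_of_le h (fun v hv => ⟨hU v hv.1, fun g hg => by rw [hc g hg, hv.2 g hg]⟩) rfl

theorem SI.jb_main (h : SI q s γ) (hN : γ ^ orderOf s = 1) {k : ℕ} (hX : Split q X) (hX' : Mv γ X X)
    (hk : Module.finrank F X = 2 * k) (hB : El B) (hle : B ≤ VW q X) (hc : ∀ g ∈ B, Rel γ g g) :
    Nat.card B ≤ Nat.card {a : F // s a = a} ^ (k * (k + 1) / 2) := by
  have : Finite F := UF.finite q
  have q0 := jb_pos s
  induction k using Nat.strong_induction_on generalizing X B with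
  | _ k ih =>
  by_cases h0 : B = ⊥
  · rw [h0, card_bot]
    exact Nat.pow_pos q0
  obtain ⟨g, hg, U, h1, h2, h3, p', h4, h5⟩ := lJ_exists hB h0
  obtain ⟨p, ⟨p1, hp⟩, p2, p0⟩ := h.jb_ex hN (h.jb_fix hc (U := U) fun v hv => by
    obtain ⟨x, rfl⟩ := h3 v hv
    rw [h.semi.add, ← hc g hg]
    exact mem_VW'.1 h2 _) (D := ⊥) fun e => h5 (e h4)
  obtain ⟨y, H, hX1⟩ := h.jb_hyp hN hX hX' (lJ_le (hle hg) h3 p1) p0 (h1 p p1 p p1) p2
  clear h0 hg h1 h2 h3 h4 h5 p1 g U p'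
  obtain ⟨l, l1, l2, l3⟩ := H.levi hle hp
  have c0 : ∀ g ∈ l.range, Rel γ g g := by
    rintro _ ⟨g, rfl⟩
    obtain ⟨l', e⟩ := h.rel (l g)
    rwa [H.uniq ((e.mem_VW h hX1).2 (l1 g)) (l1 g) fun x hx => by
      obtain ⟨x, rfl⟩ := γ.surjective x
      obtain ⟨c, e1⟩ := l3 g x ((hX1 x).1 hx).2.1
      obtain ⟨c', e2⟩ := l3 g _ hx.2.1
      exact ⟨s c - c', by
        rw [e, e1, e2, h.semi.add, h.semi.smul, p2, hc g g.2, sub_smul]; abel⟩] at e
  have b1 : l.range ≤ VW q (perp2 q X p y) := by rintro _ ⟨g, rfl⟩; exact l1 g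
  obtain ⟨k, rfl⟩ : ∃ j, k = j + 1 := ⟨k - 1, by have := H.dim; omega⟩
  have c1 := ih k (by omega) H.sp' hX1 (by have := H.dim; omega) (lJ_el hB) b1 c0
  have hU := h.jb_fix c0 fun v => (hX1 v).2
  have c2 := lJ_ker (p := p) (fun g : l.ker => g.1.1) (fun _ _ e => Subtype.ext (Subtype.ext e))
    (P := fun w => w ∈ perp2 q X p y ⊓ lJ_fix l.range ∧ γ w = w) (Q := fun a => s a = a) fun g => by
      obtain ⟨w, b, a, c, d⟩ := l2 g
      rw [g.2, mul_one] at d
      obtain ⟨e1, e2⟩ := h.rel_sg c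
      rw [p2] at e1 e2
      obtain ⟨b', e3, e4⟩ := c.inj e1 p0 ((d ▸ hc _ g.1.2).uniq e2)
      have e5 := H.cong ((hX1 w).2 b) b e3
      rw [e5, left_eq_add, smul_eq_zero_iff_left p0] at e3
      refine ⟨w, a, ⟨⟨b, ?_⟩, e5⟩, by simpa [e3, lA_zero_pow] using e4, d⟩
      rintro _ ⟨k, rfl⟩
      obtain ⟨c', e6⟩ := l3 k w b.2.1
      obtain ⟨c'', -, e7⟩ := Hyp.cmt p0 c (hp k k.2) (hB.comm k.2 (d ▸ g.1.2))
      exact H.cong (H.sp'.smul_mem (l1 k) b) b (c := c'' + c') (by rw [e6, e7, add_smul, add_assoc])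
  have c3 := h.jb_sq hN (D := perp2 q X p y ⊓ perp q (perp2 q X p y ⊓ lJ_fix l.range))
    (mv_of_le h (fun v hv => ⟨(hX1 v).2 hv.1, (lB_mv_perp h hU v).2 hv.2⟩) rfl)
    (fun g hg => mem_VW'.2 fun z => ⟨mem_VW'.1 (b1 hg) z, fun x hx => by
      rw [herm_add_left, ← SU_herm g z x, hx.2 g hg]
      exact CharTwo.add_self_eq_zero _⟩) c0
  have c4 := lJ_dim H.sp' (U := _ ⊓ lJ_fix l.range) inf_le_left
  have c5 := c2.trans (Nat.mul_le_mul_right _ (h.jb_card hN hU))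
  have c6 := H.dim
  rw [← card_mul_index l.ker, index_ker]
  generalize Module.finrank F ↥(perp2 q X p y ⊓ perp q (perp2 q X p y ⊓ lJ_fix l.range)) = c at c3 c4
  generalize Module.finrank F ↥(perp2 q X p y ⊓ lJ_fix l.range) = u at c4 c5
  rw [← pow_succ] at c5
  have := jb_two c
  have := jb_two k
  have := jb_two (k + 1)
  rcases le_total k c with e | e
  · refine (Nat.mul_le_mul c5 c1).trans ?_
    rw [← pow_add]
    exact Nat.pow_le_pow_right q0 (by nlinarith)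
  · refine (Nat.mul_le_mul c5 c3).trans ?_
    rw [← pow_add]
    refine Nat.pow_le_pow_right q0 ?_
    obtain ⟨d, rfl⟩ := Nat.exists_eq_add_of_le e
    obtain rfl : u = c + 2 * d := by omega
    nlinarith [Nat.le_mul_self d]

/-- the vector representing `v ↦ √(h v v)` on the fixed vectors -/
theorem SI.jb_e (h : SI q s γ) (hN : γ ^ orderOf s = 1) (he : Even (orderOf s)) :
    ∃ e, γ e = e ∧ (∀ v, γ v = v → 𝐡 v v = 𝐡 v e * 𝐡 v e) ∧
      ∀ g : SU m F q, Rel γ g g → g • e = e := by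
  have : Finite F := UF.finite q
  obtain ⟨b, hb⟩ := exists_basis_fixed (ι := Fin m) h.semi (orderOf_pos s)
    (fun v => by rw [← Equiv.Perm.coe_pow, hN]; rfl) (by simp)
  have sq : ∀ {a b : F}, a * a = b * b → a = b := fun e =>
    (mul_self_eq_mul_self_iff.1 e).elim id fun e => e.trans (CharTwo.neg_eq _)
  have fx : ∀ {u v}, γ u = u → γ v = v → s (𝐡 u v) = 𝐡 u v := fun a b => by rw [← h.herm, a, b]
  choose r r1 r2 using fun i => exists_sqrt (herm_pow (q := q) (b i) (b i))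
  obtain ⟨e, h1⟩ : ∃ e, ∀ x, 𝐡 x e = b.constr F r x := ⟨fun j => b.constr F r (Pi.single j 1) ^ q,
    fun x => by
      rw [herm_eq, LinearMap.pi_apply_eq_sum_univ]
      refine Finset.sum_congr rfl fun j _ => ?_
      rw [conj_apply, lA_pow_pow, smul_eq_mul]
      congr 2; ext i; simp [Pi.single_apply, eq_comm]⟩
  have h2 : ∀ i, 𝐡 (b i) e = r i := fun i => by rw [h1, b.constr_basis]
  have ex : ∀ e', (∀ i, 𝐡 (b i) e' = r i) → e' = e := fun e' a => sub_eq_zero.1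
    (eq_zero_of_herm_right (q := q) fun x => by
      have := b.ext (f₁ := (hermSesq m F q).flip (e' - e)) (f₂ := 0) fun i => by
        change 𝐡 (b i) (e' - e) = 0
        rw [herm_sub_right, a, h2, sub_self]
      exact LinearMap.congr_fun this x)
  have h3 : ∀ v, γ v = v → 𝐡 v v = 𝐡 v e * 𝐡 v e := fun v hv => by
    have h4 : ∑ i, s (b.repr v i) • b i = v := by
      simpa only [h.semi.sum, h.semi.smul, hb, hv] using congrArg γ (b.sum_repr v)
    rw [← b.sum_repr v]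
    refine (Finset.sum_induction _ (fun v => γ v = v ∧ 𝐡 v v = 𝐡 v e * 𝐡 v e) (fun u w a c =>
      ⟨by rw [h.semi.add, a.1, c.1], ?_⟩) ⟨h.semi.zero, by simp [herm_zero_left]⟩ fun i _ => ?_).2
    · rw [herm_add_left, herm_add_left, herm_add_right, herm_add_right, a.2, c.2, ← herm_pow u w,
        lC_fix he (fx a.1 c.1)]
      linear_combination (𝐡 u w - 𝐡 u e * 𝐡 w e) * (CharTwo.two_eq_zero (R := F))
    · have h5 : s (b.repr v i) = b.repr v i :=
        (congrFun (b.repr_sum_self _) i).symm.trans (by rw [h4])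
      exact ⟨by rw [h.semi.smul, h5, hb], by
        rw [herm_smul_left, herm_smul_left, herm_smul_r, lC_fix he h5, h2, ← r2]; ring⟩
  refine ⟨e, ex _ fun i => ?_, h3, fun g hg => ex _ fun i => sq ?_⟩
  · rw [← hb, h.herm, h2]
    exact sq (by rw [← map_mul, r2, fx (hb i) (hb i)])
  · rw [← SU_herm g⁻¹, inv_smul_smul, ← h3 _ (by rw [← hg.inv, hb]), SU_herm, r2]

theorem SI.el_card_le (h : SI q s γ) (hN : γ ^ orderOf s = 1) (he : Even (orderOf s)) (hB : El B)
    (hc : ∀ g ∈ B, Rel γ g g) :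
    Nat.card B ≤ Nat.card {a : F // s a = a} ^ (m / 2 * (m / 2 + 1) / 2) := by
  rcases Nat.even_or_odd' m with ⟨k, hk | hk⟩
  · exact h.jb_main hN split_top jb_top (by rw [finrank_top, Module.finrank_fin_fun]; omega) hB
      lJ_top hc
  obtain ⟨e, h1, h2, h3⟩ := h.jb_e hN he
  have h4 : 𝐡 e e ≠ 0 := fun c => by
    have h5 : Even m := by
      by_cases e0 : e = 0
      · simpa using h.jb_even hN split_top jb_top fun v _ hv => by
          rw [h2 v hv, e0, herm_zero_right, mul_zero]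
      obtain ⟨y, H, h6⟩ := h.jb_hyp hN split_top jb_top trivial e0 c h1
      have := (h.jb_even hN H.sp' h6 fun v a hv => by rw [h2 v hv, a.2.1, mul_zero]).add even_two
      simpa [H.dim] using this
    obtain ⟨j, hj⟩ := h5
    omega
  have h5 := finrank_perp (q := q) (Submodule.span F {e})
  rw [finrank_span_singleton fun c => h4 (by rw [c, herm_zero_left])] at h5
  refine h.jb_main hN (X := perp q (Submodule.span F {e})) (fun x => ⟨x - (𝐡 x e / 𝐡 e e) • e,
    mem_perp_span.2 fun _ c => ?_, fun w hw => ?_⟩) (mv_of_le h (fun v hv => mem_perp_span.2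
      fun _ c => c ▸ h.jb_perp h1 (mem_perp_span.1 hv e rfl)) rfl) (by omega) hB (fun g hg => ?_) hc
  · rw [c, herm_sub_left, herm_smul_left, div_mul_cancel₀ _ h4, sub_self]
  · rw [sub_sub_cancel, herm_smul_left, herm_comm_zero (mem_perp_span.1 hw e rfl), mul_zero]
  · rw [VW, perp_perp, Fx_span]
    exact mem_Fx_one.2 (h3 g (hc g hg))

omit [CharP F 2] in
theorem sp_lt (F : Type*) [Field F] [UF F q] (hm : 6 ≤ m) :
    4 * q ^ (m / 2 * (m / 2 + 1) / 2) < q ^ (m / 2) ^ 2 := by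
  have hq := two_le_q F q
  have h1 : m / 2 * (m / 2 + 1) / 2 + 3 ≤ (m / 2) ^ 2 := by
    have := jb_two (m / 2)
    nlinarith [show 3 ≤ m / 2 by omega]
  refine lt_of_lt_of_le ?_ (Nat.pow_le_pow_right (by omega) h1)
  rw [pow_add, mul_comm]
  exact Nat.mul_lt_mul_of_pos_left ((by norm_num : 4 < 2 ^ 3).trans_le (Nat.pow_le_pow_left hq 3))
    (Nat.pow_pos (by omega))

end Cfsg.Agent.StdU
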