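import Cfsg.Agent.StdU.J
import Cfsg.Agent.StdU.Jb
import Cfsg.Agent.StdL.Bas

/-! Images of `SU` with central kernel. The centre has odd order. `exists_ind`: `n` induces an
automorphism of `PSU`, which is semilinear; two homomorphisms agreeing modulo the centre agree. -/

set_option autoImplicit false
set_option linter.unusedSectionVars false

namespace Cfsg.Agent.StdU

open Subgroup Cfsg.Agent.Class.U Cfsg.Agent.KSG Cfsg.Agent.PLocal.Amb
open Cfsg.Agent.StdL (El Od Uq cjh)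
open scoped commutatorElement

variable {F : Type*} [Field F] {m q : ℕ} [UF F q] [CharP F 2]
  {G : Type*} [Group G] [Finite G] {ι r : SU m F q →* G} {t : G} {c : (Fin m → F) → G}

local notation "𝐡" => hermForm m F q

variable {r' : SU m F q →* G} {n n' : G} {s s' : F ≃+* F} {γ : Equiv.Perm (Fin m → F)}
  {x y : SU m F q} {E : Subgroup G}

open Cfsg.Agent.StdL (eq_one_of_odd_two exists_two_odd odd_of_pow mem_Od range_cjh cjh_apply)
open Cfsg.Agent.LnT (pgrp_of_sq inv_of_sq)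

theorem au_fin : Finite (SU m F q) :=
  have : Finite F := UF.finite q
  inferInstance

theorem Rp.cjh (h : Rp r) (g : G) : Rp (cjh g r) :=
  ⟨h.m6, h.q2, fun x e => h.ker x (conj_eq_one_iff.1 e)⟩

theorem Rp.cen1 (h : Rp r) (hx : x ∈ center (SU m F q)) {k : ℕ} (e : x ^ 2 ^ k = 1) : x = 1 :=
  eq_one_of_odd_two (odd_center (by have := h.m6; omega) hx) e

theorem Rp.eq_of (h : Rp r) {k : ℕ} (hx : x ^ 2 ^ k = 1) (hy : y ^ 2 ^ k = 1) (e : r x = r y) :
    x = y := by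
  have c : x * y⁻¹ ∈ center _ := h.ker _ (by rw [map_mul, map_inv, e, mul_inv_cancel])
  refine mul_inv_eq_one.1 (h.cen1 c (k := k) ?_)
  have : Commute (x * y⁻¹) y := (Subgroup.mem_center_iff.1 c y).symm
  have h2 := this.mul_pow (2 ^ k)
  rwa [inv_mul_cancel_right, hx, hy, mul_one, eq_comm] at h2

theorem Rp.eq_of_sq (h : Rp r) (hx : x * x = 1) (hy : y * y = 1) (e : r x = r y) : x = y :=
  h.eq_of (k := 1) (by rwa [pow_one, pow_two]) (by rwa [pow_one, pow_two]) e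

theorem Rp.eq_of_fix (h : Rp r) {p : Fin m → F} (h0 : p ≠ 0) (hx : x • p = p) (hy : y • p = p)
    (e : r x = r y) : x = y := by
  obtain ⟨a, ha⟩ := (Class.U.mem_center_iff (by have := h.m6; omega)).1
    (h.ker (y⁻¹ * x) (by rw [map_mul, map_inv, e, inv_mul_cancel]))
  have h1 : a = 1 := smul_left_injective F h0 (by
    change a • p = (1 : F) • p
    rw [← ha, mul_smul, hx, one_smul, inv_smul_eq_iff, hy])
  exact (inv_mul_eq_one.1 (SU_ext fun v => by rw [ha, h1, one_smul, one_smul])).symm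

theorem Rp.lift (h : Rp r) {k : ℕ} (e : r x ^ 2 ^ k = 1) : ∃ y, r y = r x ∧ y ^ 2 ^ k = 1 := by
  have h1 := odd_center (by have := h.m6; omega) (h.ker (x ^ 2 ^ k) (by rw [map_pow, e]))
  obtain ⟨j, hj⟩ := exists_pow_eq_self_of_coprime (x := r x) (n := orderOf (x ^ 2 ^ k))
    (Nat.Coprime.coprime_dvd_right (orderOf_dvd_of_pow_eq_one e)
      ((Nat.coprime_two_right.2 h1).pow_right k))
  refine ⟨(x ^ orderOf (x ^ 2 ^ k)) ^ j, by rw [map_pow, map_pow, hj], ?_⟩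
  rw [pow_right_comm, pow_right_comm x, pow_orderOf_eq_one, one_pow]

theorem Rp.lift_sq (h : Rp r) (e : r x * r x = 1) : ∃ y, r y = r x ∧ y * y = 1 := by
  simpa only [pow_one, pow_two] using h.lift (k := 1) (by rwa [pow_one, pow_two])

theorem Rp.comm (h : Rp r) {k : ℕ} (hy : y ^ 2 ^ k = 1) (e : r x * r y = r y * r x) :
    x * y = y * x :=
  mul_inv_eq_iff_eq_mul.1 (h.eq_of (by rw [conj_pow, hy]; simp) hy
    (by rw [map_mul, map_mul, e, map_inv, mul_inv_cancel_right]))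

theorem au_T_sq {v : Fin m → F} (hv : 𝐡 v v = 0) : T q v 1 ^ 2 ^ 1 = 1 := by
  rw [pow_one, pow_two, T_sq hv (one_pow q)]

theorem Rp.mem_of_T (h : Rp r) {H : Subgroup (SU m F q)} (e : ∀ v, 𝐡 v v = 0 → T q v 1 ∈ H)
    (x : SU m F q) : x ∈ H :=
  ((closure_T (by have := h.m6; omega)).ge.trans ((closure_le H).2 (by
    rintro _ ⟨v, hv, rfl⟩; exact e v hv))) (mem_top x)

theorem Rp.mem_center (h : Rp r) (e : ∀ y, r x * r y = r y * r x) : x ∈ center (SU m F q) :=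
  Subgroup.mem_center_iff.2 fun y => mem_centralizer_singleton_iff.1 (h.mem_of_T (fun _ hv =>
    mem_centralizer_singleton_iff.2 (h.comm (au_T_sq hv) (e _)).symm) y)

theorem Rp.odd_of_cent (h : Rp r) (e : ∀ y, r x * r y = r y * r x) : Odd (orderOf (r x)) :=
  (odd_center (by have := h.m6; omega) (h.mem_center e)).of_dvd_nat (orderOf_map_dvd r x)

theorem Rp.card_map (h : Rp r) {Q : Subgroup (SU m F q)} (hQ : IsPGroup 2 Q) :
    Nat.card (Q.map r) = Nat.card Q :=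
  (Nat.card_congr (MulEquiv.ofBijective (r.subgroupMap Q) ⟨(injective_iff_map_eq_one _).2
    fun a e => let ⟨_, hk⟩ := hQ a; Subtype.ext (h.cen1
      (h.ker _ (congrArg Subtype.val e)) (congrArg Subtype.val hk)),
    r.subgroupMap_surjective Q⟩).toEquiv).symm

theorem Rp.lift_sub (h : Rp r) {P : Subgroup G} (hP : IsPGroup 2 P) (hle : P ≤ r.range) :
    ∃ Q : Subgroup (SU m F q), IsPGroup 2 Q ∧ Q.map r = P ∧ Nat.card Q = Nat.card P ∧
      (El P → El Q) := by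
  have : Finite (SU m F q) := au_fin
  obtain ⟨Q, -, h1, rfl⟩ := StdL.exists_map_eq r (H := ⊤) hP (by rwa [← MonoidHom.range_eq_map])
  refine ⟨Q, h1, rfl, (h.card_map h1).symm, fun e a ha => ?_⟩
  obtain ⟨k, hk⟩ := isPGroup_iff.1 h1 _ (mul_mem ha ha)
  exact h.cen1 (h.ker _ (by rw [map_mul]; exact e _ ⟨a, ha, rfl⟩)) hk

theorem Rp.perfect (h : Rp r) : ⁅r.range, r.range⁆ = r.range := by
  rw [MonoidHom.range_eq_map, ← map_commutator, ← _root_.commutator_def,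
    commutator_eq_top (by have := h.m6; omega) (by have := h.m6; omega)]

theorem Rp.range_le_Od (h : Rp r) : r.range ≤ Od r.range := by
  have := Fact.mk Nat.prime_two
  have h1 : ((Od r.range).subgroupOf r.range).Normal :=
    ⟨fun x hx g => StdL.Od.conj (le_normalizer g.2) hx⟩
  have h2 : Group.IsPerfect r.range := isPerfect_iff.2 h.perfect
  have h3 : IsPGroup 2 (r.range ⧸ (Od r.range).subgroupOf r.range) := fun x => by
    obtain ⟨x, rfl⟩ := QuotientGroup.mk_surjective x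
    obtain ⟨k, m, hm, e⟩ := exists_two_odd x
    rw [pow_right_comm] at e
    exact ⟨k, (QuotientGroup.eq_one_iff _).2 (mem_Od (x ^ 2 ^ k).2
      (odd_of_pow hm (congrArg Subtype.val e)))⟩
  rw [← subgroupOf_eq_top, ← QuotientGroup.subsingleton_iff]
  by_contra c
  have := not_subsingleton_iff_nontrivial.1 c
  exact Group.IsPerfect.not_isNilpotent _ h3.isNilpotent

/-- a subgroup normalised by the image meets it in everything or in central elements -/
theorem Rp.le_or (h : Rp r) {K : Subgroup G} (hK : r.range ≤ 𝐍[K]) :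
    r.range ≤ K ∨ K ⊓ r.range ≤ 𝐂[r.range] := by
  have : (K.comap r).Normal := ⟨fun a ha g => by
    simpa using conj_mem_of_mem_normalizer (hK ⟨g, rfl⟩) ha⟩
  rcases le_center_or_eq_top (by have := h.m6; omega) (by have := h.m6; omega) (K.comap r) with e | e
  · refine .inr ?_
    rintro _ ⟨h1, a, rfl⟩ _ ⟨b, rfl⟩
    rw [← map_mul, ← map_mul, Subgroup.mem_center_iff.1 (e h1) b]
  · refine .inl ?_
    rintro _ ⟨a, rfl⟩
    exact e.ge (mem_top a)

/-- `PSU` as a central quotient of the image -/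
theorem Rp.exists_e (h : Rp r) {M : Subgroup G} (hM : M = r.range) :
    ∃ e : PSU m F q ≃* M ⧸ center M,
      ∀ x (a : M), r x = a → e (QuotientGroup.mk x) = QuotientGroup.mk a := by
  subst hM
  refine ⟨QuotientGroup.liftEquiv _ (φ := (QuotientGroup.mk' _).comp r.rangeRestrict)
    ((QuotientGroup.mk'_surjective _).comp r.rangeRestrict_surjective) ?_, fun x a e => ?_⟩
  · ext x
    refine Iff.trans ⟨fun c => Subgroup.mem_center_iff.2 ?_, fun c => h.mem_center fun y =>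
      (congrArg Subtype.val ((Subgroup.mem_center_iff (z := r.rangeRestrict x)).1 c
        (r.rangeRestrict y))).symm⟩ (QuotientGroup.eq_one_iff _).symm
    rintro ⟨_, y, rfl⟩
    exact Subtype.ext (by simp [← map_mul, Subgroup.mem_center_iff.1 c y])
  · exact congrArg QuotientGroup.mk (Subtype.ext e : r.rangeRestrict x = a)

theorem au_cmt {M : Type*} [Group M] {a b a' b' : M} (ha : a⁻¹ * a' ∈ center M)
    (hb : b⁻¹ * b' ∈ center M) : ⁅a', b'⁆ = ⁅a, b⁆ := by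
  obtain ⟨z, rfl⟩ : ∃ z, a' = a * z := ⟨a⁻¹ * a', by simp⟩
  obtain ⟨w, rfl⟩ : ∃ w, b' = b * w := ⟨b⁻¹ * b', by simp⟩
  rw [inv_mul_cancel_left, Subgroup.mem_center_iff] at ha hb
  calc _ = a * (z * (b * w)) * z⁻¹ * a⁻¹ * (w⁻¹ * b⁻¹) := by simp [commutatorElement_def, mul_assoc]
    _ = a * b * (w * a⁻¹) * (w⁻¹ * b⁻¹) := by rw [← ha]; group
    _ = _ := by rw [← hb]; simp [commutatorElement_def, mul_assoc]

theorem Rp.eq_of_le (h : Rp r) (h' : Rp r') (e : r.range ≤ r'.range) : r.range = r'.range := by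
  have : Finite (SU m F q) := au_fin
  obtain ⟨f, hf⟩ := h'.exists_e rfl
  let φ := f.symm.toMonoidHom.comp ((QuotientGroup.mk' _).comp (r.codRestrict _ fun x => e ⟨x, rfl⟩))
  have h1 : φ.ker ≤ center _ := fun x hx => h.mem_center fun y => by
    have := (QuotientGroup.eq_one_iff _).1 (f.symm.map_eq_one_iff.1 hx)
    exact (congrArg Subtype.val (Subgroup.mem_center_iff.1 this ⟨r y, e ⟨y, rfl⟩⟩)).symm
  have h2 : φ.range = ⊤ := eq_top_of_le_card _ (by
    rw [← index_ker]; exact index_antitone h1)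
  have h3 : ∀ a : r'.range, ∃ x, (⟨r x, e ⟨x, rfl⟩⟩ : r'.range)⁻¹ * a ∈ center _ := fun a => by
    obtain ⟨x, hx⟩ := h2.ge (mem_top (f.symm (QuotientGroup.mk a)))
    exact ⟨x, QuotientGroup.eq.1 (f.symm.injective hx)⟩
  refine le_antisymm e (h'.perfect.ge.trans (commutator_le.2 fun a ha b hb => ?_))
  obtain ⟨x, hx⟩ := h3 ⟨a, ha⟩
  obtain ⟨y, hy⟩ := h3 ⟨b, hb⟩
  exact ⟨⁅x, y⁆, (map_commutatorElement r x y).trans (congrArg Subtype.val (au_cmt hx hy)).symm⟩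

theorem Rp.same (h : Rp r) (h' : Rp r') (e : r.range = r'.range) :
    ∃ (s : F ≃+* F) (γ : Equiv.Perm (Fin m → F)), SI q s γ ∧ ∀ g g', Rel γ g g' → r g = r' g' := by
  have : Finite F := UF.finite q
  have h3 : 3 ≤ m := by have := h.m6; omega
  have h4 : ¬ (m = 3 ∧ q = 2) := by have := h.m6; omega
  obtain ⟨f, hf⟩ := h.exists_e rfl
  obtain ⟨f', hf'⟩ := h'.exists_e e
  obtain ⟨⟨g, σ⟩, hx⟩ := psiU_surjective h3 h4 (f.trans f'.symm)
  have hS : SI q σ (semiPerm (g : GL (Fin m) F) σ) := ⟨isSemi_semiPerm _ _, herm_semiPerm g.2 σ⟩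
  obtain ⟨α, hα⟩ := hS.exists_aut
  let ρ := (r'.comp α.toMonoidHom).codRestrict r.range fun x => e.ge ⟨_, rfl⟩
  have h1 : ∀ a, (r.rangeRestrict a)⁻¹ * ρ a ∈ center r.range := fun a => by
    have := (eq_psiU_iff _ _).1 hx.symm a (α a)
      (Subtype.ext ((semiPerm_rel_iff (g : GL (Fin m) F) σ _ _).1 (hα a)))
    exact QuotientGroup.eq.1 ((hf a _ rfl).symm.trans ((f'.symm_apply_eq.1 this).trans (hf' _ _ rfl)))
  have h2 : ⊤ ≤ r.rangeRestrict.eqLocus ρ := (commutator_eq_top h3 h4).ge.trans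
    (commutator_le.2 fun a _ b _ => (map_commutatorElement _ a b).trans
      ((au_cmt (h1 a) (h1 b)).symm.trans (map_commutatorElement _ a b).symm))
  exact ⟨σ, _, hS, fun a b c => c.uniq (hα a) ▸ congrArg Subtype.val (h2 (mem_top a))⟩

theorem Rp.exists_ind (h : Rp r) (h' : Rp r') (e : cj(n, r.range) = r'.range) :
    ∃ (s : F ≃+* F) (γ : Equiv.Perm (Fin m → F)), SI q s γ ∧
      ∀ g g', Rel γ g g' → n * r g * n⁻¹ = r' g' :=
  (h.cjh n).same h' ((range_cjh n r).trans e)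

theorem Rp.exists_ac (h : Rp r) (hn : n ∈ 𝐍[r.range]) : ∃ s, AcU r n s :=
  let ⟨s, γ, a, b⟩ := h.exists_ind h (cj_of_mem_normalizer hn)
  ⟨s, γ, a, fun g _ => b g⟩

theorem au_ind_mul {γ' : Equiv.Perm (Fin m → F)} (a : SI q s γ) (a' : SI q s' γ') (b : IndOn ⊤ r n γ)
    (b' : IndOn ⊤ r n' γ') : IndOn ⊤ r (n * n') (γ * γ') := fun g _ k e => by
  obtain ⟨g1, e1⟩ := a'.rel g
  obtain ⟨g2, e2⟩ := a.rel g1
  rw [e.uniq (e1.comp e2), ← b _ trivial _ e2, ← b' _ trivial _ e1]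
  group

theorem au_ind_inv (b : IndOn ⊤ r n γ) : IndOn ⊤ r n⁻¹ γ⁻¹ := fun g _ k e => by
  rw [← b k trivial g (by simpa using e.symm)]
  group

theorem au_ind_cent (hn : ∀ y, n * r y = r y * n) : IndOn ⊤ r n 1 := fun g _ k e => by
  rw [e.uniq (rel_refl g), hn, mul_inv_cancel_right]

theorem au_ind_su (x : SU m F q) : IndOn ⊤ r (r x) (MulAction.toPerm x) := fun g _ k e => by
  rw [e.uniq (rel_su x g), map_mul, map_mul, map_inv]

theorem au_ind_pow (a : SI q s γ) (b : IndOn ⊤ r n γ) (k : ℕ) : IndOn ⊤ r (n ^ k) (γ ^ k) := by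
  induction k with
  | zero => rw [pow_zero, pow_zero]; exact au_ind_cent fun y => by simp
  | succ k ih => rw [pow_succ, pow_succ]; exact au_ind_mul (a.pow k) a ih b

theorem Rel.au_pow (h : Rel γ x y) (k : ℕ) : Rel γ (x ^ k) (y ^ k) := by
  induction k with
  | zero => rw [pow_zero, pow_zero]; exact rel_one γ
  | succ k ih => rw [pow_succ, pow_succ]; exact ih.mul h

theorem Rp.rel_self (h : Rp r) (hγ : SI q s γ) (hi : IndOn ⊤ r n γ) {k : ℕ} (hx : x ^ 2 ^ k = 1)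
    (e : n * r x = r x * n) : Rel γ x x := by
  obtain ⟨y, hy⟩ := hγ.rel x
  rwa [h.eq_of (x := y) ((hx ▸ hy.au_pow (2 ^ k)).uniq (rel_one γ)) hx
    (by rw [← hi x trivial y hy, e, mul_inv_cancel_right])] at hy

theorem Rp.triv (h : Rp r) (hγ : SI q s γ) (hi : IndOn ⊤ r n γ) (e : ∀ y, n * r y = r y * n) :
    s = 1 ∧ ∃ l : F, l * l ^ q = 1 ∧ ∀ v, γ v = l • v :=
  hγ.scalar (by have := h.m6; omega) fun _ hv => h.rel_self hγ hi (au_T_sq hv) (e _)

theorem AcU.mul (h1 : AcU r n s) (h2 : AcU r n' s') : AcU r (n * n') (s * s') :=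
  let ⟨_, a, b⟩ := h1
  let ⟨_, a', b'⟩ := h2
  ⟨_, a.mul a', au_ind_mul a a' b b'⟩

theorem AcU.inv (h1 : AcU r n s) : AcU r n⁻¹ s⁻¹ :=
  let ⟨_, a, b⟩ := h1
  ⟨_, a.inv, au_ind_inv b⟩

theorem AcU.uniq (h : Rp r) (h1 : AcU r n s) (h2 : AcU r n s') : s = s' :=
  let ⟨_, a, b⟩ := h1.inv.mul h2
  inv_mul_eq_one.1 (h.triv a b fun y => by simp).1

theorem AcU.pow (h1 : AcU r n s) (k : ℕ) : AcU r (n ^ k) (s ^ k) :=
  let ⟨_, a, b⟩ := h1
  ⟨_, a.pow k, au_ind_pow a b k⟩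

theorem AcU.mem (h1 : AcU r n s) : n ∈ 𝐍[r.range] := by
  obtain ⟨γ, a, b⟩ := h1
  refine mem_normalizer_of_cj_le ?_
  rintro _ ⟨_, ⟨x, rfl⟩, rfl⟩
  obtain ⟨y, e⟩ := a.rel x
  exact ⟨y, (b x trivial y e).symm⟩

theorem AcU.cj (h1 : AcU r n s) (g : G) : AcU (cjh g r) (g * n * g⁻¹) s :=
  let ⟨γ, a, b⟩ := h1
  ⟨γ, a, fun x _ y e => by rw [cjh_apply, cjh_apply, ← b x trivial y e]; group⟩

/-- the field automorphism does not depend on the parametrisation -/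
theorem AcU.of_range (h : Rp r) (h' : Rp r') (e : r.range = r'.range) (h1 : AcU r n s) :
    AcU r' n s := by
  have : Finite F := UF.finite q
  obtain ⟨σ, δ, a, b⟩ := h.same h' e
  obtain ⟨γ, a', b'⟩ := h1
  have h2 := a.mul (a'.mul a.inv)
  rw [ringAut_comm s, mul_inv_cancel_left] at h2
  refine ⟨_, h2, fun g _ k c => ?_⟩
  obtain ⟨g1, e1⟩ := a.inv.rel g
  obtain ⟨g2, e2⟩ := a'.rel g1
  obtain ⟨g3, e3⟩ := a.rel g2
  rw [c.uniq ((e1.comp e2).comp e3), ← b _ _ e3, ← b' _ trivial _ e2,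
    b g1 g (by simpa using e1.symm)]

theorem acU_range (x : SU m F q) : AcU r (r x) 1 := ⟨_, si_su x, au_ind_su x⟩

theorem acU_cent (hn : ∀ y, n * r y = r y * n) : AcU r n 1 := ⟨1, SI.one, au_ind_cent hn⟩

theorem Rp.exists_pi (h : Rp r) : ∃ π : 𝐍[r.range] →* RingAut F,
    ∀ (n : 𝐍[r.range]) (s : F ≃+* F), AcU r (n : G) s ↔ π n = s := by
  choose π hπ using fun n : 𝐍[r.range] => h.exists_ac n.2
  exact ⟨.mk' π fun a b => AcU.uniq h (hπ _) ((hπ a).mul (hπ b)), fun n s =>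
    ⟨fun e => AcU.uniq h (hπ n) e, fun e => e ▸ hπ n⟩⟩

/-- `γ` is a scalar multiple of `g` -/
theorem au_ind_smul (hi : IndOn ⊤ r n γ) {l : F} (e : ∀ v, γ v = l • x • v) (y : SU m F q) :
    n * r y * n⁻¹ = r (x * y * x⁻¹) :=
  hi y trivial _ fun v => by rw [e, e, SU_smul_comm, mul_smul, inv_smul_smul, mul_smul]

theorem Rp.inner (h : Rp r) (hA : AcU r n 1) {k : ℕ} (h2 : ∀ y, n ^ 2 ^ k * r y = r y * n ^ 2 ^ k) :
    ∃ x : SU m F q, x ^ 2 ^ k = 1 ∧ ∀ y, n * r y * n⁻¹ = r (x * y * x⁻¹) := by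
  obtain ⟨γ, a, b⟩ := hA
  obtain ⟨-, l, -, e⟩ := h.triv (a.pow _) (au_ind_pow a b _) h2
  obtain ⟨l', -, g, h3, h4⟩ := a.su_of_two e
  exact ⟨g, h3, au_ind_smul b h4⟩

theorem Rp.nf (h : Rp r) (hγ : SI q s γ) (hi : IndOn ⊤ r n γ) {N : ℕ}
    (h2 : ∀ y, n ^ N * r y = r y * n ^ N) : s ^ N = 1 ∧ (Even (orderOf s) → γ ^ N = 1) :=
  let ⟨_, _, _, e⟩ := h.triv (hγ.pow _) (au_ind_pow hγ hi _) h2
  hγ.pow_scalar (by have := h.m6; omega) e

theorem Rp.fld (h : Rp r) (hA : AcU r n s) {j : ℕ} (hj : orderOf s = 2 ^ (j + 1)) :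
    ∃ (x : SU m F q) (γ : Equiv.Perm (Fin m → F)), SI q s γ ∧ IndOn ⊤ r (r x * n) γ ∧
      γ ^ orderOf s = 1 := by
  obtain ⟨γ, a, b⟩ := hA
  obtain ⟨g, e⟩ := a.fld (by have := h.m6; omega) hj
  exact ⟨g, _, one_mul s ▸ (si_su g).mul a, au_ind_mul (si_su g) a (au_ind_su g) b, e⟩

theorem Rp.el_card_le (h : Rp r) (hE : El E) (hle : E ≤ r.range) :
    Nat.card E ≤ q ^ (m / 2) ^ 2 :=
  let ⟨_, _, _, a, b⟩ := h.lift_sub (pgrp_of_sq hE) hle
  a ▸ StdU.el_card_le (b hE)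

theorem Rp.el_eq (h : Rp r) (hE : El E) (hle : E ≤ r.range) (hc : q ^ (m / 2) ^ 2 ≤ Nat.card E) :
    ∃ W, MTI q W ∧ E = (VW q W).map r := by
  obtain ⟨Q, -, rfl, a, b⟩ := h.lift_sub (pgrp_of_sq hE) hle
  obtain ⟨W, h1, rfl⟩ := el_eq_VW (b hE) (a ▸ hc)
  exact ⟨W, h1, rfl⟩

theorem Rp.card_le (h : Rp r) (hA : AcU r n s) (he : Even (orderOf s))
    (h2 : ∀ y, n ^ orderOf s * r y = r y * n ^ orderOf s) (hE : El E) (hle : E ≤ r.range)
    (hc : ∀ e ∈ E, n * e = e * n) :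
    Nat.card E ≤ Nat.card {a : F // s a = a} ^ (m / 2 * (m / 2 + 1) / 2) := by
  obtain ⟨γ, a, b⟩ := hA
  obtain ⟨Q, -, rfl, h3, h4⟩ := h.lift_sub (pgrp_of_sq hE) hle
  exact h3 ▸ a.el_card_le ((h.nf a b h2).2 he) he (h4 hE) fun g hg => h.rel_self a b (k := 1)
    (by rw [pow_one, pow_two, h4 hE g hg]) (hc _ ⟨g, hg, rfl⟩)

theorem au_sp_lt {k : ℕ} (hk : 3 ≤ k) (hq : 2 ≤ q) : 4 * q ^ (k * (k + 1) / 2) < q ^ k ^ 2 := by
  have h1 : k * (k + 1) / 2 + 3 ≤ k ^ 2 := by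
    have := Nat.div_mul_le_self (k * (k + 1)) 2
    nlinarith
  refine lt_of_lt_of_le ?_ (Nat.pow_le_pow_right (by omega) h1)
  rw [pow_add, mul_comm]
  exact Nat.mul_lt_mul_of_pos_left ((by norm_num : 4 < 2 ^ 3).trans_le (Nat.pow_le_pow_left hq 3))
    (Nat.pow_pos (by omega))

/-- an element acting as an involution and centralising a large elementary group is linear -/
theorem Rp.lin_of_big (h : Rp r) (hA : AcU r n s) (h2 : ∀ y, n * n * r y = r y * (n * n)) (hE : El E)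
    (hle : E ≤ r.range) (hc : ∀ e ∈ E, n * e = e * n) (hb : q ^ (m / 2) ^ 2 ≤ 4 * Nat.card E) :
    s = 1 := by
  by_contra c
  rw [← pow_two] at h2
  have h3 : orderOf s = 2 :=
    let ⟨_, a, b⟩ := hA
    orderOf_eq_prime (h.nf a b h2).1 c
  have h4 := h.card_le hA (h3 ▸ even_two) (h3 ▸ h2) hE hle hc
  have h5 := card_fix (q := q) s
  rw [h3, Nat.pow_left_inj two_ne_zero] at h5
  have := au_sp_lt (k := m / 2) (by have := h.m6; omega) (two_le_q F q)
  rw [h5] at h4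
  omega

theorem au_two_mul {C : Subgroup (SU m F q)} {U U' : Submodule F (Fin m → F)} {v : Fin m → F}
    (hU : U ≤ U') (hv : 𝐡 v v = 0) (h1 : v ∈ U') (h2 : v ∉ U) (h3 : T q v 1 ∈ C) :
    2 * Nat.card ↥(VW q U ⊓ C) ≤ Nat.card ↥(VW q U' ⊓ C) := by
  have : Finite (SU m F q) := au_fin
  have h4 : VW q U ⊓ C ≤ VW q U' ⊓ C := inf_le_inf_right C (VW_mono hU)
  obtain ⟨k, hk⟩ := card_dvd_of_le h4
  have h5 : k ≠ 1 := fun e => by
    have := (eq_of_le_of_card_ge h4 (by rw [hk, e, mul_one])).ge ⟨T_mem_VW hv (one_pow q) h1, h3⟩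
    obtain ⟨x, hx⟩ := exists_herm_ne_zero (q := q) (u := v) fun e => h2 (e ▸ zero_mem U)
    have h6 := mem_VW'.1 this.1 x
    rw [T_smul hv (one_pow q), one_mul, add_right_comm, LnT.vadd_self, zero_add] at h6
    exact h2 ((U.smul_mem_iff (herm_comm_ne hx)).1 h6)
  have h6 : k ≠ 0 := fun e => Nat.card_pos.ne' (by rw [hk, e, mul_zero])
  rw [hk, mul_comm]
  exact Nat.mul_le_mul_left _ (by omega)

/-- an element acting as a field automorphism of order `2 ^ j` (or as an involution) centralises a group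
of order `8` -/
theorem Rp.eight (h : Rp r) (hA : AcU r n s) {j : ℕ} (h2 : ∀ y, n ^ 2 ^ j * r y = r y * n ^ 2 ^ j)
    (hj : j = 1 ∨ orderOf s = 2 ^ j) :
    ∃ E ≤ r.range, El E ∧ 8 ≤ Nat.card E ∧ ∀ e ∈ E, n * e = e * n := by
  have : Finite (SU m F q) := au_fin
  suffices ∃ Q : Subgroup (SU m F q), El Q ∧ 8 ≤ Nat.card Q ∧ ∀ e ∈ Q, n * r e = r e * n by
    obtain ⟨Q, a, b, c⟩ := this
    refine ⟨Q.map r, map_le_range r Q, ?_, by rwa [h.card_map (pgrp_of_sq a)], ?_⟩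
    · rintro _ ⟨e, he, rfl⟩; rw [← map_mul, a e he, map_one]
    · rintro _ ⟨e, he, rfl⟩; exact c e he
  by_cases c : s = 1
  · subst c
    obtain ⟨x, h3, h4⟩ := h.inner hA (k := 1) (by
      rcases hj with rfl | e
      · exact h2
      · rw [orderOf_one] at e
        rw [← e, pow_one] at h2
        exact fun y => (show Commute n (r y) from h2 y).pow_left _)
    obtain ⟨W, h5, h6⟩ := exists_VW (g := x) (by rwa [pow_one, pow_two] at h3)
    refine ⟨VW q W, h5.1.el, ?_, fun e he => mul_inv_eq_iff_eq_mul.1 ?_⟩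
    · rw [card_VW h5.1, h5.2]
      have := h.m6
      exact (Nat.pow_le_pow_left (two_le_q F q) 3).trans (Nat.pow_le_pow_right
        (by have := two_le_q F q; omega) (by nlinarith [show 3 ≤ m / 2 by omega]))
    · rw [h4, h5.1.el.comm h6 he, mul_inv_cancel_right]
  obtain ⟨γ, a, b⟩ := hA
  obtain ⟨h3, h4⟩ := h.nf a b h2
  replace hj : orderOf s = 2 ^ j := hj.elim (fun e => by subst e; exact orderOf_eq_prime (p := 2) h3 c) id
  obtain ⟨v, h5, h6, h7⟩ := a.fix_triple h.m6 (hj ▸ h4 (hj ▸ (Nat.even_pow' (by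
    rintro rfl; exact c (orderOf_eq_one_iff.1 hj))).2 even_two)) hj
  let C := (centralizer {n}).comap r
  let U : ℕ → Submodule F (Fin m → F) := fun k => Submodule.span F (v '' {i | i.1 < k})
  have h8 : ∀ i : Fin 3, 2 * Nat.card ↥(VW q (U i) ⊓ C) ≤ Nat.card ↥(VW q (U (i + 1)) ⊓ C) :=
    fun i => au_two_mul (Submodule.span_mono (Set.image_mono fun k hk => Nat.lt_succ_of_lt hk))
      (h7 i i) (Submodule.subset_span ⟨i, Nat.lt_succ_self _, rfl⟩)
      (h5.notMem_span_image (lt_irrefl i.1)) (mem_centralizer_singleton_iff.2 (by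
        have := b _ trivial _ (a.rel_T (h7 i i) (one_pow q))
        rw [h6, map_one] at this
        exact (mul_inv_eq_iff_eq_mul.1 this).symm))
  refine ⟨VW q (U 3) ⊓ C, fun e he => TI.el (ti_span ?_) e he.1, ?_,
    fun e he => (mem_centralizer_singleton_iff.1 he.2).symm⟩
  · rintro _ ⟨i, -, rfl⟩ _ ⟨k, -, rfl⟩; exact h7 i k
  · have a0 : 2 * Nat.card ↥(VW q (U 0) ⊓ C) ≤ Nat.card ↥(VW q (U 1) ⊓ C) := h8 0
    have a1 : 2 * Nat.card ↥(VW q (U 1) ⊓ C) ≤ Nat.card ↥(VW q (U 2) ⊓ C) := h8 1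
    have a2 : 2 * Nat.card ↥(VW q (U 2) ⊓ C) ≤ Nat.card ↥(VW q (U 3) ⊓ C) := h8 2
    have := Nat.card_pos (α := ↥(VW q (U 0) ⊓ C))
    omega

theorem Rp.cent_of (h : Rp r) {K : Subgroup G} (h1 : r.range ≤ 𝐍[K]) (h2 : K ≤ 𝐍[r.range])
    (h3 : ¬ r.range ≤ K) : r.range ≤ 𝐂[K] := by
  have h4 : ⁅K, r.range⁆ ≤ 𝐂[r.range] := le_trans (commutator_le.2 fun a ha b hb => mem_inf.2 ⟨by
    simpa [commutatorElement_def, mul_assoc] using mul_mem ha
      (conj_mem_of_mem_normalizer (h1 hb) (inv_mem ha)), mul_mem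
      (conj_mem_of_mem_normalizer (h2 ha) hb) (inv_mem hb)⟩) ((h.le_or h1).resolve_left h3)
  rw [← commutator_eq_bot_iff_le_centralizer] at h4 ⊢
  rw [← h.perfect]
  exact commutator_commutator_eq_bot_of_rotate (by rwa [commutator_comm r.range K]) h4

/-- the normaliser of a product of two commuting copies permutes them -/
theorem Rp.perm (h : Rp r) (h' : Rp r') (hc : ∀ x y, r x * r' y = r' y * r x)
    (hcard : Nat.card r.range = Nat.card r'.range) (hn : n ∈ 𝐍[r.range ⊔ r'.range]) :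
    (n ∈ 𝐍[r.range] ∧ n ∈ 𝐍[r'.range]) ∨
      (cj(n, r.range) = r'.range ∧ cj(n, r'.range) = r.range) := by
  have c1 : r.range ≤ 𝐂[r'.range] := by rintro _ ⟨x, rfl⟩ _ ⟨y, rfl⟩; exact (hc x y).symm
  have n1 : r.range ⊔ r'.range ≤ 𝐍[r.range] := sup_le le_normalizer
    ((le_centralizer_iff.1 c1).trans (centralizer_le_normalizer' _))
  have n2 : r.range ⊔ r'.range ≤ 𝐍[r'.range] := sup_le (c1.trans (centralizer_le_normalizer' _))
    le_normalizer
  have key : ∀ {ρ : SU m F q →* G}, Rp ρ → ρ.range ≤ r.range ⊔ r'.range →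
      r.range ⊔ r'.range ≤ 𝐍[ρ.range] → Nat.card ρ.range = Nat.card r.range →
      cj(n, ρ.range) = r.range ∨ cj(n, ρ.range) = r'.range := fun {ρ} a b d e => by
    have b' := cj_le_of_mem_normalizer b hn
    have d' : r.range ⊔ r'.range ≤ 𝐍[cj(n, ρ.range)] := by
      rw [normalizer_cj, ← cj_of_mem_normalizer hn]; exact cj_mono n d
    by_contra c
    rw [not_or] at c
    have h1 := sup_le (h.cent_of (le_sup_left.trans d') (b'.trans n1) fun f =>
      c.1 (eq_of_le_of_card_ge f (by rw [card_cj, e])).symm) (h'.cent_of (le_sup_right.trans d')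
      (b'.trans n2) fun f => c.2 (eq_of_le_of_card_ge f (by rw [card_cj, e, hcard])).symm)
    have h2 := b'.trans h1
    rw [centralizer_cj, cj_le_cj_iff] at h2
    exact center_ne_top (n := m) (F := F) (q := q) (by have := h.m6; omega) (eq_top_iff.2 fun x _ =>
      a.mem_center fun y => (h2 ⟨x, rfl⟩ _ ⟨y, rfl⟩).symm)
  rcases key h le_sup_left n1 rfl with a | a <;> rcases key h' le_sup_right n2 hcard.symm with b | b
  · exact .inl ⟨cj_eq_iff.1 a, cj_inj.1 (a.trans b.symm) ▸ cj_eq_iff.1 a⟩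
  · exact .inl ⟨cj_eq_iff.1 a, cj_eq_iff.1 b⟩
  · exact .inr ⟨a, b⟩
  · exact .inl ⟨cj_inj.1 (b.trans a.symm) ▸ cj_eq_iff.1 b, cj_eq_iff.1 b⟩

end Cfsg.Agent.StdU
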