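import Cfsg.Agent.StdU.AutM1

/-! Automorphisms of `M = Fx {p}` permuting the groups `VW W`, `p ∈ W` maximal, are induced by
semilinear isometries. -/

set_option autoImplicit false
set_option linter.unusedSectionVars false

namespace Cfsg.Agent.StdU

open Subgroup Cfsg.Agent.Class.U Cfsg.Agent.KSG Cfsg.Agent.PLocal.Amb
open Cfsg.Agent.StdL (El Od Uq cjh)
open scoped commutatorElement

variable {F : Type*} [Field F] {m q : ℕ} [UF F q] [CharP F 2]

local notation "𝐡" => hermForm m F q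

section

variable {p z y : Fin m → F} {a : F} {b : SU m F q → SU m F q} {φ : (Fin m → F) → Fin m → F}
  {U : Submodule F (Fin m → F)}

theorem am_sm (c : F) (e : 𝐡 y p = 0) : 𝐡 (c • y) p = 0 := by rw [herm_smul_left, e, mul_zero]

theorem am_ad {y' : Fin m → F} (e : 𝐡 y p = 0) (e' : 𝐡 y' p = 0) : 𝐡 (y + y') p = 0 := by
  rw [herm_add_left, e, e', add_zero]

theorem Ok.am_VW (h : Ok q p y a) (h0 : p ≠ 0) (hp : p ∈ U) : sg q p y a ∈ VW q U ↔ y ∈ U := by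
  refine ⟨fun e => ?_, fun e x hx => h.isSiegel.smul_of_orth (hx p hp) (hx y e)⟩
  obtain ⟨z, -, hz⟩ := exists_partner h0 h.uu
  have := mem_VW'.1 e z
  rwa [sg_smul h, herm_comm_one hz, one_smul, add_comm, ← add_assoc, ← add_assoc, ← add_assoc,
    lA_add_self, zero_add, U.add_mem_iff_left (U.smul_mem _ hp),
    U.add_mem_iff_left (U.smul_mem _ hp)] at this

theorem am_one (hp : p ∈ U)
    (h : Module.finrank F U = Module.finrank F (Submodule.span F {p})) : U = Submodule.span F {p} :=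
  (Submodule.eq_of_le_of_finrank_eq ((Submodule.span_singleton_le_iff_mem _ _).2 hp) h.symm).symm

theorem am_ti (hp : 𝐡 p p = 0) : TI q (Submodule.span F {p}) :=
  ti_span (by rintro _ rfl _ rfl; exact hp)

theorem am_semi (hm : 6 ≤ m) (H : Hyp q ⊤ p z) (hX : ∀ y, 𝐡 y p = 0 → φ y ∈ perp2 q ⊤ p z)
    (ad : ∀ y y', 𝐡 y p = 0 → 𝐡 y' p = 0 → φ (y + y') = φ y + φ y')
    (ln : ∀ U, TI q U → p ∈ U → ∃ U' : Submodule F (Fin m → F), p ∈ U' ∧
      Module.finrank F U' = Module.finrank F U ∧ ∀ y, 𝐡 y p = 0 → (φ y ∈ U' ↔ y ∈ U)) :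
    ∃ s : F ≃+* F, ∀ y, 𝐡 y p = 0 → ∀ c : F, φ (c • y) = s c • φ y := by
  have : Finite F := UF.finite q
  have h0 := H.ne
  have pm := Submodule.mem_span_singleton_self (R := F) p
  have l0 : ∀ y, 𝐡 y p = 0 → (φ y ∈ Submodule.span F {p} ↔ y ∈ Submodule.span F {p}) := by
    obtain ⟨U', a, b, c⟩ := ln _ (am_ti H.pp) pm
    exact am_one a b ▸ c
  have l1 : ∀ y, 𝐡 y p = 0 → y ∈ Submodule.span F {p} → φ y = 0 := fun y hy e =>
    let ⟨c, e⟩ := Submodule.mem_span_singleton.1 ((l0 y hy).2 e)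
    H.cong (hX y hy) (zero_mem _) (c := c) (by rw [zero_add, e])
  have l2 : ∀ u, O2 q p u → u ∉ Submodule.span F {p} → ∀ y, 𝐡 y p = 0 →
      (φ y ∈ Submodule.span F {φ u} ↔ y ∈ Submodule.span F {p, u}) := fun u hu e y hy => by
    obtain ⟨U', a, b, c⟩ := ln _ hu.ti (Submodule.subset_span (by simp))
    have h1 := Submodule.finrank_lt_finrank_of_lt (lB_lt_sup (mt (l0 u hu.rl).1 e))
    have h2 := am_two h0 u
    rw [finrank_span_singleton h0] at h1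
    rw [← c y hy, ← Submodule.eq_of_le_of_finrank_le (sup_le ((Submodule.span_singleton_le_iff_mem
      _ _).2 a) ((Submodule.span_singleton_le_iff_mem _ _).2 ((c u hu.rl).2
        (Submodule.subset_span (by simp))))) (by omega)]
    refine ⟨Submodule.mem_sup_right, fun e => ?_⟩
    obtain ⟨_, e1, x, e2, e3⟩ := Submodule.mem_sup.1 e
    obtain ⟨d, rfl⟩ := Submodule.mem_span_singleton.1 e1
    rwa [H.cong (hX y hy) ((Submodule.span_singleton_le_iff_mem _ _).2 (hX u hu.rl) e2) (c := d)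
      (by rw [← e3, add_comm])]
  have l3 : ∀ u, O2 q p u → u ∉ Submodule.span F {p} → ∀ c : F, ∃ d : F, φ (c • u) = d • φ u :=
    fun u hu e c => (Submodule.mem_span_singleton.1 ((l2 u hu e _ (am_sm c hu.rl)).2
      (Submodule.smul_mem _ c (Submodule.subset_span (by simp))))).imp fun _ => Eq.symm
  have sp : ∀ u, Submodule.span F {p} ≤ Submodule.span F {p, u} := fun u =>
    Submodule.span_mono (by simp)
  have ne : ∀ u, 𝐡 u p = 0 → u ∉ Submodule.span F {p} → φ u ≠ 0 := fun u hu e c =>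
    e ((l0 u hu).1 (c ▸ zero_mem _))
  have adj : ∀ {u u' c d}, O2 q p u → u ∉ Submodule.span F {p} → O2 q p u' → 𝐡 u u' = 0 →
      u' ∉ Submodule.span F {p, u} → φ (c • u) = d • φ u → φ (c • u') = d • φ u' :=
    fun {u u' c d} a1 a2 a3 a4 a5 a6 => by
      obtain ⟨d', e1⟩ := l3 u' a3 (fun e => a5 (sp u e)) c
      obtain ⟨d'', e2⟩ := l3 _ (a1.add a3 ⟨a1.r, a3.r, a4⟩) (fun e => a5 ((Submodule.add_mem_iff_right
        _ (Submodule.subset_span (by simp))).1 (sp u e))) c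
      rw [smul_add, ad _ _ (am_sm c a1.rl) (am_sm c a3.rl), ad _ _ a1.rl a3.rl, a6, e1, smul_add] at e2
      obtain ⟨rfl, rfl⟩ := lC_pair (ne u a1.rl a2) (mt (l2 u a1 a2 u' a3.rl).1 a5) e2
      exact e1
  obtain ⟨u, a1, a2, a3⟩ := exists_iso_perp (am_ti H.pp) (by rw [finrank_span_singleton h0]; omega)
  have hu : O2 q p u := ⟨H.pp, a3, herm_comm_zero (am_mem_perp.1 a1)⟩
  choose σ hσ using l3 u hu a2
  obtain ⟨w, w1, w2, w3⟩ := exists_iso_perp hu.ti (by have := am_two h0 u; omega)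
  have w4 : O2 q p w := ⟨H.pp, w3, herm_comm_zero (mem_perp_span.1 w1 p (by simp))⟩
  have w5 : O2 q u w := ⟨a3, w3, herm_comm_zero (mem_perp_span.1 w1 u (by simp))⟩
  have all : ∀ y, 𝐡 y p = 0 → ∀ c : F, φ (c • y) = σ c • φ y := fun y hy => by
    refine am_ind hm H.pp h0 (P := fun y => ∀ c : F, φ (c • y) = σ c • φ y) (fun v hv c => ?_)
      (fun u v a a' e e' c => by
        rw [smul_add, ad _ _ (am_sm c a) (am_sm c a'), ad _ _ a a', e, e', smul_add]) hy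
    by_cases e0 : v ∈ Submodule.span F {p}
    · rw [l1 v hv.rl e0, l1 _ (am_sm c hv.rl) (Submodule.smul_mem _ c e0), smul_zero]
    by_cases e1 : 𝐡 u v = 0
    · by_cases e2 : v ∈ Submodule.span F {p, u}
      · refine adj w4 (fun e => w2 (sp u e)) hv (w1 v e2) (fun e => w2 ?_)
          (adj hu a2 w4 w5.lr w2 (hσ c))
        rw [Set.pair_comm] at e
        exact Submodule.span_le.2 (Set.insert_subset e2 (Set.singleton_subset_iff.2 (sp u pm)))
          (mem_span_insert_exchange e e0)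
      · exact adj hu a2 hv e1 e2 (hσ c)
    have b1 := w4.add (hu.am_smul (𝐡 w v / 𝐡 u v)) (w5.symm.am_smul _)
    have b2 := w5.add ((O2.self a3).am_smul (𝐡 w v / 𝐡 u v)) (w5.symm.am_smul _)
    have b3 : w + (𝐡 w v / 𝐡 u v) • u ∉ Submodule.span F {p, u} := fun e => w2
      ((Submodule.add_mem_iff_left _ (Submodule.smul_mem _ _ (Submodule.subset_span (by simp)))).1 e)
    refine adj b1 (fun e => b3 (sp u e)) hv (by
      rw [herm_add_left, herm_smul_left, div_mul_cancel₀ _ e1, CharTwo.add_self_eq_zero])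
      (fun e => e1 (mem_perp_span.2 ?_ v e)) (adj hu a2 b1 b2.lr b3 (hσ c))
    rintro _ (rfl | rfl)
    exacts [hu.rl, b2.lr]
  have inj := smul_left_injective F (ne u hu.rl a2)
  let f : F →+* F :=
    { toFun := σ
      map_one' := inj ((hσ 1).symm.trans (by simp))
      map_mul' := fun c d => inj ((hσ _).symm.trans (by
        rw [mul_smul, all _ (am_sm d hu.rl), hσ, smul_smul]))
      map_zero' := inj ((hσ 0).symm.trans (by
        rw [zero_smul, l1 0 (herm_zero_left _) (zero_mem _)]; exact (zero_smul _ _).symm))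
      map_add' := fun c d => inj ((hσ _).symm.trans (by
        rw [add_smul, ad _ _ (am_sm c hu.rl) (am_sm d hu.rl), hσ, hσ, ← add_smul])) }
  exact ⟨.ofBijective f (Finite.injective_iff_bijective.1 f.injective), all⟩

theorem am_form (hm : 6 ≤ m) (hp : 𝐡 p p = 0) (h0 : p ≠ 0) {s : F ≃+* F} {ρ : F → F}
    (ad : ∀ y y', 𝐡 y p = 0 → 𝐡 y' p = 0 → φ (y + y') = φ y + φ y')
    (sm : ∀ y, 𝐡 y p = 0 → ∀ c : F, φ (c • y) = s c • φ y)
    (ra : ∀ a a' : F, a ^ q = a → a' ^ q = a' → ρ (a + a') = ρ a + ρ a') (r1 : ρ 1 = 1)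
    (nm : ∀ y, 𝐡 y p = 0 → ρ (𝐡 y y) = 𝐡 (φ y) (φ y)) :
    (∀ a : F, a ^ q = a → ρ a = s a) ∧
      ∀ y y', 𝐡 y p = 0 → 𝐡 y' p = 0 → 𝐡 (φ y) (φ y') = s (𝐡 y y') := by
  have pol : ∀ y y', 𝐡 y p = 0 → 𝐡 y' p = 0 → ∀ c : F, ρ (c * 𝐡 y y' + (c * 𝐡 y y') ^ q) =
      s c * 𝐡 (φ y) (φ y') + (s c * 𝐡 (φ y) (φ y')) ^ q := fun y y' a a' c => by
    rw [← herm_smul_left, ← herm_smul_left, ← sm y a]
    replace a := am_sm c a
    generalize c • y = y at a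
    have e : ∀ y y', 𝐡 (y + y') (y + y') = 𝐡 y y + 𝐡 y' y' + (𝐡 y y' + 𝐡 y y' ^ q) := fun y y' => by
      rw [herm_add_left, herm_add_right, herm_add_right, herm_pow]; ring
    have := nm _ (am_ad a a')
    rw [ad _ _ a a', e, e, ra _ _ (am_add (herm_pow _ _) (herm_pow _ _)) (am_tr _),
      ra _ _ (herm_pow _ _) (herm_pow _ _), nm y a, nm y' a'] at this
    exact add_left_cancel this
  obtain ⟨u, a1, a2, -⟩ := exists_iso_perp (am_ti hp) (by rw [finrank_span_singleton h0]; omega)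
  obtain ⟨v, b1, b2⟩ := dual' (q := q) a2
  obtain ⟨ω, hω⟩ := exists_om (F := F) (q := q)
  have h1 := pol u v (am_mem_perp.1 a1) (am_mem_perp.1 b1)
  generalize 𝐡 (φ u) (φ v) = μ at h1
  simp only [b2, mul_one] at h1
  have r0 : ρ 0 = 0 := by simpa using ra 0 0 lA_zero_pow lA_zero_pow
  have h2 : μ ^ q = μ := by
    have := h1 1
    rw [one_pow, CharTwo.add_self_eq_zero, r0, map_one, one_mul] at this
    exact (CharTwo.add_eq_zero.1 this.symm).symm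
  have h3 : ∀ c, ρ (c + c ^ q) = s (c + c ^ q) * μ := fun c => by
    rw [h1, mul_pow, h2, map_add, map_pow, add_mul]
  have h4 : μ = 1 := by simpa [hω, r1] using (h3 ω).symm
  simp only [h4, mul_one] at h3
  refine ⟨fun a ha => ?_, fun y y' a a' => ?_⟩
  · have := h3 (a * ω)
    rwa [mul_pow, ha, ← mul_add, hω, mul_one] at this
  by_contra e
  have h5 := pol y y' a a' (s.symm (ω / (𝐡 (φ y) (φ y') - s (𝐡 y y'))))
  rw [h3, map_add, map_pow, map_mul, s.apply_symm_apply] at h5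
  have h6 := div_mul_cancel₀ ω (sub_ne_zero.2 e)
  generalize ω / (𝐡 (φ y) (φ y') - s (𝐡 y y')) = d at h5 h6
  rw [← h6, mul_sub, CharTwo.sub_eq_add, lA_add_pow] at hω
  exact zero_ne_one (α := F) (by
    linear_combination hω + h5 - (d * s (𝐡 y y') + (d * s (𝐡 y y')) ^ q) *
      (CharTwo.two_eq_zero (R := F)))

theorem am_ext (H : Hyp q ⊤ p z) {s : F ≃+* F} (hX : ∀ y, 𝐡 y p = 0 → φ y ∈ perp2 q ⊤ p z)
    (ad : ∀ y y', 𝐡 y p = 0 → 𝐡 y' p = 0 → φ (y + y') = φ y + φ y')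
    (sm : ∀ y, 𝐡 y p = 0 → ∀ c : F, φ (c • y) = s c • φ y)
    (fm : ∀ y y', 𝐡 y p = 0 → 𝐡 y' p = 0 → 𝐡 (φ y) (φ y') = s (𝐡 y y')) :
    ∃ γ, SI q s γ ∧ γ p = p ∧ ∀ y, 𝐡 y p = 0 → ∃ c : F, φ y = γ y + c • p := by
  have : Finite F := UF.finite q
  have zp := herm_comm_one H.py
  have h1 : ∀ x, 𝐡 (x + 𝐡 x p • z) p = 0 := fun x => by
    rw [herm_add_left, herm_smul_left, zp, mul_one, CharTwo.add_self_eq_zero]
  let f : (Fin m → F) → Fin m → F := fun x => φ (x + 𝐡 x p • z) + s (𝐡 x z) • p + s (𝐡 x p) • z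
  have h2 : ∀ x x', 𝐡 (f x) (f x') = s (𝐡 x x') := fun x x' => by
    have a := hX _ (h1 x)
    have a' := hX _ (h1 x')
    have e := fm _ _ (h1 x) (h1 x')
    simp only [f, herm_add_left, herm_add_right, herm_smul_left, herm_smul_r, a.2.1, a.2.2, H.pp, H.yy,
      H.py, zp, herm_comm_zero a'.2.1, herm_comm_zero a'.2.2, map_add, map_mul, map_pow,
      ← herm_pow x' z, map_zero] at e ⊢
    rw [e]
    linear_combination (s (𝐡 x z) * s (𝐡 x' p) ^ q + s (𝐡 x p) * s (𝐡 x' z) ^ q) *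
      (CharTwo.two_eq_zero (R := F))
  have h3 : Function.Injective f := fun x x' e => sub_eq_zero.1 (eq_zero_of_herm_left (q := q)
    fun v => by rw [herm_sub_left, sub_eq_zero, ← s.injective.eq_iff, ← h2, ← h2, e])
  have h4 : ∀ y, 𝐡 y p = 0 → f y = φ y + s (𝐡 y z) • p := fun y hy => by simp [f, hy]
  refine ⟨.ofBijective f (Finite.injective_iff_bijective.1 h3), ⟨⟨fun x x' => ?_, fun c x => ?_⟩, h2⟩,
    ?_, fun y hy => ⟨s (𝐡 y z), ?_⟩⟩
  · change f _ = f _ + f _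
    simp only [f, herm_add_left, add_smul, map_add, add_add_add_comm x x', ad _ _ (h1 x) (h1 x')]
    abel
  · change f _ = _ • f _
    simp only [f, herm_smul_left, mul_smul, ← smul_add, map_mul, sm _ (h1 x)]
  · change f p = p
    have := H.sp'.eq_zero (hX p H.pp) fun w hw => ?_
    · rw [h4 p H.pp, this, H.py, map_one, one_smul, zero_add]
    obtain ⟨w, rfl⟩ := Finite.injective_iff_surjective.1 h3 w
    have e : 𝐡 w p = 0 := by
      have := hw.2.1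
      simpa [f, herm_add_left, herm_smul_left, (hX _ (h1 w)).2.1, H.pp, zp] using this
    rw [h4 w e, herm_add_left, fm _ _ e H.pp, e, herm_smul_left, herm_comm_zero (hX p H.pp).2.1]
    simp
  · change _ = f y + _
    rw [h4 y hy, add_assoc, lA_add_self, add_zero]

theorem AM.first (h : AM p b) (hm : 6 ≤ m) (hp : 𝐡 p p = 0) (h0 : p ≠ 0)
    (hz : b (T q p 1) = T q p 1)
    (hQ : ∀ y a, Ok q p y a → ∃ y' a', Ok q p y' a' ∧ b (sg q p y a) = sg q p y' a')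
    (hU : ∀ U, TI q U → p ∈ U → ∃ U' : Submodule F (Fin m → F), p ∈ U' ∧ Module.finrank F U' =
      Module.finrank F U ∧ ∀ g : SU m F q, g • p = p → (b g ∈ VW q U' ↔ g ∈ VW q U)) :
    ∃ s γ, SI q s γ ∧ γ p = p ∧ (∀ a : F, a ^ q = a → b (T q p a) = T q p (s a)) ∧
      ∀ y a, Ok q p y a → ∃ (c a' : F), Ok q p (γ y + c • p) a' ∧
        b (sg q p y a) = sg q p (γ y + c • p) a' := by
  have pp := O2.self hp
  obtain ⟨z, z1, z2⟩ := exists_partner h0 hp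
  have H : Hyp q ⊤ p z := ⟨split_top, trivial, trivial, hp, z1, z2⟩
  have h1 : ∀ a : F, a ^ q = a → ∃ a' : F, a' ^ q = a' ∧ b (T q p a) = T q p a' := fun a ha => by
    obtain ⟨U', a1, a2, a3⟩ := hU _ (am_ti hp) (Submodule.mem_span_singleton_self p)
    rw [am_one a1 a2] at a3
    exact (mem_VW_one hp).1 ((a3 _ (pp.am_fix ha)).2 ((mem_VW_one hp).2 ⟨a, ha, rfl⟩))
  choose! ρ ρ1 ρ2 using h1
  have h2 : ∀ y, 𝐡 y p = 0 → ∃ y' ∈ perp2 q ⊤ p z, ∀ a, Ok q p y a → ∃ a', Ok q p y' a' ∧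
      b (sg q p y a) = sg q p y' a' := fun y hy => by
    obtain ⟨a, ha⟩ := exists_ok hp hy
    obtain ⟨w, c, h3, h4⟩ := hQ y a ha
    obtain ⟨h5, h6⟩ := h3.am_cp (𝐡 w z)
    refine ⟨w + 𝐡 w z • p, ⟨trivial, h5.wu, by
      rw [herm_add_left, herm_smul_left, z2, mul_one, CharTwo.add_self_eq_zero]⟩, fun a' ha' => ?_⟩
    obtain ⟨h7, h8⟩ := h5.am_T (am_add (am_tr (𝐡 w z)) (ρ1 _ (ha.am_q ha')))
    refine ⟨_, h7, ?_⟩
    rw [← h8, h6, ← T_add hp (am_tr _) (ρ1 _ (ha.am_q ha')), mul_assoc, ← mul_assoc (T q p _),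
      T_sq hp (am_tr _), one_mul, ha.am_eq ha', h.mul _ _ ha.am_fix (pp.am_fix (ha.am_q ha')), h4,
      ρ2 _ (ha.am_q ha')]
  choose! φ φ1 φ2 using h2
  have ad : ∀ y y', 𝐡 y p = 0 → 𝐡 y' p = 0 → φ (y + y') = φ y + φ y' := fun y y' a a' => by
    obtain ⟨c, hc⟩ := exists_ok hp a
    obtain ⟨c', hc'⟩ := exists_ok hp a'
    obtain ⟨d, e1, e2⟩ := φ2 y a c hc
    obtain ⟨d', e3, e4⟩ := φ2 y' a' c' hc'
    obtain ⟨d'', e5, e6⟩ := φ2 _ (am_ad a a') _ (hc.mul hc').1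
    rw [← (hc.mul hc').2, h.mul _ _ hc.am_fix hc'.am_fix, e2, e4, (e1.mul e3).2] at e6
    obtain ⟨_, e7, -⟩ := (e1.mul e3).1.inj e5 h0 e6
    exact H.cong (φ1 _ (am_ad a a')) (add_mem (φ1 y a) (φ1 y' a')) e7
  obtain ⟨s, sm⟩ := am_semi hm H φ1 ad fun U a1 a2 => by
    obtain ⟨U', a3, a4, a5⟩ := hU U a1 a2
    refine ⟨U', a3, a4, fun y hy => ?_⟩
    obtain ⟨c, hc⟩ := exists_ok hp hy
    obtain ⟨d, e1, e2⟩ := φ2 y hy c hc
    rw [← e1.am_VW h0 a3, ← e2, a5 _ hc.am_fix, hc.am_VW h0 a2]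
  obtain ⟨h3, h4⟩ := am_form hm hp h0 ad sm (ρ := ρ) (fun a a' e e' =>
    T_inj hp h0 (ρ1 _ (am_add e e')) (am_add (ρ1 a e) (ρ1 a' e')) (by
      rw [← T_add hp (ρ1 a e) (ρ1 a' e'), ← ρ2 a e, ← ρ2 a' e', ← ρ2 _ (am_add e e'),
        ← T_add hp e e', h.mul _ _ (pp.am_fix e) (pp.am_fix e')]))
    (T_inj hp h0 (ρ1 1 (one_pow q)) (one_pow q) (by rw [← ρ2 1 (one_pow q), hz])) fun y hy => by
      obtain ⟨c, hc⟩ := exists_ok hp hy
      obtain ⟨d, e1, e2⟩ := φ2 y hy c hc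
      refine T_inj hp h0 (ρ1 _ (herm_pow y y)) (herm_pow _ _) ?_
      rw [← ρ2 _ (herm_pow y y), ← hc.sq, h.mul _ _ hc.am_fix hc.am_fix, e2, e1.sq]
  obtain ⟨γ, h5, h6, h7⟩ := am_ext H φ1 ad sm h4
  refine ⟨s, γ, h5, h6, fun a ha => by rw [ρ2 a ha, h3 a ha], fun y a ha => ?_⟩
  obtain ⟨c, e⟩ := h7 y ha.wu
  exact ⟨c, e ▸ φ2 y ha.wu a ha⟩

/-- `Q` is invariant -/
theorem AM.inv_Q (h : AM p b) (hm : 6 ≤ m) (hp : 𝐡 p p = 0) (h0 : p ≠ 0)
    (hs : ∀ k : SU m F q, k • p = p → ∃ k₀ : SU m F q, k₀ • p = p ∧ b k₀ = k) (ha : Ok q p y a) :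
    ∃ y' a', Ok q p y' a' ∧ b (sg q p y a) = sg q p y' a' := by
  have hQ : ∀ {g}, g ∈ QU p hp ↔ ∃ y a, Ok q p y a ∧ sg q p y a = g := ⟨fun ⟨w, a, h1, h2⟩ =>
    ⟨w, a, ⟨hp, h1, h2.cond h0 hp h1⟩, lA_sg_eq h2⟩, fun ⟨w, a, h1, h2⟩ =>
      ⟨w, a, h1.wu, h2 ▸ h1.isSiegel⟩⟩
  have fx : ∀ {g}, g ∈ QU p hp → g • p = p := fun e => let ⟨_, _, h1, h2⟩ := hQ.1 e; h2 ▸ h1.am_fix
  let N : Subgroup (SU m F q) :=
    { carrier := b '' QU p hp
      mul_mem' := by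
        rintro _ _ ⟨g, hg, rfl⟩ ⟨k, hk, rfl⟩
        exact ⟨_, mul_mem hg hk, h.mul _ _ (fx hg) (fx hk)⟩
      one_mem' := ⟨1, one_mem _, h.one⟩
      inv_mem' := by
        rintro _ ⟨g, hg, rfl⟩
        exact ⟨_, inv_mem hg, h.inv (fx hg)⟩ }
  have n1 : ∀ g ∈ N, g • p = p := by rintro _ ⟨g, hg, rfl⟩; exact h.mem g (fx hg)
  have pm := Submodule.mem_span_singleton_self (R := F) p
  let C : Submodule F (Fin m → F) :=
    { carrier := {x | ∀ g ∈ N, g • x + x ∈ Submodule.span F {p}}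
      add_mem' := fun a c g hg => by
        rw [smul_add, add_add_add_comm]; exact add_mem (a g hg) (c g hg)
      zero_mem' := fun g _ => by simp
      smul_mem' := fun c _ a g hg => by
        rw [SU_smul_comm, ← smul_add]; exact Submodule.smul_mem _ c (a g hg) }
  have c1 : ∀ k : SU m F q, k • p = p → ∀ x ∈ C, k • x ∈ C := fun k hk x hx => by
    rintro _ ⟨g, hg, rfl⟩
    obtain ⟨k, h1, rfl⟩ := hs k hk
    obtain ⟨w, c, h2, rfl⟩ := hQ.1 hg
    obtain ⟨h3, h4⟩ := h2.conj k⁻¹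
    rw [am_inv h1] at h3 h4
    obtain ⟨d, e⟩ := Submodule.mem_span_singleton.1 (hx _ ⟨_, hQ.2 ⟨_, _, h3, rfl⟩, rfl⟩)
    rw [← h4, h.cj (am_inv h1) h2.am_fix, h.inv h1, inv_inv, mul_smul, mul_smul] at e
    refine Submodule.mem_span_singleton.2 ⟨d, ?_⟩
    have := congrArg (b k • ·) e
    simpa only [SU_smul_comm, hk, smul_add, smul_inv_smul] using this
  have mv : ∀ g ∈ N, Mv (MulAction.toPerm g) (Submodule.span F {p}) (Submodule.span F {p}) :=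
    fun g hg => mv_of_le (si_su g) (fun v hv => by
      obtain ⟨c, rfl⟩ := Submodule.mem_span_singleton.1 hv
      rwa [MulAction.toPerm_apply, SU_smul_comm, n1 g hg]) rfl
  obtain ⟨u, a1, a2, -⟩ := exists_iso_perp (am_ti hp) (by rw [finrank_span_singleton h0]; omega)
  obtain ⟨x, x1, x2, x3⟩ := lB_fix (q := q) (P := N.map (MulAction.toPermHom _ (Fin m → F)))
    (IsPGroup.map (isPGroup_iff.2 (by
      rintro _ ⟨g, hg, rfl⟩
      obtain ⟨w, c, h2, rfl⟩ := hQ.1 hg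
      refine ⟨2, ?_⟩
      rw [show 2 ^ 2 = 2 * 2 from rfl, pow_mul, pow_two, pow_two, ← h.mul _ _ h2.am_fix h2.am_fix,
        h2.sq, ← h.mul _ _ (h2.sq ▸ am_mul h2.am_fix h2.am_fix) (h2.sq ▸ am_mul h2.am_fix h2.am_fix),
        T_sq hp (herm_pow w w), h.one])) _)
    (by rintro _ ⟨k, -, rfl⟩; exact ⟨_, si_su k⟩) (by rintro _ ⟨k, hk, rfl⟩; exact mv k hk)
    (by rintro _ ⟨k, hk, rfl⟩; exact lB_mv_perp (si_su k) (mv k hk)) a1 a2
  replace x3 : x ∈ C := fun g hg => x3 _ ⟨g, hg, rfl⟩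
  obtain ⟨v, v1, v2⟩ : ∃ v, O2 q p v ∧ 𝐡 x v ≠ 0 := by
    by_contra c
    push Not at c
    exact x2 (perp_perp (q := q) (Submodule.span F {p}) ▸ fun w hw => am_ind hm hp h0
      (P := fun w => 𝐡 x w = 0) c (fun _ _ _ _ a a' => by rw [herm_add_right, a, a', add_zero])
      (am_mem_perp.1 hw))
  have v3 := c1 _ (v1.am_fix (one_pow q)) x x3
  rw [T_smul v1.r (one_pow q), one_mul, C.add_mem_iff_right x3, C.smul_mem_iff v2] at v3
  refine exists_sg hp h0 (h.mem _ ha.am_fix) fun w hw => ?_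
  have := am_ind hm hp h0 (P := (· ∈ C)) (fun v' hv => ?_) (fun _ _ _ _ => add_mem) hw
  · obtain ⟨d, e⟩ := Submodule.mem_span_singleton.1 (this _ ⟨_, hQ.2 ⟨_, _, ha, rfl⟩, rfl⟩)
    exact ⟨d, by rw [e, add_comm, add_assoc, lA_add_self, add_zero]⟩
  by_cases e : v' ∈ Submodule.span F {p}
  · exact (Submodule.span_singleton_le_iff_mem p C).2 (fun g hg => by
      rw [n1 g hg]; exact add_mem pm pm) e
  obtain ⟨k, k1, rfl⟩ := exists_pair (by omega) v1 (am_pair h0 fun e => v2 (x1 v e)) hv (am_pair h0 e)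
  exact c1 k k1 v v3

end

theorem exists_si_of_aut (hm : 6 ≤ m) {p : Fin m → F} (hp : 𝐡 p p = 0) (h0 : p ≠ 0)
    (β : MulAut (Fx q {p} : Subgroup (SU m F q)))
    (hV : ∀ W, MTI q W → p ∈ W → ∃ W', MTI q W' ∧ p ∈ W' ∧
      ∀ g : (Fx q {p} : Subgroup (SU m F q)), (β g).1 ∈ VW q W' ↔ g.1 ∈ VW q W)
    (hz : ∀ g : (Fx q {p} : Subgroup (SU m F q)), g.1 = T q p 1 → β g = g) :
    ∃ (s : F ≃+* F) (γ : Equiv.Perm (Fin m → F)), SI q s γ ∧ γ p = p ∧
      ∀ g : (Fx q {p} : Subgroup (SU m F q)), Rel γ g.1 (β g).1 := by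
  classical
  let b : SU m F q → SU m F q := fun g => if e : g • p = p then (β ⟨g, mem_Fx_one.2 e⟩).1 else 1
  have hb : ∀ g (e : g • p = p), b g = (β ⟨g, mem_Fx_one.2 e⟩).1 := fun g e => dif_pos e
  have h : AM p b := ⟨fun g e => hb g e ▸ mem_Fx_one.1 (β _).2, fun g k e e' => by
    rw [hb g e, hb k e', hb _ (am_mul e e'), ← Subgroup.coe_mul, ← map_mul]; rfl⟩
  have pp := O2.self hp
  choose! f f1 f2 f3 using hV
  obtain ⟨s, γ, h1, h2, h3, h4⟩ := h.first hm hp h0 (by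
    rw [hb _ (pp.am_fix (one_pow q)), hz _ rfl]) (fun y a => h.inv_Q hm hp h0 fun k e =>
      ⟨_, mem_Fx_one.1 (β.symm ⟨k, mem_Fx_one.2 e⟩).2, by
        rw [hb _ (mem_Fx_one.1 (β.symm _).2), Subtype.coe_eta, β.apply_symm_apply]⟩) fun U a1 a2 => by
    have e : ∀ g : (Fx q {p} : Subgroup (SU m F q)), g.1 ∈ VW q U ↔
        (β g).1 ∈ VW q (⨅ W, ⨅ _ : MTI q W ∧ U ≤ W, f W) := fun g => by
      refine ⟨fun a => mem_VW'.2 fun x => ?_, fun a => mem_VW'.2 fun x => iInf_MTI a1 fun W c d =>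
        mem_VW'.1 ((f3 W c (d a2) g).1 (VW_mono (iInf₂_le W ⟨c, d⟩) a)) x⟩
      simp only [Submodule.mem_iInf]
      exact fun W c => mem_VW'.1 ((f3 W c.1 (c.2 a2) g).2 (VW_mono c.2 a)) x
    have a3 : p ∈ ⨅ W, ⨅ _ : MTI q W ∧ U ≤ W, f W := by
      simp only [Submodule.mem_iInf]
      exact fun W c => f2 W c.1 (c.2 a2)
    obtain ⟨W, c, d⟩ := a1.exists_MTI
    have a4 := (f1 W c (d a2)).1.mono (iInf₂_le (f := fun W (_ : MTI q W ∧ U ≤ W) => f W) W ⟨c, d⟩)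
    refine ⟨_, a3, ?_, fun g a => by rw [hb g a, ← e]⟩
    have k : ∀ {U : Submodule F (Fin m → F)}, TI q U → p ∈ U → Nat.card ((VW q U).subgroupOf
        (Fx q {p})) = q ^ Module.finrank F U ^ 2 := fun a c => by
      rw [Nat.card_congr (subgroupOfEquivOfLe (VW_le_Fx fun _ e => e ▸ a.le_perp c)).toEquiv, card_VW a]
    have := ((k a4 a3).symm.trans (Nat.card_congr (β.toEquiv.subtypeEquiv e)).symm).trans (k a1 a2)
    rwa [Nat.pow_right_inj (two_le_q F q), Nat.pow_left_inj two_ne_zero] at this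
  obtain ⟨α, hα⟩ := h1.exists_aut
  have h5 : ∀ {g g' : SU m F q}, Rel γ g g' → α.symm g' = g := fun e =>
    α.symm_apply_eq.2 (e.uniq (hα _))
  have h6 : ∀ a : F, a ^ q = a → α.symm (T q p (s a)) = T q p a := fun a ha =>
    h5 (by simpa only [h2] using h1.rel_T hp ha)
  obtain ⟨k, k1, k2⟩ := (h.comp α.symm fun g e => γ.injective (by
    rw [← hα, α.apply_symm_apply, h2, e])).two hm hp h0 (fun a ha => by rw [h3 a ha, h6 a ha])
    fun y a ha => by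
      obtain ⟨c, a', e1, e2⟩ := h4 y a ha
      obtain ⟨e3, e4⟩ := h1.rel_sg ha
      rw [h2] at e3 e4
      obtain ⟨e, e5, e6⟩ := e3.am_rel e1
      have e7 : s.symm e ^ q = s.symm e := by rw [← map_pow, e5]
      exact ⟨_, e7, by rw [e2, e6, map_mul, h5 e4, ← h6 _ e7, s.apply_symm_apply]⟩
  refine ⟨s, γ * MulAction.toPerm k, mul_one s ▸ h1.mul (si_su k), ?_, fun g => ?_⟩
  · rw [Equiv.Perm.mul_apply, MulAction.toPerm_apply, k1, h2]
  · have := (rel_su k g).comp (hα _)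
    rwa [← k2 g (mem_Fx_one.1 g.2), α.apply_symm_apply, hb _ (mem_Fx_one.1 g.2)] at this

end Cfsg.Agent.StdU
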