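import Cfsg.Agent.StdU.LinC
import Cfsg.Agent.StdU.J

/-! Endomorphisms of the stabiliser `M` of an isotropic vector `p` which are trivial on `Z` and on
`Q / Z` are inner. -/

set_option autoImplicit false
set_option linter.unusedSectionVars false

namespace Cfsg.Agent.StdU

open Subgroup Cfsg.Agent.Class.U Cfsg.Agent.KSG Cfsg.Agent.PLocal.Amb
open Cfsg.Agent.StdL (El Od Uq cjh)
open scoped commutatorElement

variable {F : Type*} [Field F] {m q : ℕ} [UF F q] [CharP F 2]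

local notation "𝐡" => hermForm m F q

variable {p y y' v : Fin m → F} {a a' e : F} {g k : SU m F q} {b : SU m F q → SU m F q}

theorem am_tr (c : F) : (c + c ^ q) ^ q = c + c ^ q := by rw [lA_add_pow, lA_pow_pow, add_comm]

theorem am_add (h : a ^ q = a) (h' : e ^ q = e) : (a + e) ^ q = a + e := by rw [lA_add_pow, h, h']

theorem O2.am_smul (h : O2 q p v) (c : F) : O2 q p (c • v) := by simpa using h.smul 1 c

theorem Ok.am_T (h : Ok q p y a) (he : e ^ q = e) :
    Ok q p y (a + e) ∧ sg q p y a * T q p e = sg q p y (a + e) := by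
  simpa only [add_zero, herm_zero_left, T] using h.mul (lA_ok_T h.uu he)

theorem Ok.am_cp (h : Ok q p y a) (c : F) :
    Ok q p (y + c • p) a ∧ sg q p (y + c • p) a = sg q p y a * T q p (c + c ^ q) := by
  have := h.mul ((O2.self h.uu).am_smul c).ok
  rw [herm_smul_left, herm_comm_zero h.wu, mul_zero, add_zero, add_zero] at this
  exact ⟨this.1, by rw [← this.2, ← S_self h.uu, S]⟩

theorem Ok.am_q (h : Ok q p y a) (h' : Ok q p y a') : (a + a') ^ q = a + a' := by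
  rw [lA_add_pow]
  linear_combination h.tr + h'.tr - (a + a' + 𝐡 y y) * (CharTwo.two_eq_zero (R := F))

theorem Ok.am_eq (h : Ok q p y a) (h' : Ok q p y a') : sg q p y a' = sg q p y a * T q p (a + a') := by
  rw [(h.am_T (h.am_q h')).2, ← add_assoc, CharTwo.add_self_eq_zero, zero_add]

theorem Ok.am_rel (h : Ok q p y a) {c : F} (h' : Ok q p (y + c • p) a') :
    ∃ e : F, e ^ q = e ∧ sg q p (y + c • p) a' = sg q p y a * T q p e :=
  have h1 := (h.am_cp c).1.am_q h'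
  ⟨_, am_add (am_tr c) h1, by
    rw [(h.am_cp c).1.am_eq h', (h.am_cp c).2, mul_assoc, T_add h.uu (am_tr c) h1]⟩

theorem Ok.am_fix (h : Ok q p y a) : sg q p y a • p = p :=
  h.isSiegel.smul_of_orth h.uu (herm_comm_zero h.wu)

theorem O2.am_fix (h : O2 q p v) (ha : a ^ q = a) : T q v a • p = p := by
  rw [T_smul h.r ha, h.lr, mul_zero, zero_smul, add_zero]

theorem am_mul (h : g • p = p) (h' : k • p = p) : (g * k) • p = p := by rw [mul_smul, h', h]

theorem am_inv (h : g • p = p) : g⁻¹ • p = p := inv_smul_eq_iff.2 h.symm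

theorem am_perp (h : g • p = p) (hy : 𝐡 y p = 0) : 𝐡 (g • y) p = 0 := by
  rw [← hy, ← SU_herm g y p, h]

theorem am_mem_perp : y ∈ perp q (Submodule.span F {p}) ↔ 𝐡 y p = 0 := by
  rw [mem_perp_span]; simp

theorem am_gen (hm : 6 ≤ m) (hp : 𝐡 p p = 0) (h0 : p ≠ 0) {H : Subgroup (SU m F q)}
    (h : ∀ v, O2 q p v → T q v 1 ∈ H) (hg : g • p = p) : g ∈ H :=
  ((Fx_one hm hp h0).le.trans ((closure_le H).2 (by rintro _ ⟨v, hv, rfl⟩; exact h v hv)))
    (mem_Fx_one.2 hg)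

/-- `p^⊥` is spanned by its isotropic vectors -/
theorem am_ind (hm : 6 ≤ m) (hp : 𝐡 p p = 0) (h0 : p ≠ 0) {P : (Fin m → F) → Prop}
    (h1 : ∀ v, O2 q p v → P v) (h2 : ∀ u v, 𝐡 u p = 0 → 𝐡 v p = 0 → P u → P v → P (u + v))
    (hy : 𝐡 y p = 0) : P y := by
  have h3 : perp q (Submodule.span F {v | O2 q p v}) ≤ Submodule.span F {p} := fun x hx =>
    perp_perp (q := q) (Submodule.span F {p}) ▸ fun w hw => by
      obtain ⟨a, ha⟩ := exists_ok hp (am_mem_perp.1 hw)
      have h4 := mem_perp_span.1 hx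
      have : sg q p w a • x = x := mem_Fx_one.1 (am_gen hm hp h0 (H := Fx q {x}) (fun v hv =>
        mem_Fx_one.2 (by rw [T_smul hv.r (one_pow q), h4 v hv]; simp)) ha.am_fix)
      simpa [sg_smul ha, h4 p (O2.self hp), h0] using this
  have h4 := perp_anti (q := q) h3 (am_mem_perp.2 hy)
  rw [perp_perp] at h4
  suffices 𝐡 y p = 0 ∧ ∀ c : F, P (c • y) by simpa using this.2 1
  clear hy
  induction h4 using Submodule.span_induction with
  | mem v hv => exact ⟨hv.rl, fun c => h1 _ (hv.am_smul c)⟩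
  | zero => exact ⟨herm_zero_left _, fun c => by rw [smul_zero]; exact h1 _ (O2.zero hp)⟩
  | add u v _ _ a b => exact ⟨by rw [herm_add_left, a.1, b.1, add_zero], fun c => by
      rw [smul_add]
      exact h2 _ _ (by rw [herm_smul_left, a.1, mul_zero]) (by rw [herm_smul_left, b.1, mul_zero])
        (a.2 c) (b.2 c)⟩
  | smul d u _ a => exact ⟨by rw [herm_smul_left, a.1, mul_zero], fun c => by
      rw [smul_smul]; exact a.2 _⟩

theorem am_lin (f : (Fin m → F) →ₗ[F] F) : ∃ e, ∀ x, 𝐡 x e = f x :=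
  ⟨fun j => f (Pi.single j 1) ^ q, fun x => by
    rw [herm_eq, LinearMap.pi_apply_eq_sum_univ]
    refine Finset.sum_congr rfl fun j _ => ?_
    rw [conj_apply, lA_pow_pow, smul_eq_mul]
    congr 2; ext i; simp [Pi.single_apply, eq_comm]⟩

theorem am_pair (h0 : p ≠ 0) (hv : v ∉ Submodule.span F {p}) : LinearIndependent F ![p, v] :=
  (LinearIndependent.pair_iff' h0).2 fun a e => hv (Submodule.mem_span_singleton.2 ⟨a, e⟩)

theorem am_two (h0 : p ≠ 0) (v : Fin m → F) :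
    Module.finrank F (Submodule.span F {p, v} : Submodule F (Fin m → F)) ≤ 2 := by
  have := lB_finrank_sup (Submodule.span F {p}) v
  rwa [finrank_span_singleton h0, ← Submodule.span_insert] at this

/-- an endomorphism of the stabiliser of `p` -/
structure AM (p : Fin m → F) (b : SU m F q → SU m F q) : Prop where
  mem : ∀ g : SU m F q, g • p = p → b g • p = p
  mul : ∀ g k : SU m F q, g • p = p → k • p = p → b (g * k) = b g * b k

namespace AM

variable (h : AM p b)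
include h

theorem one : b 1 = 1 := by
  have := h.mul 1 1 (one_smul _ p) (one_smul _ p)
  rwa [mul_one, left_eq_mul] at this

theorem inv (hg : g • p = p) : b g⁻¹ = (b g)⁻¹ :=
  eq_inv_of_mul_eq_one_left (by rw [← h.mul _ _ (am_inv hg) hg, inv_mul_cancel, h.one])

theorem cj (hk : k • p = p) (hg : g • p = p) : b (k * g * k⁻¹) = b k * b g * (b k)⁻¹ := by
  rw [h.mul _ _ (am_mul hk hg) (am_inv hk), h.mul _ _ hk hg, h.inv hk]

theorem comp (α : MulAut (SU m F q)) (hα : ∀ g : SU m F q, g • p = p → α g • p = p) :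
    AM p fun g => α (b g) :=
  ⟨fun g hg => hα _ (h.mem g hg), fun g k hg hk => by rw [h.mul g k hg hk, map_mul]⟩

theorem three (hm : 6 ≤ m) (hp : 𝐡 p p = 0) (h0 : p ≠ 0)
    (hQ : ∀ y a, Ok q p y a → b (sg q p y a) = sg q p y a) (hg : g • p = p) : b g = g := by
  have h1 : ∀ g : SU m F q, g • p = p → ∃ e : F, e ^ q = e ∧ b g = g * T q p e := fun g hg => by
    obtain ⟨e, h1, h2⟩ := cent_Q hp h0 (am_mul (am_inv hg) (h.mem g hg)) fun y a ha => by
      have h2 := h.cj hg ha.am_fix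
      obtain ⟨h3, h4⟩ := ha.conj g
      rw [hg] at h3 h4
      rw [h4, hQ _ _ h3, ← h4, hQ _ _ ha] at h2
      rw [Commute, SemiconjBy, mul_assoc, ← eq_mul_inv_iff_mul_eq.1 h2]
      group
    exact ⟨e, h1, by rw [← h2, mul_inv_cancel_left]⟩
  let H : Subgroup (SU m F q) :=
    { carrier := {g | g • p = p ∧ b g = g}
      mul_mem' := fun a c => ⟨am_mul a.1 c.1, by rw [h.mul _ _ a.1 c.1, a.2, c.2]⟩
      one_mem' := ⟨one_smul _ p, h.one⟩
      inv_mem' := fun a => ⟨am_inv a.1, by rw [h.inv a.1, a.2]⟩ }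
  refine (am_gen hm hp h0 (H := H) (fun v hv => ⟨hv.am_fix (one_pow q), ?_⟩) hg).2
  by_cases c : v ∈ Submodule.span F {p}
  · obtain ⟨c, rfl⟩ := Submodule.mem_span_singleton.1 c
    rw [T_smul_vec hp (one_pow q)]
    exact hQ _ _ (lA_ok_T hp (by rw [mul_one, mul_pow, lA_pow_pow, mul_comm]))
  obtain ⟨e, e1, e2⟩ := h1 _ (hv.am_fix (one_pow q))
  have z1 : ∀ {g : SU m F q}, g • p = p → Commute g (T q p e) := comm_T hp e1
  have key : ∀ u, O2 q p u → u ∉ Submodule.span F {p} →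
      T q u 1 • p = p ∧ b (T q u 1) = T q u 1 * T q p e ^ 1 := fun u hu c' => by
    obtain ⟨k, k1, rfl⟩ := exists_pair (by omega) hv (am_pair h0 c) hu (am_pair h0 c')
    obtain ⟨e', e3, e4⟩ := h1 k k1
    refine ⟨hu.am_fix (one_pow q), ?_⟩
    rw [← T_conj hv.r (one_pow q), h.cj k1 (hv.am_fix (one_pow q)), e2, e4, mul_assoc k,
      ← (comm_T hp e3 (am_mul (hv.am_fix (one_pow q)) ((O2.self hp).am_fix e1))).eq, pow_one,
      mul_assoc _ k⁻¹, (z1 (am_inv k1)).eq]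
    group
  have mu : ∀ {g k : SU m F q} {i j : ℕ}, g • p = p ∧ b g = g * T q p e ^ i →
      k • p = p ∧ b k = k * T q p e ^ j → (g * k) • p = p ∧ b (g * k) = g * k * T q p e ^ (i + j) :=
    fun a c => ⟨am_mul a.1 c.1, by
      rw [h.mul _ _ a.1 c.1, a.2, c.2, mul_assoc, ← mul_assoc (_ ^ _), ← ((z1 c.1).pow_right _).eq]
      group⟩
  obtain ⟨w, w1, w2, w3⟩ := exists_iso_perp hv.ti (by have := am_two h0 v; omega)
  have w4 : O2 q p w := ⟨hp, w3, herm_comm_zero (mem_perp_span.1 w1 p (by simp))⟩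
  have w5 : O2 q v w := ⟨hv.r, w3, herm_comm_zero (mem_perp_span.1 w1 v (by simp))⟩
  have sp : Submodule.span F {p} ≤ Submodule.span F {p, v} := Submodule.span_mono (by simp)
  have k2 : ∀ a : F, a ≠ 0 → _ := fun a a0 => key (v + a • w) (hv.add (w4.am_smul a) (w5.am_smul a))
    fun c' => w2 ((Submodule.smul_mem_iff _ a0).1 ((Submodule.add_mem_iff_right _
      (Submodule.subset_span (by simp))).1 (sp c')))
  obtain ⟨ω, hω⟩ := exists_om (F := F) (q := q)
  have ω0 : ω ≠ 0 := fun c => by simp [c, lA_zero_pow] at hω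
  have := (mu (mu (mu (mu (key v hv c) (key w w4 fun c' => w2 (sp c'))) (k2 1 one_ne_zero))
    (k2 ω ω0)) (k2 _ (pow_ne_zero q ω0))).2
  rw [one_smul, five w5 hω (one_pow q), h.one, one_mul, pow_succ, show 1 + 1 + 1 + 1 = 2 * 2 from rfl,
    pow_mul, pow_two (T q p e), T_sq hp e1, one_pow, one_mul] at this
  rw [e2, ← this, mul_one]

theorem two (hm : 6 ≤ m) (hp : 𝐡 p p = 0) (h0 : p ≠ 0)
    (hZ : ∀ a : F, a ^ q = a → b (T q p a) = T q p a)
    (hQ : ∀ y a, Ok q p y a → ∃ e : F, e ^ q = e ∧ b (sg q p y a) = sg q p y a * T q p e) :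
    ∃ k : SU m F q, k • p = p ∧ ∀ g : SU m F q, g • p = p → b g = k * g * k⁻¹ := by
  have pp := O2.self hp
  have h1 : ∀ y, 𝐡 y p = 0 → ∃ e : F, e ^ q = e ∧ ∀ a, Ok q p y a →
      b (sg q p y a) = sg q p y a * T q p e := fun y hy => by
    obtain ⟨a, ha⟩ := exists_ok hp hy
    obtain ⟨e, e1, e2⟩ := hQ y a ha
    refine ⟨e, e1, fun a' ha' => ?_⟩
    rw [ha.am_eq ha', h.mul _ _ ha.am_fix (pp.am_fix (ha.am_q ha')), e2, hZ _ (ha.am_q ha'),
      (T_comm pp e1 (ha.am_q ha')).right_comm]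
  choose! χ χ1 χ2 using h1
  have ad : ∀ y y', 𝐡 y p = 0 → 𝐡 y' p = 0 → χ (y + y') = χ y + χ y' := fun y y' a a' => by
    obtain ⟨c, hc⟩ := exists_ok hp a
    obtain ⟨c', hc'⟩ := exists_ok hp a'
    obtain ⟨h2, h3⟩ := hc.mul hc'
    have h4 := χ2 _ h2.wu _ h2
    rw [← h3, h.mul _ _ hc.am_fix hc'.am_fix, χ2 y a c hc, χ2 y' a' c' hc',
      (comm_T hp (χ1 y a) hc'.am_fix).symm.mul_mul_mul_comm, T_add hp (χ1 y a) (χ1 y' a')] at h4
    exact (T_inj hp h0 (am_add (χ1 y a) (χ1 y' a')) (χ1 _ h2.wu) (mul_left_cancel h4)).symm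
  have h2 : ∀ g : SU m F q, g • p = p → ∀ y, 𝐡 y p = 0 → ∃ c : F, b g • y = g • y + c • p ∧
      c + c ^ q = χ (g • y) + χ y := fun g hg y hy => by
    obtain ⟨a, ha⟩ := exists_ok hp hy
    have h3 := h.cj hg ha.am_fix
    obtain ⟨a1, a2⟩ := ha.conj g
    obtain ⟨a3, a4⟩ := (ha.am_T (χ1 y hy)).1.conj (b g)
    rw [hg] at a1 a2
    rw [h.mem g hg] at a3 a4
    rw [a2, χ2 _ a1.wu _ a1, χ2 _ hy _ ha, (ha.am_T (χ1 y hy)).2, a4, (a1.am_T (χ1 _ a1.wu)).2] at h3
    obtain ⟨c, c1, c2⟩ := (a1.am_T (χ1 _ a1.wu)).1.inj a3 h0 h3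
    exact ⟨c, c1, by linear_combination -c2 - χ (g • y) * (CharTwo.two_eq_zero (R := F))⟩
  have sm : ∀ (c : F) {y}, 𝐡 y p = 0 → 𝐡 (c • y) p = 0 := fun c y e => by
    rw [herm_smul_left, e, mul_zero]
  have hp0 : ∀ d : F, χ (d • p) = 0 := fun d => by
    have := χ2 _ (sm d hp) 0 (pp.am_smul d).ok
    rw [← S, S_self hp, hZ _ (am_tr d), left_eq_mul, ← T_zero hp] at this
    exact T_inj hp h0 (χ1 _ (sm d hp)) lA_zero_pow this
  have h3 : ∀ y, 𝐡 y p = 0 → ∃ c : F, ∀ d : F, χ (d • y) = d * c + (d * c) ^ q := fun y hy => by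
    refine am_ind hm hp h0 (P := fun y => ∃ c : F, ∀ d : F, χ (d • y) = d * c + (d * c) ^ q)
      (fun u hu => ?_) (fun u v a a' ⟨c, e⟩ ⟨c', e'⟩ => ⟨c + c', fun d => by
        rw [smul_add, ad _ _ (sm d a) (sm d a'), e, e', mul_add, lA_add_pow]; ring⟩) hy
    by_cases e : u ∈ Submodule.span F {p}
    · obtain ⟨c, rfl⟩ := Submodule.mem_span_singleton.1 e
      exact ⟨0, fun d => by rw [smul_smul, hp0, mul_zero, lA_zero_pow, add_zero]⟩
    obtain ⟨x, x1, x2⟩ := dual' (q := q) e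
    rw [am_mem_perp] at x1
    obtain ⟨c, c1, -⟩ := h2 _ (hu.am_fix (one_pow q)) x x1
    refine ⟨c, fun d => ?_⟩
    obtain ⟨c', c2, c3⟩ := h2 _ (hu.am_fix (one_pow q)) _ (sm d x1)
    rw [SU_smul_comm, SU_smul_comm, c1, smul_add, add_right_inj, smul_smul] at c2
    rw [T_smul hu.r (one_pow q), herm_smul_left, herm_comm_one x2, one_mul, mul_one,
      ad _ _ (sm d x1) (sm d hu.rl), add_right_comm, CharTwo.add_self_eq_zero, zero_add] at c3
    rw [← c3, show d * c = c' from smul_left_injective F h0 c2]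
  obtain ⟨ω, hω⟩ := exists_om (F := F) (q := q)
  have h4 : ∀ {y} {c : F}, (∀ d : F, χ (d • y) = d * c + (d * c) ^ q) → ∀ d : F,
      χ (ω ^ q • d • y) + ω * χ (d • y) = d * c := fun {y c} e d => by
    rw [smul_smul, e, e, mul_assoc, mul_pow, lA_pow_pow]
    linear_combination d * c * hω + ω * (d * c) ^ q * (CharTwo.two_eq_zero (R := F))
  let ψ : perp q (Submodule.span F {p}) →ₗ[F] F :=
    { toFun := fun y => χ (ω ^ q • y.1) + ω * χ y.1
      map_add' := fun y y' => by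
        have a := am_mem_perp.1 y.2
        have a' := am_mem_perp.1 y'.2
        rw [Submodule.coe_add, smul_add, ad _ _ (sm _ a) (sm _ a'), ad _ _ a a']; ring
      map_smul' := fun d y => by
        obtain ⟨c, e⟩ := h3 y (am_mem_perp.1 y.2)
        have := h4 e 1
        rw [one_smul, one_mul] at this
        rw [Submodule.coe_smul, h4 e, this]; rfl }
  obtain ⟨f, hf⟩ := ψ.exists_extend
  obtain ⟨y₀, h5⟩ := am_lin (q := q) f
  have h6 : ∀ y, 𝐡 y p = 0 → 𝐡 y y₀ = χ (ω ^ q • y) + ω * χ y := fun y hy =>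
    (h5 y).trans (LinearMap.congr_fun hf ⟨y, am_mem_perp.2 hy⟩)
  obtain ⟨a₀, h7⟩ := exists_ok hp (herm_comm_zero (u := p) (v := y₀) (by
    have := hp0 1
    rw [one_smul] at this
    rw [h6 p hp, hp0, this, mul_zero, add_zero]))
  refine ⟨_, h7.am_fix, fun g hg => ?_⟩
  have := (h.comp (MulAut.conj (sg q p y₀ a₀)⁻¹) fun g hg => am_mul (am_mul (am_inv h7.am_fix) hg)
    (am_inv (am_inv h7.am_fix))).three hm hp h0 (fun y a ha => ?_) hg
  · rw [← congrArg (fun x => _ * x * _) this]; simp [mul_assoc]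
  obtain ⟨c, e⟩ := h3 y ha.wu
  have e1 := h4 e 1
  have e2 := e 1
  rw [one_smul, one_mul] at e1 e2
  rw [map_inv, MulAut.inv_apply, MulEquiv.symm_apply_eq, MulAut.conj_apply, (ha.conj _).2, h7.am_fix,
    sg_smul h7, ha.wu, zero_smul, mul_zero, zero_smul, add_zero, add_zero, (ha.am_cp _).2,
    χ2 y ha.wu a ha, h6 y ha.wu, e1, e2]

end AM

end Cfsg.Agent.StdU
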