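import Cfsg.Agent.StdU.Aut
import Cfsg.Agent.StdL.Bas1

/-! The centraliser of `t`: the groups `K0`, `AW` and the large elementary abelian subgroups. -/

set_option autoImplicit false
set_option linter.unusedSectionVars false

namespace Cfsg.Agent.StdU

open Subgroup Cfsg.Agent.Class.U Cfsg.Agent.KSG Cfsg.Agent.PLocal.Amb
open Cfsg.Agent.StdL (El Od Uq cjh)
open scoped commutatorElement

variable {F : Type*} [Field F] {m q : ℕ} [UF F q] [CharP F 2]
  {G : Type*} [Group G] [Finite G] {ι r : SU m F q →* G} {t : G} {c : (Fin m → F) → G}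

local notation "𝐡" => hermForm m F q

variable {n k : G} {s : F ≃+* F} {W W' : Submodule F (Fin m → F)} {B : Subgroup G}

open Cfsg.Agent.StdL (eq_one_of_odd_two exists_two_odd odd_of_pow mem_Od range_cjh cjh_apply
  exists_odd_sub exists_map_eq exists_lift_two)
open Cfsg.Agent.LnT (pgrp_of_sq inv_of_sq sq_conj)

theorem bs_mem {M : Subgroup G} (hc : ∀ x ∈ M, t * x = x * t) (h2 : t * t = 1) {x : G} :
    x ∈ M ⊔ zpowers t ↔ x ∈ M ∨ t * x ∈ M := by
  have e : ∀ y, t * (t * y) = y := fun y => by rw [← mul_assoc, h2, one_mul]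
  refine ⟨fun h => ?_, fun h => h.elim mem_sup_left fun h =>
    e x ▸ mul_mem (mem_sup_right (mem_zpowers t)) (mem_sup_left h)⟩
  obtain ⟨a, ha, _, ⟨i, rfl⟩, rfl⟩ := (mem_sup_of_le_normalizer_left (zpowers_le.2
    (centralizer_le_normalizer' M fun y hy => (hc y hy).symm))).1 h
  have e2 : ∀ j : ℤ, t ^ (2 * j) = 1 := fun j => by rw [zpow_mul, zpow_two, h2, one_zpow]
  obtain ⟨j, rfl | rfl⟩ := Int.even_or_odd' i
  · exact .inl (by simpa [e2] using ha)
  · exact .inr (by simpa [zpow_add, e2, ← hc a ha, e] using ha)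

theorem bs_le {H : Subgroup G} {d : G} (h : ∀ b ∈ B, b ∈ H ∨ d * b ∈ H) :
    Nat.card B ≤ 2 * Nat.card H := by
  have := Set.ncard_le_ncard (s := (B : Set G)) (t := H ∪ (d⁻¹ * ·) '' H) fun b hb =>
    (h b hb).imp_right fun e => ⟨_, e, inv_mul_cancel_left d b⟩
  have h1 := this.trans (Set.ncard_union_le _ _)
  rw [Set.ncard_image_of_injective _ (mul_right_injective _), ← two_mul] at h1
  exact h1

theorem bs_card {M : Subgroup G} (hc : ∀ x ∈ M, t * x = x * t) (h2 : t * t = 1) (h : t ∉ M) :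
    Nat.card ↥(M ⊔ zpowers t) = 2 * Nat.card M := by
  refine le_antisymm (bs_le fun b => (bs_mem hc h2).1) ?_
  obtain ⟨k, hk⟩ := card_dvd_of_le (le_sup_left : M ≤ M ⊔ zpowers t)
  have h5 : k ≠ 1 := fun e => h ((eq_of_le_of_card_ge le_sup_left (by rw [hk, e, mul_one])).ge
    (mem_sup_right (mem_zpowers t)))
  have h6 : k ≠ 0 := fun e => Nat.card_pos.ne' (by rw [hk, e, mul_zero])
  rw [hk, mul_comm]
  exact Nat.mul_le_mul_left _ (by omega)

theorem bs_el (hB : El B) (hc : ∀ x ∈ B, t * x = x * t) (h2 : t * t = 1) :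
    El (B ⊔ zpowers t) := fun x hx => ((bs_mem hc h2).1 hx).elim (hB x) fun a => by
  have e : x = t * (t * x) := by rw [← mul_assoc, h2, one_mul]
  rw [e, (show Commute t (t * x) from hc _ a).symm.mul_mul_mul_comm, h2, hB _ a, one_mul]

theorem bs_ord (g x : G) : orderOf (g * x * g⁻¹) = orderOf x := (MulAut.conj g).orderOf_eq x

theorem K0_cjh (g : G) : K0 (cjh g ι) (g * t * g⁻¹) = cj(g, K0 ι t) := by
  rw [K0, K0, cj_inf, range_cjh, centralizer_cj, centralizer_singleton_conj]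

theorem Su.cj (h : Su ι t) (g : G) : Su (cjh g ι) (g * t * g⁻¹) := by
  refine ⟨h.toRp.cjh g, sq_conj h.tt g, fun c => h.t1 (conj_eq_one_iff.1 c), fun x => by
    rw [cjh_apply, conj_mul, conj_mul, h.tc], fun c hc => ?_, fun P hP h2 => ?_⟩
  · rw [range_cjh, normalizer_cj, mem_cj]
    refine h.nrm _ (mem_centralizer_singleton_iff.1 (mem_cj.1 ?_))
    rw [← centralizer_singleton_conj]
    exact mem_centralizer_singleton_iff.2 hc
  · have := h.cyc cj(g⁻¹, P) (le_cj_iff.1 (by rwa [K0_cjh] at hP)) (isPGroup_cj _ h2)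
    exact (P.equivMapOfInjective (MulAut.conj g⁻¹).toMonoidHom
      (MulAut.conj g⁻¹).injective).isCyclic.2 this

theorem Nsq.cj (h : Nsq ι t) (g : G) : Nsq (cjh g ι) (g * t * g⁻¹) := fun k hk => by
  rw [K0_cjh] at hk
  obtain ⟨a, ha, rfl⟩ := mem_cj_iff_exists.1 hk
  rw [conj_mul, bs_ord, bs_ord]
  exact h a ha

theorem Fam.cj (h : Fam ι t c) (g : G) :
    Fam (cjh g ι) (g * t * g⁻¹) fun v => g * c v * g⁻¹ := by
  have e : ∀ u w, yy (fun v => g * c v * g⁻¹) u w = g * yy c u w * g⁻¹ := fun u w => by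
    simp only [yy, conj_mul]
  refine ⟨h.toSu.cj g, h.nsq.cj g, by simp [h.c0], fun x v hv => ?_,
    fun v hv => sq_conj (h.sq v hv) g, fun v hv => ?_, fun v hv k hk ho => ?_,
    fun v a hv ha => by rw [h.nm1 v a hv ha], fun u w hv => ?_, fun u v w a b d => ?_,
    fun u w a hv => by rw [e, e, h.lin u w a hv]⟩
  · rw [cjh_apply, ← h.eqv x v hv]; group
  · simp only [cjh_apply, conj_mul, h.tr v hv]
  · rw [K0_cjh] at hk
    obtain ⟨a, ha, rfl⟩ := mem_cj_iff_exists.1 hk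
    rw [conj_mul, conj_mul, h.cO v hv a ha (bs_ord g a ▸ ho)]
  · rw [conj_mul, conj_mul, h.com u w hv]
  · rw [e, e, e, conj_mul, h.add u v w a b d]

theorem Su.notMem (h : Su ι t) : t ∉ ι.range := fun ⟨x, e⟩ => h.t1 (eq_one_of_odd_two (k := 1)
  (e ▸ h.odd_of_cent fun y => e ▸ h.tc y) (by rw [pow_one, pow_two, h.tt]))

theorem Su.t_mem (h : Su ι t) : t ∈ K0 ι t := mem_K0.2 ⟨rfl, h.tc⟩

theorem Su.inv (h : Su ι t) (hk : k ∈ K0 ι t) (h2 : k * k = 1) : k = 1 ∨ k = t := by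
  have c : ∀ x ∈ zpowers k, t * x = x * t := fun x hx =>
    (mem_centralizer_singleton_iff.1 (zpowers_le.2 hk.1 hx)).symm
  have z : ∀ {a x : G}, a * a = 1 → x ∈ zpowers a → x = 1 ∨ x = a := fun {a x} ha hx =>
    ((bs_mem (M := ⊥) (by simp) ha).1 (mem_sup_right hx)).imp_right fun e =>
      (eq_inv_of_mul_eq_one_right e).trans (inv_of_sq ha)
  have h4 : El (zpowers k ⊔ zpowers t) := bs_el (fun y hy => by
    rcases z h2 hy with rfl | rfl
    exacts [mul_one 1, h2]) c h.tt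
  obtain ⟨g, hg⟩ := (h.cyc _ (sup_le (zpowers_le.2 hk) (zpowers_le.2 h.t_mem))
    (pgrp_of_sq h4)).exists_generator
  have h5 : ∀ x ∈ zpowers k ⊔ zpowers t, x = 1 ∨ x = g := fun x hx =>
    let ⟨i, e⟩ := hg ⟨x, hx⟩
    z (h4 _ g.2) ⟨i, congrArg Subtype.val e⟩
  rw [(h5 t (mem_sup_right (mem_zpowers t))).resolve_left h.t1]
  exact h5 k (mem_sup_left (mem_zpowers k))

theorem Su.ac (h : Su ι t) (hn : n * t = t * n) : ∃ s, AcU ι n s := h.exists_ac (h.nrm n hn)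

theorem Su.norm_K0 (h : Su ι t) (hn : n * t = t * n) : n ∈ 𝐍[K0 ι t] :=
  le_normalizer_inf (L := zpowers n) (zpowers_le.2 (le_normalizer (mem_centralizer_singleton_iff.2 hn)))
    (le_normalizer_centralizer (zpowers_le.2 (h.nrm n hn))) (mem_zpowers n)

/-- the normal `2`-complement of `K0` -/
theorem Su.exists_O (h : Su ι t) : ∃ O ≤ K0 ι t, Odd (Nat.card O) ∧
    ∀ k ∈ K0 ι t, Odd (orderOf k) → k ∈ O := by
  obtain ⟨O, h1, h2⟩ := exists_odd_sub (A := K0 ι t) fun P hP => by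
    have := h.cyc _ (map_subtype_le P) (hP.map _)
    exact (P.equivMapOfInjective _ (K0 ι t).subtype_injective).isCyclic.2 this
  exact ⟨O.map (K0 ι t).subtype, map_subtype_le O, by rwa [card_subtype], fun k hk ho =>
    ⟨⟨k, hk⟩, h2 _ (by rwa [← orderOf_coe]), rfl⟩⟩

theorem Su.inv_pow (h : Su ι t) (hn : Nsq ι t) (hk : k ∈ K0 ι t) {j : ℕ} (h2 : k ^ 2 ^ j = 1) :
    k = 1 ∨ k = t :=
  (hn k hk).imp (eq_one_of_odd_two · h2) fun e => (eq_inv_of_mul_eq_one_left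
    (eq_one_of_odd_two e (k := j + 1) (by
      rw [Commute.mul_pow (mem_K0.1 hk).1, pow_succ, pow_mul, h2, pow_mul', pow_two t, h.tt]
      simp))).trans (inv_of_sq h.tt)

theorem Su.nsq_of (h : Su ι t) (hn : ∀ k ∈ K0 ι t, k * k ≠ t) : Nsq ι t := fun k hk => by
  have key : ∀ j, ∀ k ∈ K0 ι t, k ^ 2 ^ j = 1 → k = 1 ∨ k = t := fun j => by
    induction j with
    | zero => exact fun k _ e => .inl (by simpa using e)
    | succ j ih =>
      intro k hk e
      rw [pow_succ', pow_mul, pow_two] at e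
      exact h.inv hk ((ih _ (mul_mem hk hk) e).resolve_right (hn k hk))
  obtain ⟨j, i, hi, e⟩ := exists_two_odd k
  refine (key j _ (pow_mem hk i) e).imp (odd_of_pow hi) fun e => odd_of_pow hi ?_
  obtain ⟨i, rfl⟩ := hi
  rw [Commute.mul_pow (mem_K0.1 hk).1, e, pow_succ, pow_mul, pow_two, h.tt, one_pow, one_mul, h.tt]

/-- `n` acts on `L` as `x` -/
theorem Su.bs_K0 (h : Su ι t) (hn : n * t = t * n) {x : SU m F q}
    (e : ∀ y, n * ι y * n⁻¹ = ι (x * y * x⁻¹)) : (ι x)⁻¹ * n ∈ K0 ι t := by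
  refine mem_K0.2 ⟨(Commute.inv_left (h.tc x).symm).mul_left hn, fun y => ?_⟩
  rw [mul_assoc, mul_inv_eq_iff_eq_mul.1 (e y)]
  simp [mul_assoc]

theorem Su.inn0 (h : Su ι t) (hn : n * t = t * n) {j : ℕ} (h2 : n ^ 2 ^ j = 1) (hA : AcU ι n 1) :
    ∃ x, x ^ 2 ^ j = 1 ∧ ∃ a ∈ K0 ι t, a ^ 2 ^ j = 1 ∧ n = ι x * a := by
  obtain ⟨x, h3, h4⟩ := h.inner hA (k := j) fun y => by rw [h2, one_mul, mul_one]
  have h5 : Commute n (ι x) := mul_inv_eq_iff_eq_mul.1 (by rw [h4, mul_inv_cancel_right])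
  exact ⟨x, h3, _, h.bs_K0 hn h4, by
    rw [h5.symm.inv_left.mul_pow, h2, _root_.inv_pow, ← map_pow, h3]; simp, by simp⟩

theorem Su.inn (h : Su ι t) (hn : n * t = t * n) (h2 : n * n = 1) (hA : AcU ι n 1) :
    ∃ x, x * x = 1 ∧ (n = ι x ∨ n = t * ι x) := by
  obtain ⟨x, h3, a, ha, h4, rfl⟩ := h.inn0 hn (j := 1) (by rwa [pow_one, pow_two]) hA
  rw [pow_one, pow_two] at h3 h4
  exact ⟨x, h3, (h.inv ha h4).imp (fun e => by rw [e, mul_one]) fun e => by rw [e, h.tc]⟩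

theorem Su.o2 (h : Su ι t) (hn : n ∈ Od (centralizer {t})) {j : ℕ} (h2 : n ^ 2 ^ j = 1) :
    n ∈ ι.range := by
  have : Finite F := UF.finite q
  obtain ⟨π, hπ⟩ := h.exists_pi
  let D : Subgroup 𝐍[ι.range] :=
    { carrier := {c | c.1 * t = t * c.1 ∧ Odd (orderOf (π c))}
      one_mem' := ⟨by simp, by rw [map_one, orderOf_one]; exact odd_one⟩
      mul_mem' := fun {a b} ha hb => ⟨Commute.mul_left ha.1 hb.1, (ha.2.mul hb.2).of_dvd_nat
        (map_mul π a b ▸ Commute.orderOf_mul_dvd_mul_orderOf (ringAut_comm _ _))⟩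
      inv_mem' := fun {a} ha => ⟨Commute.inv_left ha.1, by rw [map_inv, orderOf_inv]; exact ha.2⟩ }
  let i : D →* G := (𝐍[ι.range]).subtype.comp D.subtype
  have hj : Function.Injective i := Subtype.val_injective.comp Subtype.val_injective
  have hN : (ι.range.comap i).Normal :=
    ⟨fun n hn g => conj_mem_of_mem_normalizer (Q := ι.range) g.1.2 hn⟩
  let f := QuotientGroup.mk' (ι.range.comap i)
  obtain ⟨O, h3, h4⟩ := exists_odd_sub (A := D ⧸ ι.range.comap i) fun P hP => by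
    obtain ⟨Q, q1, q2, rfl⟩ := exists_map_eq f (H := (K0 ι t).comap i) hP fun y hy => by
      obtain ⟨y, rfl⟩ := QuotientGroup.mk'_surjective _ y
      obtain ⟨l, hi⟩ := isPGroup_iff.1 hP _ hy
      obtain ⟨n, d, e1, e2⟩ := exists_lift_two f y hi
      rw [← e1]
      generalize y ^ n = w at e2
      obtain ⟨x, -, a, ha, -, e3⟩ := h.inn0 w.2.1 (congrArg i e2 |>.trans (map_one i) |>
        (map_pow i w _).symm.trans) ((hπ w _).2 (eq_one_of_odd_two (k := d) w.2.2 (by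
          rw [← map_pow, ← map_one π]; exact congrArg _ (congrArg Subtype.val e2))))
      let u : D := ⟨⟨ι x, le_normalizer ⟨x, rfl⟩⟩, (h.tc x).symm, by
        rw [(hπ _ _).1 (acU_range x)]; exact odd_of_pow odd_one (pow_one _)⟩
      refine ⟨u⁻¹ * w, ?_, ?_⟩
      · change (ι x)⁻¹ * w.1.1 ∈ K0 ι t
        rwa [e3, inv_mul_cancel_left]
      · rw [map_mul, map_inv, show f u = 1 from (QuotientGroup.eq_one_iff _).2 ⟨x, rfl⟩, inv_one,
          one_mul]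
    have := h.cyc (Q.map i) (map_le_iff_le_comap.2 q1) (q2.map i)
    have := (Q.equivMapOfInjective i hj).isCyclic.2 this
    exact isCyclic_of_surjective _ (f.subgroupMap_surjective Q)
  obtain ⟨a, ha, rfl⟩ := ((closure_le _).2 fun x hx => by
    have e1 := mem_centralizer_singleton_iff.1 hx.1
    have e2 : Odd (orderOf (⟨x, h.nrm x e1⟩ : 𝐍[ι.range])) := by rw [← orderOf_coe]; exact hx.2
    let w : D := ⟨⟨x, h.nrm x e1⟩, e1, e2.of_dvd_nat (orderOf_map_dvd _ _)⟩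
    exact ⟨w, h4 _ (Odd.of_dvd_nat (by rw [← orderOf_coe]; exact e2) (orderOf_map_dvd f w)), rfl⟩ :
      Od _ ≤ (O.comap f).map i) hn
  exact (QuotientGroup.eq_one_iff a).1 (eq_one_of_odd_two (x := f a) (k := j)
    (h3.of_dvd_nat (orderOf_dvd_natCard O ha)) (by
      rw [← map_pow, hj (a₁ := a ^ 2 ^ j) (a₂ := 1) (by rw [map_pow, h2, map_one]), map_one]))

/-- an image of `SU` centralised by `t` is `L` -/
theorem Su.range_eq (h : Su ι t) (hr : Rp r) (hc : ∀ g, t * r g = r g * t) : r.range = ι.range := by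
  refine hr.eq_of_le h.toRp ?_
  rintro _ ⟨x, rfl⟩
  refine hr.mem_of_T (H := ι.range.comap r) (fun v hv => h.o2 (j := 1) (StdL.Od_mono ?_
    (hr.range_le_Od ⟨_, rfl⟩)) (by rw [← map_pow, au_T_sq hv, map_one])) x
  rintro _ ⟨y, rfl⟩
  exact mem_centralizer_singleton_iff.2 (hc y).symm

theorem Su.cent_Fx (h : Su ι t) (hW : TI q W) (h0 : W ≠ ⊥) (hn : n * t = t * n)
    (hc : ∀ g ∈ Fx q (W : Set (Fin m → F)), n * ι g = ι g * n) :
    ∃ g ∈ VW q W, ∃ k ∈ K0 ι t, n = ι g * k := by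
  obtain ⟨s, γ, a, b⟩ := h.ac hn
  obtain ⟨-, l, -, g, hg, e⟩ := a.cent_Fx (by have := h.m6; omega) hW h0 fun g hg e =>
    h.rel_self a b (k := 2) e (hc g hg)
  exact ⟨g, hg, _, h.bs_K0 hn (au_ind_smul b e), by simp⟩

theorem Su.cent_c (h : Su ι t) (hW : MTI q W) {f : Fin m → F} (hf : 𝐡 f f = 0) (hf' : f ∉ W)
    (hn : n * t = t * n) (hc : ∀ g ∈ VW q W, n * ι g = ι g * n)
    (hc' : ∀ g ∈ Fx q (insert f (W : Set (Fin m → F))), n * ι g = ι g * n) :
    ∃ g ∈ VW q W, ∃ k ∈ K0 ι t, n = ι g * k := by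
  obtain ⟨s, γ, a, b⟩ := h.ac hn
  obtain ⟨-, l, -, g, hg, e⟩ := a.cent_c (by have := h.m6; omega) hW hf hf' (fun g hg =>
    h.rel_self a b (k := 1) (by rw [pow_one, pow_two, hW.1.el g hg]) (hc g hg)) fun g hg e =>
    h.rel_self a b (k := 2) e (hc' g hg)
  exact ⟨g, hg, _, h.bs_K0 hn (au_ind_smul b e), by simp⟩

theorem Su.bs_tc (h : Su ι t) (hB : B ≤ ι.range) : ∀ x ∈ B, t * x = x * t := fun _ hx =>
  let ⟨y, e⟩ := hB hx
  e ▸ h.tc y

theorem Su.mem_AW (h : Su ι t) {x : G} :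
    x ∈ AW ι t W ↔ ∃ g ∈ VW q W, x = ι g ∨ x = t * ι g := by
  rw [AW, bs_mem (h.bs_tc (map_le_range _ _)) h.tt]
  have e : ∀ y, t * (t * y) = y := fun y => by rw [← mul_assoc, h.tt, one_mul]
  refine ⟨fun a => a.elim (fun ⟨g, a, b⟩ => ⟨g, a, .inl b.symm⟩) fun ⟨g, a, b⟩ =>
    ⟨g, a, .inr (by rw [b, e])⟩, fun ⟨g, a, b⟩ => b.imp (fun b => ⟨g, a, b.symm⟩) fun b =>
      ⟨g, a, by rw [b, e]⟩⟩

theorem Su.el_AW (h : Su ι t) (hW : TI q W) : El (AW ι t W) :=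
  bs_el (by rintro _ ⟨g, a, rfl⟩; rw [← map_mul, hW.el g a, map_one])
    (h.bs_tc (map_le_range _ _)) h.tt

theorem Su.AW_le (h : Su ι t) : AW ι t W ≤ centralizer {t} :=
  sup_le (fun x hx => mem_centralizer_singleton_iff.2 (h.bs_tc (map_le_range _ _) x hx).symm)
    (zpowers_le.2 (mem_centralizer_singleton_iff.2 rfl))

theorem Rp.card_VW (h : Rp r) (hW : TI q W) :
    Nat.card ((VW q W).map r) = q ^ Module.finrank F W ^ 2 := by
  rw [h.card_map (pgrp_of_sq hW.el), StdU.card_VW hW]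

theorem Su.card_AW (h : Su ι t) (hW : TI q W) :
    Nat.card (AW ι t W) = 2 * q ^ Module.finrank F W ^ 2 := by
  rw [AW, bs_card (h.bs_tc (map_le_range _ _)) h.tt fun e => h.notMem (map_le_range _ _ e),
    h.card_VW hW]

theorem Su.AW_inf (h : Su ι t) : AW ι t W ⊓ ι.range = (VW q W).map ι := by
  refine le_antisymm (fun x hx => ?_) (le_inf le_sup_left (map_le_range _ _))
  obtain ⟨g, a, rfl | rfl⟩ := h.mem_AW.1 hx.1
  · exact ⟨g, a, rfl⟩
  · exact absurd ((mul_mem_cancel_right (MonoidHom.mem_range.2 ⟨g, rfl⟩)).1 hx.2) h.notMem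

theorem Rp.le_of_map_le (h : Rp r) (hW : TI q W) (hW' : TI q W')
    (e : (VW q W).map r ≤ (VW q W').map r) : W ≤ W' :=
  le_of_VW_le hW fun g hg =>
    let ⟨g', a, b⟩ := e ⟨g, hg, rfl⟩
    h.eq_of_sq (hW'.el g' a) (hW.el g hg) b ▸ a

theorem Su.bs_J (h : Su ι t) (hB : El B) (hle : B ≤ centralizer {t}) : ∃ E ≤ ι.range, El E ∧
    (B ≤ E ⊔ zpowers t ∨ Nat.card B < q ^ (m / 2) ^ 2) := by
  have h1 := bs_el hB (fun x hx => (mem_centralizer_singleton_iff.1 (hle hx)).symm) h.tt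
  have h2 : ∀ b ∈ B, b * t = t * b := fun b hb => mem_centralizer_singleton_iff.1 (hle hb)
  let E := (B ⊔ zpowers t) ⊓ ι.range
  have h3 := h.bs_tc (B := E) inf_le_right
  have h4 : ∀ b ∈ B, AcU ι b 1 → b ∈ E ⊔ zpowers t := fun b hb a => (bs_mem h3 h.tt).2 (by
    obtain ⟨x, -, e | e⟩ := h.inn (h2 b hb) (hB b hb) a
    · exact .inl ⟨mem_sup_left hb, x, e.symm⟩
    · exact .inr ⟨mul_mem (mem_sup_right (mem_zpowers t)) (mem_sup_left hb), x, by
        rw [e, ← mul_assoc, h.tt, one_mul]⟩)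
  have h5 : ∀ b ∈ B, ∀ s, AcU ι b s → s = 1 ∨ ∀ a, s a = a ^ q := fun b hb s a =>
    aut_sq (AcU.uniq h.toRp (hB b hb ▸ a.mul a) (acU_cent fun y => by simp))
  refine ⟨E, inf_le_right, fun x hx => h1 x hx.1, ?_⟩
  by_cases e : ∀ b ∈ B, AcU ι b 1
  · exact .inl fun b hb => h4 b hb (e b hb)
  push Not at e
  obtain ⟨d, hd, e⟩ := e
  obtain ⟨s, a⟩ := h.ac (h2 d hd)
  have h6 : s ≠ 1 := fun c => e (c ▸ a)
  have h7 := bs_le (B := B) (H := E ⊔ zpowers t) (d := d⁻¹) fun b hb => by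
    obtain ⟨s', a'⟩ := h.ac (h2 b hb)
    rcases h5 b hb s' a' with rfl | c
    · exact .inl (h4 b hb a')
    refine .inr (h4 _ (mul_mem (inv_mem hd) hb) ?_)
    rw [show s' = s from RingEquiv.ext fun x => (c x).trans
      ((h5 d hd s a).resolve_left h6 x).symm] at a'
    exact inv_mul_cancel s ▸ a.inv.mul a'
  have h8 := bs_le fun b => (bs_mem h3 h.tt (x := b)).1
  have h9 := mt (h.lin_of_big (E := E) a (fun y => by simp [hB d hd]) (fun x hx => h1 x hx.1)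
    inf_le_right fun x hx => h1.comm (mem_sup_left hd) hx.1) h6
  omega

theorem Su.J_le (h : Su ι t) (hB : El B) (hle : B ≤ centralizer {t}) :
    Nat.card B ≤ 2 * q ^ (m / 2) ^ 2 := by
  obtain ⟨E, a, b, e | e⟩ := h.bs_J hB hle
  · exact (bs_le fun x hx => (bs_mem (h.bs_tc a) h.tt).1 (e hx)).trans
      (Nat.mul_le_mul_left 2 (h.el_card_le b a))
  · omega

theorem Su.J (h : Su ι t) (hB : El B) (hle : B ≤ centralizer {t})
    (hc : 2 * q ^ (m / 2) ^ 2 ≤ Nat.card B) : ∃ W, MTI q W ∧ B = AW ι t W := by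
  obtain ⟨E, a, b, e | e⟩ := h.bs_J hB hle
  · have := bs_le fun x hx => (bs_mem (h.bs_tc a) h.tt).1 (e hx)
    obtain ⟨W, h1, rfl⟩ := h.el_eq b a (by omega)
    exact ⟨W, h1, eq_of_le_of_card_ge e (by rwa [h.card_AW h1.1, h1.2])⟩
  · omega

end Cfsg.Agent.StdU
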