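import Cfsg.Agent.StdU.Bas
import Cfsg.Agent.TIB.Bas

/-! The commuting family `c v` of elements moving `t` to `t * ι (T v 1)`. -/

set_option autoImplicit false

namespace Cfsg.Agent.StdU

open Subgroup Cfsg.Agent.Class.U Cfsg.Agent.KSG Cfsg.Agent.PLocal.Amb
open Cfsg.Agent.StdL (El Od Uq cjh)
open scoped commutatorElement

variable {F : Type*} [Field F] {m q : ℕ} [UF F q] [CharP F 2]
  {G : Type*} [Group G] [Finite G] {ι r : SU m F q →* G} {t : G} {c : (Fin m → F) → G}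

local notation "𝐡" => hermForm m F q

open Cfsg.Agent.TIB

variable {u v w x : Fin m → F} {W : Submodule F (Fin m → F)} {κ α : F} {n n' o : G} {g y y' : SU m F q}

omit [UF F q] [CharP F 2] in
theorem cf_rk2 (u w : Fin m → F) : Module.finrank F (Submodule.span F {u, w}) ≤ 2 := by
  classical
  have := finrank_span_finset_le_card (R := F) ({u, w} : Finset _)
  rw [Set.finrank, Finset.coe_pair] at this
  exact this.trans Finset.card_le_two

omit [UF F q] [CharP F 2] in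
theorem cf_l : u ∈ Submodule.span F {u, w} := Submodule.subset_span (Or.inl rfl)

omit [UF F q] [CharP F 2] in
theorem cf_r : w ∈ Submodule.span F {u, w} := Submodule.subset_span (Or.inr rfl)

theorem cf_ext (hm : 6 ≤ m) (h : O2 q u w) :
    ∃ x, x ∉ Submodule.span F {u, w} ∧ TI q (Submodule.span F {u, w} ⊔ Submodule.span F {x}) := by
  obtain ⟨x, h1, h2, h3⟩ := exists_iso_perp h.ti (by have := cf_rk2 u w; omega)
  exact ⟨x, h2, h.ti.sup h3 h1⟩

omit [UF F q] [CharP F 2] in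
theorem cf_ind (hv : v ∈ W) (h0 : v ≠ 0) (hx : x ∉ W) : LinearIndependent F ![x, v] :=
  linearIndependent_fin2.2 ⟨h0, fun a e => hx (e ▸ W.smul_mem a hv :)⟩

theorem cf_pair (hm : 6 ≤ m) (hu : 𝐡 u u = 0) (h0 : u ≠ 0) :
    ∃ w, O2 q u w ∧ LinearIndependent F ![u, w] := by
  obtain ⟨w, h1, h2⟩ := cf_ext hm (O2.self hu)
  exact ⟨w, h2.o2 (Submodule.mem_sup_left cf_l) lV_mem_v,
    LinearIndependent.pair_symm_iff.1 (cf_ind cf_l h0 h1)⟩

omit [UF F q] [CharP F 2] in
theorem cf_tri (hi : LinearIndependent F ![u, w]) {a d : F} (b : F) (ha : a ≠ 0) (hd : d ≠ 0) :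
    LinearIndependent F ![a • u, b • u + d • w] := LinearIndependent.pair_iff.2 fun s r e => by
  obtain ⟨h1, h2⟩ := LinearIndependent.pair_iff.1 hi (s * a + r * b) (r * d) (by
    rw [← e]; module)
  have r0 := (mul_eq_zero.1 h2).resolve_right hd
  rw [r0, zero_mul, add_zero] at h1
  exact ⟨(mul_eq_zero.1 h1).resolve_right ha, r0⟩

theorem cf_ex (hm : 6 ≤ m) : ∃ p p' : Fin m → F, O2 q p p' ∧ LinearIndependent F ![p, p'] := by
  obtain ⟨p, h0, hW⟩ := cf_ext (F := F) (q := q) (u := 0) (w := 0) hm (O2.self (herm_zero_left _))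
  exact ⟨p, cf_pair hm (hW p lV_mem_v p lV_mem_v) fun e => h0 (by rw [e]; exact zero_mem _)⟩

omit [UF F q] [CharP F 2] in
theorem cf_ne (g : SU m F q) (h : v ≠ 0) : g • v ≠ 0 := fun e => h (by
  rw [← inv_smul_smul g v, e, ← zero_smul F (0 : Fin m → F), SU_smul_comm, zero_smul, zero_smul])

omit [UF F q] [CharP F 2] in
theorem cf_z (g : SU m F q) : g • (0 : Fin m → F) = 0 := by
  rw [← zero_smul F (0 : Fin m → F), SU_smul_comm, zero_smul, zero_smul]

theorem cf_one : (1 : F) ^ q = 1 := one_pow q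

theorem TI.fix (h : TI q W) (hg : g ∈ VW q W) (hv : v ∈ W) : g • v = v := hg v (h.le_perp hv)

omit [Finite G] in
theorem cf_odd {a b : G} (h : Odd (orderOf a)) (e : Commute (a * a) b) : Commute a b := by
  obtain ⟨k, hk⟩ := h
  have : a = (a * a) ^ (k + 1) := by
    rw [← sq, ← pow_mul, show 2 * (k + 1) = orderOf a + 1 by omega, pow_succ, pow_orderOf_eq_one,
      one_mul]
  exact this ▸ e.pow_left _

omit [Finite G] in
theorem cf_odd1 {a : G} (h : Odd (orderOf a)) (e : a * a * (a * a) = 1) : a = 1 :=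
  orderOf_eq_one_iff.1 (Nat.eq_one_of_dvd_coprimes (Nat.Coprime.pow_right 2 (Nat.coprime_two_right.2 h))
    dvd_rfl (orderOf_dvd_of_pow_eq_one (by rw [← e]; norm_num [pow_succ, mul_assoc])))

omit [Finite G] in
theorem cf_sh {a n n' y y' : G} (h : cn a n = y * n) (h' : cn a n' = y' * n') (e : Commute n y') :
    cn a (n * n') = y * y' * (n * n') := by
  rw [cn_mul, h, h', mul_assoc, ← mul_assoc n, e.eq]
  simp only [mul_assoc]

/-- elements of odd order of `K0` -/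
def OK (ι : SU m F q →* G) (t o : G) : Prop := o ∈ K0 ι t ∧ Odd (orderOf o)

theorem OK.ci (h : OK ι t o) (g : SU m F q) : Commute o (ι g) := (mem_K0.1 h.1).2 g

theorem OK.ct (h : OK ι t o) : Commute o t := (mem_K0.1 h.1).1

/-- `n` centralises `ι (Fx W)` and translates `t` by `ι y` -/
structure Tr (ι : SU m F q →* G) (t : G) (W : Submodule F (Fin m → F)) (n : G) (y : SU m F q) :
    Prop where
  mem : y ∈ VW q W
  tr : cn n t = t * ι y
  cen : ∀ g ∈ Fx q (W : Set (Fin m → F)), Commute n (ι g)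

theorem Tr.cV (h : Tr ι t W n y) (hW : TI q W) (hg : g ∈ VW q W) : Commute n (ι g) :=
  h.cen g fun _ hv => hW.fix hg hv

theorem Tr.mul (hW : TI q W) (h : Tr ι t W n y) (h' : Tr ι t W n' y') : Tr ι t W (n * n') (y * y') :=
  ⟨mul_mem h.mem h'.mem, by
    rw [mul_cn, h'.tr, cn_mul, h.tr, cn_eq (h.cV hW h'.mem), map_mul, mul_assoc],
    fun g hg => (h.cen g hg).mul_left (h'.cen g hg)⟩

theorem Tr.inv (hW : TI q W) (h : Tr ι t W n y) : Tr ι t W n⁻¹ y :=
  ⟨h.mem, by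
    rw [← cn_inj (g := n), cn_inv_cn, cn_mul, h.tr, cn_eq (h.cV hW h.mem), mul_assoc, ← map_mul,
      hW.el y h.mem, map_one, mul_one], fun g hg => (h.cen g hg).inv_left⟩

theorem Tr.dec (S : Su ι t) (hn : Nsq ι t) (hW : TI q W) (h0 : W ≠ ⊥) (h : Tr ι t W n 1) :
    ∃ g ∈ VW q W, ∃ o, OK ι t o ∧ (n = ι g * o ∨ n = ι g * o * t) := by
  obtain ⟨g, hg, k, hk, rfl⟩ := S.cent_Fx hW h0 (comm_of_cn (by simpa using h.tr)) h.cen
  rcases hn k hk with e | e
  · exact ⟨g, hg, k, ⟨hk, e⟩, Or.inl rfl⟩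
  · exact ⟨g, hg, _, ⟨mul_mem hk S.t_mem, e⟩, Or.inr (by rw [mul_assoc, mul_assoc, S.tt, mul_one])⟩

theorem Tr.ok (S : Su ι t) (hW : TI q W) (h0 : W ≠ ⊥) (h : Tr ι t W n 1) (e : Odd (orderOf n)) :
    OK ι t n := by
  obtain ⟨g, hg, k, hk, rfl⟩ := S.cent_Fx hW h0 (comm_of_cn (by simpa using h.tr)) h.cen
  refine ⟨mem_of_pow_mem_of_coprime (n := 2) ?_ (Nat.coprime_two_right.2 e), e⟩
  rw [sq, sq_mul ((mem_K0.1 hk).2 g).symm, ← map_mul, hW.el g hg, map_one, one_mul]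
  exact mul_mem hk hk

theorem Su.z_ne (S : Su ι t) (hv : 𝐡 v v = 0) (h0 : v ≠ 0) : ι (T q v 1) ≠ 1 := fun e =>
  T_ne_one hv h0 cf_one one_ne_zero
    (S.eq_of_sq (T_sq hv cf_one) (mul_one 1) (e.trans (map_one ι).symm))

/-- the family before normalisation -/
structure P0 (ι : SU m F q →* G) (t : G) (c : (Fin m → F) → G) (κ : F) : Prop extends Su ι t where
  nsq : Nsq ι t
  κq : κ ^ q = κ
  c0 : c 0 = 1
  eqv : ∀ g v, 𝐡 v v = 0 → ι g * c v * (ι g)⁻¹ = c (g • v)
  sq : ∀ v, 𝐡 v v = 0 → c v * c v = ι (T q v κ)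
  tr : ∀ v, 𝐡 v v = 0 → c v * t * (c v)⁻¹ = t * ι (T q v 1)

theorem Su.p0 (h : Su ι t) (hz : Trl ι t) (hn : Nsq ι t) : ∃ c κ, P0 ι t c κ := by
  classical
  obtain ⟨p, p', e₀, hi⟩ := cf_ex (F := F) (q := q) h.m6
  have hp := e₀.l
  have h0 : p ≠ 0 := hi.ne_zero 0
  have hW : TI q (Submodule.span F {p}) := ti_span (by simpa using hp)
  have pW := Submodule.mem_span_singleton_self (R := F) p
  obtain ⟨c₀, h1, h2⟩ := hz p h0 hp
  have t0 : Tr ι t (Submodule.span F {p}) c₀ (T q p 1) :=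
    ⟨T_mem_VW hp cf_one pW, h2, by rwa [Fx_span]⟩
  have t2 := fun {c₁} (t1 : Tr ι t (Submodule.span F {p}) c₁ (T q p 1)) =>
    T_sq hp cf_one ▸ t1.mul hW t1
  obtain ⟨j, i, ⟨k, rfl⟩, e⟩ := Nat.exists_eq_two_pow_mul_odd (orderOf_pos c₀).ne'
  have t1 : Tr ι t (Submodule.span F {p}) (c₀ ^ (2 * k + 1)) (T q p 1) := by
    clear e
    induction k with
    | zero => simpa using t0
    | succ k ih =>
      have := (t2 t0).mul hW ih
      rwa [one_mul, ← sq, ← pow_add, show 2 + (2 * k + 1) = 2 * (k + 1) + 1 by omega] at this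
  have p1 : (c₀ ^ (2 * k + 1)) ^ 2 ^ j = 1 := by
    rw [← pow_mul, mul_comm, ← e, pow_orderOf_eq_one]
  generalize c₀ ^ (2 * k + 1) = c₁ at t1 p1
  obtain ⟨g, hg, k, hk, e⟩ := h.cent_Fx hW (by simpa using h0)
    (comm_of_cn (by simpa using (t2 t1).tr)) (t2 t1).cen
  obtain ⟨κ, hκ, rfl⟩ := (mem_VW_one hp).1 hg
  have k1 : k = 1 := by
    refine (h.inv_pow hn hk (j := j + 1) ?_).resolve_right fun r => h.z_ne hp h0 ?_
    · have : (c₁ * c₁) ^ 2 ^ (j + 1) = 1 := by
        rw [(Commute.refl _).mul_pow, pow_succ, pow_mul, p1, one_pow, one_mul]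
      rwa [e, Commute.mul_pow ((mem_K0.1 hk).2 _).symm, pow_succ', pow_mul (ι _), sq, ← map_mul,
        T_sq hp hκ, map_one, one_pow, one_mul, ← pow_succ'] at this
    · have c1 : Commute c₁ (ι (T q p κ) * k) := e ▸ (Commute.refl c₁).mul_right (Commute.refl c₁)
      have c2 : Commute c₁ t := by simpa [r] using (t1.cV hW hg).inv_right.mul_right c1
      simpa [cn_eq c2] using t1.tr
  rw [k1, mul_one] at e
  have ex := fun v (hv : 𝐡 v v = 0 ∧ v ≠ 0) =>
    exists_SU_smul_eq (by have := h.m6; omega) h0 hv.2 hp hv.1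
  choose! f hf using ex
  have cs : ∀ v, 𝐡 v v = 0 → v = 0 ∨ v ≠ 0 ∧ f v • p = v := fun v hv =>
    or_iff_not_imp_left.2 fun v0 => ⟨v0, hf v ⟨hv, v0⟩⟩
  refine ⟨fun v => if v = 0 then 1 else cn (ι (f v)) c₁, κ, h, hn, hκ, if_pos rfl,
    fun g v hv => ?_, fun v hv => ?_, fun v hv => ?_⟩
  · rcases cs v hv with rfl | ⟨v0, r⟩
    · simp [cf_z]
    have v1 := cf_ne g v0
    have r' := hf (g • v) ⟨by rwa [SU_herm], v1⟩
    have := t1.cen ((f (g • v))⁻¹ * g * f v) (by
      rw [Fx_span, mem_Fx_one, mul_smul, mul_smul, r, inv_smul_eq_iff, r'])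
    simp only [if_neg v0, if_neg v1]
    have := congrArg (cn (ι (f (g • v)))) (cn_eq this.symm)
    simp only [map_mul, map_inv, mul_cn, cn_inv_cn] at this
    exact this
  · rcases cs v hv with rfl | ⟨v0, r⟩
    · simp [T_zero_vec]
    simp only [if_neg v0]
    rw [← cn_mul, e, cn, ← map_inv, ← map_mul, ← map_mul, T_conj hp hκ, r]
  · rcases cs v hv with rfl | ⟨v0, r⟩
    · simp [T_zero_vec]
    simp only [if_neg v0]
    have := congrArg (cn (ι (f v))) t1.tr
    rw [← cn_cn_cn, cn_mul, cn_eq (h.tc _).symm] at this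
    rw [← r, ← T_conj hp cf_one, map_mul, map_mul, map_inv, r]
    exact this

namespace P0

variable (h : P0 ι t c κ)
include h

theorem fix (hv : 𝐡 v v = 0) (hg : g • v = v) : Commute (c v) (ι g) :=
  (comm_of_cn ((h.eqv g v hv).trans (by rw [hg]))).symm

theorem trc (hW : TI q W) (hv : v ∈ W) : Tr ι t W (c v) (T q v 1) :=
  ⟨T_mem_VW (hW v hv v hv) cf_one hv, h.tr v (hW v hv v hv),
    fun g hg => h.fix (hW v hv v hv) (hg v hv)⟩

theorem okc (hv : 𝐡 v v = 0) (ho : OK ι t o) : OK ι t (cn (c v) o) := by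
  by_cases h0 : v = 0
  · rwa [h0, h.c0, one_cn]
  have hW : TI q (Submodule.span F {v}) := ti_span (by simpa using hv)
  have t1 := h.trc hW (Submodule.mem_span_singleton_self v)
  have t0 : Tr ι t (Submodule.span F {v}) o 1 :=
    ⟨one_mem _, by simpa using cn_eq ho.ct, fun g _ => ho.ci g⟩
  have := (t1.mul hW t0).mul hW (t1.inv hW)
  rw [mul_one, T_sq hv cf_one] at this
  exact this.ok h.toSu hW (by simpa using h0) (by rw [cn, bs_ord]; exact ho.2)

theorem same (hv : 𝐡 v v = 0) (h0 : v ≠ 0) (hw : 𝐡 w w = 0) (h0' : w ≠ 0) (ho : OK ι t o) :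
    cn (c w) o = cn (c v) o := by
  obtain ⟨g, rfl⟩ := exists_SU_smul_eq (by have := h.m6; omega) h0 h0' hv hw
  rw [← h.eqv g v hv, mul_cn, mul_cn, cn_eq (ho.ci g).symm.inv_left, cn_eq ((h.okc hv ho).ci g).symm]

theorem five_dec {ω : F} (hω : ω + ω ^ q = 1) (e : O2 q u w) (h0 : u ≠ 0) :
    ∃ g ∈ VW q (Submodule.span F {u, w}), ∃ o, OK ι t o ∧
      (c u * c w * c (u + w) * c (u + ω • w) * c (u + ω ^ q • w) = ι g * o ∨
        c u * c w * c (u + w) * c (u + ω • w) * c (u + ω ^ q • w) = ι g * o * t) := by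
  have m1 : ∀ a : F, u + a • w ∈ Submodule.span F {u, w} := fun a =>
    add_mem cf_l (Submodule.smul_mem _ a cf_r)
  have := ((((h.trc e.ti cf_l).mul e.ti (h.trc e.ti cf_r)).mul e.ti
    (h.trc e.ti (add_mem cf_l cf_r))).mul e.ti (h.trc e.ti (m1 ω))).mul e.ti (h.trc e.ti (m1 (ω ^ q)))
  rw [five e hω cf_one] at this
  exact this.dec h.toSu h.nsq e.ti fun r => h0 (by simpa [r] using cf_l (u := u) (w := w))

omit h in
theorem ne0 (hi : LinearIndependent F ![u, w]) (a : F) : u + a • w ≠ 0 := fun e =>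
  one_ne_zero (LinearIndependent.pair_iff.1 hi 1 a (by rwa [one_smul])).1

theorem cO (hu : 𝐡 u u = 0) (ho : OK ι t o) : Commute (c u) o := by
  by_cases h0 : u = 0
  · rw [h0, h.c0]; exact Commute.one_left _
  obtain ⟨w, e, hi⟩ := cf_pair h.m6 hu h0
  obtain ⟨ω, hω⟩ := exists_om (F := F) (q := q)
  obtain ⟨g, -, k, hk, r⟩ := h.five_dec hω e h0
  have s2 : ∀ o, OK ι t o → cn (c u) (cn (c u) o) = o := fun o ho => by
    rw [← mul_cn, h.sq u hu, cn_eq (ho.ci _).symm]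
  have i1 : ∀ a : F, 𝐡 (u + a • w) (u + a • w) = 0 := fun a => by simpa using e.iso 1 a
  have key : ∀ o, OK ι t o → cn (c u) o = cn k o := fun o ho => by
    have o1 := h.okc hu ho
    have : cn (c u * c w * c (u + w) * c (u + ω • w) * c (u + ω ^ q • w)) o = cn (c u) o := by
      simp only [mul_cn]
      rw [h.same hu h0 (i1 _) (ne0 hi _) ho, h.same hu h0 (i1 _) (ne0 hi _) o1, s2 o ho,
        h.same hu h0 (by simpa using i1 1) (by simpa using ne0 hi 1) ho,
        h.same hu h0 e.r (hi.ne_zero 1) o1, s2 o ho]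
    have k1 : cn (ι g) (cn k o) = cn k o :=
      cn_eq (((hk.ci g).mul_left (ho.ci g)).mul_left (hk.ci g).inv_left).symm
    rcases r with r | r <;> rw [← this, r]
    · rw [mul_cn, k1]
    · rw [mul_cn, mul_cn, cn_eq ho.ct.symm, k1]
  refine comm_of_cn ((key o ho).trans (cn_eq (cf_odd hk.2 (comm_of_cn ?_))))
  rw [mul_cn, ← key o ho, ← key _ (h.okc hu ho), s2 o ho]

theorem nm1 (hv : 𝐡 v v = 0) {a : F} (ha : a * a ^ q = 1) : c (a • v) = c v := by
  by_cases h0 : v = 0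
  · rw [h0, smul_zero]
  have a0 : a ≠ 0 := fun e => by simp [e] at ha
  have hW : TI q (Submodule.span F {v}) := ti_span (by simpa using hv)
  have m0 := Submodule.mem_span_singleton_self (R := F) v
  have hv' := hW _ (Submodule.smul_mem _ a m0) _ (Submodule.smul_mem _ a m0)
  have eT : ∀ b : F, b ^ q = b → T q (a • v) b = T q v b := fun b hb => by
    rw [T_smul_vec hv hb, ha, one_mul]
  obtain ⟨g, hg⟩ := exists_SU_smul_eq (by have := h.m6; omega) h0 (smul_ne_zero a0 h0) hv hv'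
  have t1 := ((h.trc hW m0).inv hW).mul hW (h.trc hW (Submodule.smul_mem _ a m0))
  rw [eT 1 cf_one, T_sq hv cf_one] at t1
  obtain ⟨n, hn⟩ : ∃ n, n = (c v)⁻¹ * c (a • v) := ⟨_, rfl⟩
  rw [← hn] at t1
  have e1 : c (a • v) = c v * n := by rw [hn, mul_inv_cancel_left]
  have c1 : cn (ι g) n = n := by
    obtain ⟨y, hy, k, hk, r⟩ := h.cent_Fx hW (by simpa using h0)
      (comm_of_cn (by simpa using t1.tr)) t1.cen
    obtain ⟨b, hb, rfl⟩ := (mem_VW_one hv).1 hy
    rw [r, cn_mul, cn_eq ((mem_K0.1 hk).2 g).symm, cn, ← map_inv, ← map_mul, ← map_mul,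
      T_conj hv hb, hg, eT b hb]
  have e2 : cn (ι g) (c v) = c v * n := by rw [← e1, ← hg]; exact h.eqv g v hv
  have it : ∀ i : ℕ, c (a ^ i • v) = c v * n ^ i := fun i => by
    induction i with
    | zero => simp
    | succ i ih =>
      have := h.eqv g _ (hW _ (Submodule.smul_mem _ (a ^ i) m0) _ (Submodule.smul_mem _ (a ^ i) m0))
      rw [SU_smul_comm, hg, smul_smul, ← pow_succ, ih] at this
      rw [← this]
      exact (cn_mul _ _ _).trans (by rw [cn_pow, c1, e2, pow_succ', mul_assoc])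
  have o1 : Odd (orderOf n) := by
    have := it (q + 1)
    rw [pow_succ', ha, one_smul, left_eq_mul] at this
    exact Odd.of_dvd_nat (even_iff_two_dvd.2 (even_q F)).add_one (orderOf_dvd_of_pow_eq_one this)
  have := h.sq _ hv'
  rw [eT κ h.κq, ← h.sq v hv, e1, sq_mul (h.cO hv (t1.ok h.toSu hW (by simpa using h0) o1)),
    mul_eq_left] at this
  rw [e1, cf_odd1 o1 (by rw [this, one_mul]), mul_one]

theorem cmt (e : O2 q u w) (h0 : u ≠ 0) :
    ∃ g ∈ VW q (Submodule.span F {u, w}), cn (c u) (c w) = ι g * c w := by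
  have tu := h.trc e.ti cf_l
  have tw := h.trc e.ti cf_r
  have := ((tu.mul e.ti tw).mul e.ti (tu.inv e.ti)).mul e.ti (tw.inv e.ti)
  rw [mul_assoc (T q u 1 * _), e.ti.el _ (mul_mem tu.mem tw.mem)] at this
  obtain ⟨g, hg, o, ho, r⟩ := this.dec h.toSu h.nsq e.ti fun r => h0 (by
    simpa [r] using cf_l (u := u) (w := w))
  have k : ∀ d, c u * c w * (c u)⁻¹ * (c w)⁻¹ = d → cn (c u) d * d = 1 := fun d hd => by
    have e1 : cn (c u) (c w) = d * c w := by rw [← hd, inv_mul_cancel_right, cn]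
    have := congrArg (cn (c u)) e1
    rw [← mul_cn, h.sq u e.l, cn_eq (tw.cV e.ti (T_mem_VW e.l h.κq cf_l)).symm, cn_mul, e1,
      ← mul_assoc, right_eq_mul] at this
    exact this
  have c1 : cn (c u) (ι g * o) = ι g * o := cn_eq ((tu.cV e.ti hg).mul_right (h.cO e.l ho))
  have s1 : ι g * o * (ι g * o) = o * o := by
    rw [sq_mul (ho.ci g).symm, ← map_mul, e.ti.el g hg, map_one, one_mul]
  rcases r with r | r
  · have := k _ r
    rw [c1, s1] at this
    rw [cf_odd1 ho.2 (by rw [this, one_mul]), mul_one] at r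
    exact ⟨g, hg, eq_mul_of_mul_inv_eq r⟩
  · have := k _ r
    have c2 : Commute t (ι g * o) := Commute.mul_right (h.tc g) ho.ct.symm
    have c3 : Commute (ι (T q u 1)) (ι g * o) := Commute.mul_right
      (Commute.map (comm_of_sq (T_sq e.l cf_one) (e.ti.el g hg) (e.ti.el _ (mul_mem tu.mem hg))) ι)
      (ho.ci _).symm
    have z2 : ι (T q u 1) * ι (T q u 1) = 1 := by rw [← map_mul, T_sq e.l cf_one, map_one]
    rw [cn_mul, c1, tu.tr, mul_assoc, ← mul_assoc (t * _), (c2.mul_left c3).eq, mul_assoc (ι g * o),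
      ← mul_assoc, s1, h.tc, mul_assoc (ι _), h.tt, mul_one] at this
    have o1 : o = 1 := cf_odd1 ho.2 (by rw [eq_inv_of_mul_eq_one_left this, ← mul_inv_rev, z2, inv_one])
    rw [o1, one_mul, one_mul] at this
    exact absurd this (h.z_ne e.l h0)

theorem exists_al : ∃ α : F, α ^ q = α ∧ ∀ u w, O2 q u w → LinearIndependent F ![u, w] →
    cn (c u) (c w) = ι (T q u α * T q w α) * c w := by
  obtain ⟨p, p', e, hi⟩ := cf_ex (F := F) (q := q) h.m6
  obtain ⟨g, hg, r⟩ := h.cmt e (hi.ne_zero 0)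
  obtain ⟨a, b, d, ha, hb, rfl⟩ := (mem_VW_two e).1 hg
  have gen : ∀ u w, O2 q u w → LinearIndependent F ![u, w] →
      cn (c u) (c w) = ι (T q u a * T q w b * S q u (d • w)) * c w := fun u w e' hi' => by
    obtain ⟨k, rfl, rfl⟩ := exists_pair (by have := h.m6; omega) e hi e' hi'
    have o : O2 q p (d • p') := by simpa using e.smul 1 d
    rw [← h.eqv k p e.l, ← h.eqv k p' e.r, ← T_conj e.l ha, ← T_conj e.r hb, ← SU_smul_comm,
      ← S_conj o]
    refine (cn_cn_cn _ _ _).trans ?_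
    rw [r, cn_mul]
    simp [cn, mul_assoc]
  have mm : ∀ {a b d : F}, a ^ q = a → b ^ q = b →
      T q p a * T q p' b * S q p (d • p') ∈ VW q (Submodule.span F {p, p'}) := fun ha hb =>
    (mem_VW_two e).2 ⟨_, _, _, ha, hb, rfl⟩
  have un : ∀ {a b d a' b' d' : F}, a ^ q = a → b ^ q = b → a' ^ q = a' → b' ^ q = b' →
      ι (T q p a * T q p' b * S q p (d • p')) = ι (T q p a' * T q p' b' * S q p (d' • p')) →
      a = a' ∧ d = d' := fun {a b d a' b' d'} ha hb ha' hb' r => by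
    have r1 := h.eq_of_sq (e.ti.el _ (mm ha hb)) (e.ti.el _ (mm ha' hb')) r
    have o : ∀ d : F, O2 q p (d • p') := fun d => by simpa using e.smul 1 d
    have := TTS_eq_one (a := a + a') (b := b + b') (d := d + d') e hi (by rw [lA_add_pow, ha, ha'])
      (by rw [lA_add_pow, hb, hb']) (by
        rw [← T_add e.l ha ha', ← T_add e.r hb hb', add_smul,
          S_add (o d) (o d') ((O2.self e.r).smul _ _), ← e.ti.el _ (mm (d := d') ha' hb')]
        nth_rw 1 [← r1]
        letI : CommGroup (VW q (Submodule.span F {p, p'})) :=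
          { mul_comm := fun x y => Subtype.ext
              (comm_of_sq (e.ti.el _ x.2) (e.ti.el _ y.2) (e.ti.el _ (x * y).2)) }
        have key : ∀ a b c d e f : VW q (Submodule.span F {p, p'}),
            a * b * (c * d) * (e * f) = a * c * e * (b * d * f) := fun _ _ _ _ _ _ => by ac_rfl
        exact congrArg Subtype.val (key ⟨_, T_mem_VW e.l ha cf_l⟩ ⟨_, T_mem_VW e.l ha' cf_l⟩
          ⟨_, T_mem_VW e.r hb cf_r⟩ ⟨_, T_mem_VW e.r hb' cf_r⟩
          ⟨_, S_mem_VW (o d) cf_l (Submodule.smul_mem _ _ cf_r)⟩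
          ⟨_, S_mem_VW (o d') cf_l (Submodule.smul_mem _ _ cf_r)⟩))
    exact ⟨CharTwo.add_eq_zero.1 this.1, CharTwo.add_eq_zero.1 this.2.2⟩
  have d0 : d = 0 := by
    obtain ⟨x, hx, x1⟩ := exists_norm_one_ne_one F q
    replace hx : x * x ^ q = 1 := hx
    have x0 : x ≠ 0 := fun e => by simp [e] at hx
    have := gen p (x • p') (by simpa using e.smul 1 x) (by
      simpa using cf_tri hi 0 one_ne_zero x0)
    rw [h.nm1 e.r hx, r, mul_left_inj, T_smul_vec e.r hb, hx, one_mul, smul_smul] at this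
    have := (un ha hb ha hb this).2
    exact (mul_eq_zero.1 (show d * (x - 1) = 0 by rw [mul_sub, ← this, mul_one, sub_self])).resolve_right
      (sub_ne_zero.2 x1)
  subst d0
  have ab : a = b := by
    have r2 := gen p' p e.symm (LinearIndependent.pair_symm_iff.1 hi)
    have c1 := (h.trc e.ti cf_r).cV e.ti hg
    rw [← c1.eq] at r
    rw [cn_flip r c1, mul_left_inj, inv_of_sq (by rw [← map_mul, e.ti.el _ hg, map_one]),
      zero_smul F p, S_zero e.r, mul_one, ← (T_comm e hb ha).eq] at r2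
    exact (un (d' := 0) ha hb hb ha (by rw [r2, zero_smul, S_zero e.l, mul_one])).1
  subst ab
  exact ⟨a, ha, fun u w e' hi' => by rw [gen u w e' hi', zero_smul, S_zero e'.l, mul_one]⟩

/-- the commutator of `c x` with the product of five -/
theorem five_al (hα : α ^ q = α) (hc : ∀ u w, O2 q u w → LinearIndependent F ![u, w] →
      cn (c u) (c w) = ι (T q u α * T q w α) * c w) {ω : F} (hω : ω + ω ^ q = 1) (e : O2 q u w)
    (hi : LinearIndependent F ![u, w]) :
    (α = 0 ∧ ∃ g ∈ VW q (Submodule.span F {u, w}), ∃ o, OK ι t o ∧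
      c u * c w * c (u + w) * c (u + ω • w) * c (u + ω ^ q • w) = ι g * o) ∨ α = 1 := by
  obtain ⟨x, hx, hW⟩ := cf_ext h.m6 e
  obtain ⟨g, hg, o, ho, r⟩ := h.five_dec hω e (hi.ne_zero 0)
  have xx := hW x lV_mem_v x lV_mem_v
  have x0 : x ≠ 0 := fun e => hx (e ▸ zero_mem _)
  have mT : ∀ v ∈ Submodule.span F {u, w} ⊔ Submodule.span F {x}, T q v α ∈ VW q _ := fun v hv =>
    T_mem_VW (hW v hv v hv) hα hv
  have m1 : ∀ a : F, u + a • w ∈ Submodule.span F {u, w} := fun a =>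
    add_mem cf_l (Submodule.smul_mem _ a cf_r)
  have t1 := fun v (hv : v ∈ Submodule.span F {u, w}) => h.trc hW (Submodule.mem_sup_left hv)
  have s1 := fun v (hv : v ∈ Submodule.span F {u, w}) (v0 : v ≠ 0) =>
    hc x v (hW.o2 lV_mem_v (Submodule.mem_sup_left hv)) (cf_ind hv v0 hx)
  have y1 := fun v (hv : v ∈ Submodule.span F {u, w}) =>
    mul_mem (mT x lV_mem_v) (mT v (Submodule.mem_sup_left hv))
  have n2 := (t1 u cf_l).mul hW (t1 w cf_r)
  have n3 := n2.mul hW (t1 _ (add_mem cf_l cf_r))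
  have n4 := n3.mul hW (t1 _ (m1 ω))
  have := cf_sh (cf_sh (cf_sh (cf_sh (s1 u cf_l (hi.ne_zero 0)) (s1 w cf_r (hi.ne_zero 1))
    ((t1 u cf_l).cV hW (y1 w cf_r))) (s1 _ (add_mem cf_l cf_r) (by simpa using ne0 hi 1))
    (n2.cV hW (y1 _ (add_mem cf_l cf_r)))) (s1 _ (m1 ω) (ne0 hi _)) (n3.cV hW (y1 _ (m1 ω))))
    (s1 _ (m1 (ω ^ q)) (ne0 hi _)) (n4.cV hW (y1 _ (m1 _)))
  have e5 : T q x α * T q u α * (T q x α * T q w α) * (T q x α * T q (u + w) α) *
      (T q x α * T q (u + ω • w) α) * (T q x α * T q (u + ω ^ q • w) α) = T q x α := by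
    letI : CommGroup (VW q (Submodule.span F {u, w} ⊔ Submodule.span F {x})) :=
      { mul_comm := fun x y => Subtype.ext (comm_of_sq (hW.el _ x.2) (hW.el _ y.2) (hW.el _ (x * y).2)) }
    have key : ∀ z a b c d e : VW q (Submodule.span F {u, w} ⊔ Submodule.span F {x}),
        z * a * (z * b) * (z * c) * (z * d) * (z * e) = z * (z * z) * (z * z) * (a * b * c * d * e) :=
      fun _ _ _ _ _ _ => by ac_rfl
    have m2 := fun v (hv : v ∈ Submodule.span F {u, w}) => mT v (Submodule.mem_sup_left hv)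
    refine (congrArg Subtype.val (key ⟨_, mT x lV_mem_v⟩ ⟨_, m2 u cf_l⟩ ⟨_, m2 w cf_r⟩
      ⟨_, m2 _ (add_mem cf_l cf_r)⟩ ⟨_, m2 _ (m1 ω)⟩ ⟨_, m2 _ (m1 (ω ^ q))⟩)).trans ?_
    simp only [coe_mul, five e hω hα, T_sq xx hα, mul_one]
  simp only [← map_mul] at this
  rw [e5] at this
  have tx := h.trc hW lV_mem_v
  have c1 : cn (c x) (ι g * o) = ι g * o :=
    cn_eq ((tx.cV hW (VW_mono le_sup_left hg)).mul_right (h.cO xx ho))
  rcases r with r | r
  · refine Or.inl ⟨?_, g, hg, o, ho, r⟩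
    rw [r, c1, right_eq_mul] at this
    exact T_inj xx x0 hα lA_zero_pow ((h.eq_of_sq (T_sq xx hα) (mul_one 1)
      (this.trans (map_one ι).symm)).trans (T_zero xx).symm)
  · have c3 : Commute (ι (T q x α)) (ι g * o * t) := Commute.mul_right (Commute.mul_right
      (Commute.map (comm_of_sq (T_sq xx hα) (e.ti.el g hg)
        (hW.el _ (mul_mem (mT x lV_mem_v) (VW_mono le_sup_left hg)))) ι) (ho.ci _).symm) (h.tc _).symm
    rw [r, cn_mul, c1, tx.tr, c3.eq, ← mul_assoc, mul_right_inj] at this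
    exact Or.inr (T_inj xx x0 hα cf_one (h.eq_of_sq (T_sq xx hα) (T_sq xx cf_one) this.symm))

theorem fa0 (hc : ∀ u w, O2 q u w → LinearIndependent F ![u, w] → Commute (c u) (c w)) :
    Fa0 ι t c κ := by
  refine ⟨h.toSu, h.nsq, h.κq, h.c0, h.eqv, h.sq, h.tr, fun v hv k hk o => h.cO hv ⟨hk, o⟩,
    fun v a hv ha => h.nm1 hv ha, fun u u' e => ?_⟩
  by_cases hi : LinearIndependent F ![u', u]
  · exact (hc u' u e.symm hi).symm
  by_cases h0 : u = 0
  · simp [h0, h.c0]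
  obtain ⟨a, rfl⟩ : ∃ a : F, a • u = u' := by simpa [linearIndependent_fin2, h0] using hi
  by_cases a0 : a = 0
  · simp [a0, h.c0]
  obtain ⟨w, e', hi'⟩ := cf_pair h.m6 e.l h0
  obtain ⟨ω, hω⟩ := exists_om (F := F) (q := q)
  have ω0 : ω ≠ 0 := fun r => by simp [r, lA_zero_pow] at hω
  have e1 : O2 q (a • u) w := by simpa using e'.smul a 1
  obtain ⟨-, g, hg, o, ho, r⟩ := (h.five_al lA_zero_pow (fun u w e hi => by
    rw [T_zero e.l, T_zero e.r, mul_one, map_one, one_mul, cn_eq (hc u w e hi)]) hω e1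
    (by simpa using cf_tri hi' 0 a0 one_ne_zero)).resolve_right zero_ne_one
  have k : ∀ z : F, z ≠ 0 → Commute (c u) (c (a • u + z • w)) := fun z z0 =>
    hc _ _ (e'.ti.o2 cf_l (add_mem (Submodule.smul_mem _ _ cf_l) (Submodule.smul_mem _ _ cf_r)))
      (by simpa using cf_tri hi' a one_ne_zero z0)
  have c1 : Commute (c u) (ι g * o) := Commute.mul_right (h.fix e.l (e1.ti.fix hg (by
    simpa [a0] using Submodule.smul_mem _ a⁻¹ (cf_l (u := a • u) (w := w))))) (h.cO e.l ho)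
  have c2 := (((hc u w e' hi').mul_right (by simpa using k 1 one_ne_zero)).mul_right
    (k ω ω0)).mul_right (k _ (lA_pow_ne (q := q) ω0))
  simpa [← r, mul_assoc] using (c1.mul_right c2.inv_right).eq

open Classical in
theorem twist : P0 ι t (fun v => if v = 0 then 1 else c v * t) (κ + 1) := by
  refine ⟨h.toSu, h.nsq, by rw [lA_add_pow, h.κq, one_pow], if_pos rfl, fun g v hv => ?_,
    fun v hv => ?_, fun v hv => ?_⟩ <;> by_cases h0 : v = 0
  · simp [h0, cf_z]
  · rw [if_neg h0, if_neg (cf_ne g h0), ← h.eqv g v hv]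
    exact (cn_mul _ _ _).trans (by rw [cn_eq (h.tc g).symm]; rfl)
  · simp [h0, T_zero_vec]
  · rw [if_neg h0, ← T_add hv h.κq cf_one, map_mul, ← h.sq v hv]
    have c1 := h.fix hv (show T q v 1 • v = v by rw [T_smul hv cf_one, hv]; simp)
    calc c v * t * (c v * t) = c v * t * (c v * t * (c v)⁻¹) * c v := by group
      _ = _ := by rw [h.tr v hv, ← mul_assoc, mul_assoc (c v), h.tt, mul_one, mul_assoc, ← c1.eq,
        mul_assoc]
  · simp [h0, T_zero_vec]
  · rw [if_neg h0, ← h.tr v hv]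
    group

end P0

theorem Su.fa0 (h : Su ι t) (hz : Trl ι t) (hn : Nsq ι t) : ∃ c κ, Fa0 ι t c κ := by
  classical
  obtain ⟨c, κ, H⟩ := h.p0 hz hn
  obtain ⟨α, hα, hc⟩ := H.exists_al
  obtain ⟨p, p', e, hi⟩ := cf_ex (F := F) (q := q) h.m6
  obtain ⟨ω, hω⟩ := exists_om (F := F) (q := q)
  rcases H.five_al hα hc hω e hi with ⟨rfl, -⟩ | rfl
  · exact ⟨c, κ, H.fa0 fun u w e hi => comm_of_cn (by
      rw [hc u w e hi, T_zero e.l, T_zero e.r, mul_one, map_one, one_mul])⟩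
  refine ⟨_, _, H.twist.fa0 fun u w e hi => comm_of_cn ?_⟩
  have tu := H.trc e.ti cf_l
  have tw := H.trc e.ti cf_r
  have z : cn t (c w) = ι (T q w 1) * c w := by
    rw [cn_flip tw.tr (h.tc _), inv_of_sq (by rw [← map_mul, T_sq e.r cf_one, map_one])]
  rw [if_neg (show u ≠ 0 from hi.ne_zero 0), if_neg (show w ≠ 0 from hi.ne_zero 1)]
  rw [mul_cn, cn_mul, cn_self, z, cn_mul, cn_mul, cn_eq (tu.cV e.ti tw.mem), hc u w e hi, tu.tr,
    ← mul_assoc (ι _), ← map_mul, (T_comm e cf_one cf_one).eq, ← mul_assoc (T q w 1),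
    T_sq e.r cf_one, one_mul, h.tc, mul_assoc, ← mul_assoc (c w),
    (tw.cV e.ti tu.mem).eq, ← mul_assoc, ← mul_assoc, ← map_mul, T_sq e.l cf_one, map_one, one_mul]


end Cfsg.Agent.StdU
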