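import Cfsg.Agent.StdU.CfA

/-! `κ = 0` and additivity. `Dd c u v w` is the third difference of `c`. For `w ∉ W₀` it lies in
`ι (VW W₀)` (`Fa0.ml`, by the symmetry of `Dd u v (w + x) / Dd u v w`); hence `κ = 0` and `Dd = 1`. -/

set_option autoImplicit false

namespace Cfsg.Agent.StdU

open Subgroup Cfsg.Agent.Class.U Cfsg.Agent.KSG Cfsg.Agent.PLocal.Amb
open Cfsg.Agent.StdL (El Od Uq cjh)
open scoped commutatorElement

variable {F : Type*} [Field F] {m q : ℕ} [UF F q] [CharP F 2]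
  {G : Type*} [Group G] [Finite G] {ι r : SU m F q →* G} {t : G} {c : (Fin m → F) → G}

local notation "𝐡" => hermForm m F q

open Cfsg.Agent.TIB
open scoped IsMulCommutative

variable {u v w x y : Fin m → F} {W : Submodule F (Fin m → F)} {κ a : F} {g g' : SU m F q}

/-- the third difference -/
def Dd {V A : Type*} [Add V] [Group A] (c : V → A) (u v w : V) : A :=
  c (u + v + w) * (c (u + v))⁻¹ * (c (u + w))⁻¹ * (c (v + w))⁻¹ * c u * c v * c w

section Ab

variable {V A : Type*} [AddCommGroup V] [CommGroup A] (C : V → A) (u v w x : V)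

local macro "cf_ab" : tactic => `(tactic| (
  simp only [Dd, add_assoc, add_comm, add_left_comm]
  exact Additive.ofMul.injective (by simp only [ofMul_mul, ofMul_inv]; abel)))

theorem Dd_s1 : Dd C u v w = Dd C v u w := by cf_ab
theorem Dd_s2 : Dd C u v w = Dd C u w v := by cf_ab
theorem Dd_phi : Dd C u v (w + x) * (Dd C u v w)⁻¹ = Dd C x v (w + u) * (Dd C x v w)⁻¹ := by cf_ab
theorem Dd_four : Dd C u v (w + x) * (Dd C u v w)⁻¹ * (Dd C u v x)⁻¹ =
    Dd C w x (u + v) * (Dd C w x u)⁻¹ * (Dd C w x v)⁻¹ := by cf_ab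
theorem Dd_four' : Dd C u v (w + x) * (Dd C u v w)⁻¹ * (Dd C u v x)⁻¹ =
    Dd C u (v + w) x * (Dd C u v x)⁻¹ * (Dd C u w x)⁻¹ := by cf_ab

theorem Dd_yy : C (u + (v + w)) * C u * C (v + w) = Dd C u v w * (C u * C u)⁻¹ * (C v * C v)⁻¹ *
    (C w * C w)⁻¹ * (C (v + w) * C (v + w)) * (C (u + v) * C u * C v * (C (u + w) * C u * C w)) := by
  cf_ab

theorem Dd_self (h : u + u = 0) (h0 : C 0 = 1) :
    Dd C u u w = C w * C w * (C (u + w) * C (u + w))⁻¹ * (C u * C u) := by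
  rw [Dd, h, zero_add, h0]
  exact Additive.ofMul.injective (by simp only [ofMul_mul, ofMul_inv, ofMul_one]; abel)

theorem Dd_zero (h0 : C 0 = 1) : Dd C u v 0 = 1 := by
  simp only [Dd, add_zero, h0]
  exact Additive.ofMul.injective (by simp only [ofMul_mul, ofMul_inv, ofMul_one]; abel)

end Ab

/-- `g - 1` -/
def dl (g : SU m F q) (y : Fin m → F) : Fin m → F := g • y + y

theorem cf_add (g : SU m F q) (u v : Fin m → F) : g • (u + v) = g • u + g • v :=
  (lB_lin g).map_add u v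

theorem dl_mul (hW : TI q W) (hg : g ∈ VW q W) (hg' : g' ∈ VW q W) (y : Fin m → F) :
    dl (g * g') y = dl g y + dl g' y := by
  have := hW.fix hg (mem_VW'.1 hg' y)
  rw [cf_add] at this
  rw [dl, dl, dl, mul_smul, ← this, add_comm (g • y + y), add_assoc, ← add_assoc (g • y), lA_add_self,
    zero_add]

theorem dl_mem (hg : g ∈ VW q W) (y : Fin m → F) : dl g y ∈ W := mem_VW'.1 hg y

theorem dl_T (hv : 𝐡 v v = 0) (ha : a ^ q = a) (y : Fin m → F) : dl (T q v a) y = (a * 𝐡 y v) • v := by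
  rw [dl, T_smul hv ha, add_right_comm, lA_add_self, zero_add]

theorem dl_one (h : ∀ y, dl g y = 0) : g = 1 := SU_ext fun y =>
  (lA_add_eq_zero.1 (h y)).trans (one_smul _ y).symm

theorem seven (hW : TI q W) (hu : u ∈ W) (hv : v ∈ W) (hw : w ∈ W) : T q (u + v + w) 1 * T q (u + v) 1 *
    T q (u + w) 1 * T q (v + w) 1 * T q u 1 * T q v 1 * T q w 1 = 1 := by
  have k : ∀ x ∈ W, T q x 1 ∈ VW q W := fun x hx => T_mem_VW (hW x hx x hx) cf_one hx
  have e : ∀ x ∈ W, ∀ y, dl (T q x 1) y = 𝐡 y x • x := fun x hx y => by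
    rw [dl_T (hW x hx x hx) cf_one, one_mul]
  refine dl_one fun y => ?_
  simp (disch := apply_rules [mul_mem, k, add_mem]) only [dl_mul hW, e, herm_add_right]
  ext i
  simp only [Pi.add_apply, Pi.smul_apply, smul_eq_mul, Pi.zero_apply]
  grind

/-- the linear algebra behind `Fa0.ml` -/
theorem cf_la {W' : Submodule F (Fin m → F)} (h2 : 2 ≤ Module.finrank F W) {y₀ : Fin m → F}
    (h0 : ∀ x ∈ W, 𝐡 x y₀ = 0) (h1 : ∀ x ∈ W', 𝐡 x y₀ = 0 → x ∈ W)
    (p : (Fin m → F) → (Fin m → F) → Fin m → F) (pm : ∀ u ∈ W, ∀ v ∈ W, p u v ∈ W')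
    (ps : ∀ u ∈ W, ∀ v ∈ W, p u v = p v u)
    (h : ∀ u ∈ W, ∀ v ∈ W, ∀ x ∈ W, ∀ y, 𝐡 y x • p u v + 𝐡 y (p u v) • x + (𝐡 y x * 𝐡 (p u v) y₀) • x =
      𝐡 y u • p x v + 𝐡 y (p x v) • u + (𝐡 y u * 𝐡 (p x v) y₀) • u) (hu : u ∈ W) (hv : v ∈ W) :
    p u v = 0 := by
  have ex : ∀ u : Fin m → F, ∃ x ∈ W, x ∉ Submodule.span F {u} := fun u => exists_notMem (by
    have := cf_rk2 u u
    have := finrank_span_le_card (R := F) ({u} : Set (Fin m → F))
    simp only [Set.toFinset_singleton, Finset.card_singleton] at this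
    omega)
  have du : ∀ u x : Fin m → F, x ∉ Submodule.span F {u} → ∃ y, 𝐡 y u = 0 ∧ 𝐡 y x = 1 := fun u x hx => by
    obtain ⟨y, k1, k2⟩ := dual' (q := q) hx
    exact ⟨y, k1 u (Submodule.mem_span_singleton_self u), herm_comm_one k2⟩
  have a0 : ∀ u ∈ W, ∀ v ∈ W, 𝐡 (p u v) y₀ = 0 := fun u hu v hv => by
    obtain ⟨x, hx, n⟩ := ex u
    obtain ⟨y, k1, k2⟩ := du u x n
    simpa [herm_add_left, herm_smul_left, k1, k2, h0 x hx, h0 u hu] using
      congrArg (𝐡 · y₀) (h u hu v hv x hx y)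
  have l1 : ∀ u ∈ W, ∀ v ∈ W, p u v ∈ Submodule.span F {u} := fun u hu v hv => by
    by_contra n
    obtain ⟨ω, hω⟩ := exists_om (F := F) (q := q)
    have ω0 : ω ≠ 0 := fun r => by simp [r, lA_zero_pow] at hω
    have m1 := W.smul_mem ω (h1 _ (pm u hu v hv) (a0 u hu v hv))
    obtain ⟨y, k1, k2⟩ := du u (ω • p u v) (by rwa [Submodule.smul_mem_iff _ ω0])
    have := h u hu v hv _ m1 y
    rw [a0 u hu v hv, k1, k2, smul_smul] at this
    simp only [one_smul, mul_zero, zero_mul, zero_smul, add_zero, zero_add] at this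
    rw [herm_smul_r] at k2
    have n0 : 1 + 𝐡 y (p u v) * ω ≠ 0 := fun r => by grind
    refine n ((Submodule.smul_mem_iff _ n0).1 ?_)
    rw [add_smul, one_smul, this]
    exact Submodule.smul_mem _ _ (Submodule.mem_span_singleton_self u)
  obtain ⟨x, hx, n⟩ := ex v
  obtain ⟨y, k1, k2⟩ := du v x n
  have z : p x v = 0 := by
    obtain ⟨b, hb⟩ := Submodule.mem_span_singleton.1 (l1 x hx v hv)
    by_cases b0 : b = 0
    · rw [← hb, b0, zero_smul]
    · exact absurd ((Submodule.smul_mem_iff _ b0).1 (hb ▸ ps x hx v hv ▸ l1 v hv x hx)) n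
  obtain ⟨b, hb⟩ := Submodule.mem_span_singleton.1 (l1 v hv u hu)
  have k3 : 𝐡 y (p u v) = 0 := by rw [ps u hu v hv, ← hb, herm_smul_r, k1, mul_zero]
  simpa [z, k2, k3, a0 u hu v hv, herm_zero_left, herm_zero_right] using h u hu v hv x hx y

namespace Fa0

variable (h : Fa0 ι t c κ)
include h

theorem p0 : P0 ι t c κ := ⟨h.toSu, h.nsq, h.κq, h.c0, h.eqv, h.sq, h.tr⟩

theorem lift (hW : TI q W) : ∃ (A : Subgroup G) (_ : IsMulCommutative A) (C : (Fin m → F) → A),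
    C 0 = 1 ∧ (∀ v ∈ W, c v = C v) ∧
      ∀ u ∈ W, ∀ v ∈ W, ∀ w ∈ W, Dd c u v w = (Dd C u v w : A) := by
  classical
  have e : ∀ v ∈ W, c v = (if hv : v ∈ W then ⟨c v, subset_closure ⟨v, hv, rfl⟩⟩ else 1 :
      closure (c '' W)) := fun v hv => by rw [dif_pos hv]
  refine ⟨closure (c '' W), isMulCommutative_closure ?_, _, Subtype.ext ?_, e,
    fun u hu v hv w hw => ?_⟩
  · rintro _ ⟨u, hu, rfl⟩ _ ⟨v, hv, rfl⟩
    exact h.com u v (hW.o2 hu hv)
  · rw [← e 0 (zero_mem _), h.c0]; rfl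
  · simp (disch := apply_rules [add_mem]) only [Dd, coe_mul, coe_inv, ← e]

theorem s1 (hW : TI q W) (hu : u ∈ W) (hv : v ∈ W) (hw : w ∈ W) : Dd c u v w = Dd c v u w := by
  obtain ⟨A, _, C, -, -, e⟩ := h.lift hW
  rw [e u hu v hv w hw, e v hv u hu w hw, Dd_s1]

theorem s2 (hW : TI q W) (hu : u ∈ W) (hv : v ∈ W) (hw : w ∈ W) : Dd c u v w = Dd c u w v := by
  obtain ⟨A, _, C, -, -, e⟩ := h.lift hW
  rw [e u hu v hv w hw, e u hu w hw v hv, Dd_s2]

theorem z0 (e : O2 q u v) : Dd c u v 0 = 1 := by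
  obtain ⟨A, _, C, c0, -, e⟩ := h.lift e.ti
  rw [e u cf_l v cf_r 0 (zero_mem _), Dd_zero C u v c0, coe_one]

theorem phi (hW : TI q W) (hu : u ∈ W) (hv : v ∈ W) (hw : w ∈ W) (hx : x ∈ W) :
    Dd c u v (w + x) * (Dd c u v w)⁻¹ = Dd c x v (w + u) * (Dd c x v w)⁻¹ := by
  obtain ⟨A, _, C, -, -, e⟩ := h.lift hW
  simp (disch := apply_rules [add_mem]) only [e]
  exact congrArg Subtype.val (Dd_phi C u v w x)

theorem four (hW : TI q W) (hu : u ∈ W) (hv : v ∈ W) (hw : w ∈ W) (hx : x ∈ W) :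
    Dd c u v (w + x) * (Dd c u v w)⁻¹ * (Dd c u v x)⁻¹ =
      Dd c w x (u + v) * (Dd c w x u)⁻¹ * (Dd c w x v)⁻¹ := by
  obtain ⟨A, _, C, -, -, e⟩ := h.lift hW
  simp (disch := apply_rules [add_mem]) only [e]
  exact congrArg Subtype.val (Dd_four C u v w x)

theorem four' (hW : TI q W) (hu : u ∈ W) (hv : v ∈ W) (hw : w ∈ W) (hx : x ∈ W) :
    Dd c u v (w + x) * (Dd c u v w)⁻¹ * (Dd c u v x)⁻¹ =
      Dd c u (v + w) x * (Dd c u v x)⁻¹ * (Dd c u w x)⁻¹ := by
  obtain ⟨A, _, C, -, -, e⟩ := h.lift hW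
  simp (disch := apply_rules [add_mem]) only [e]
  exact congrArg Subtype.val (Dd_four' C u v w x)

theorem cnD (hW : TI q W) (hu : u ∈ W) (hv : v ∈ W) (hw : w ∈ W) (g : SU m F q) :
    cn (ι g) (Dd c u v w) = Dd c (g • u) (g • v) (g • w) := by
  have e : ∀ x ∈ W, cn (ι g) (c x) = c (g • x) := fun x hx => h.eqv g x (hW x hx x hx)
  simp (disch := apply_rules [add_mem]) only [Dd, cn_mul, cn_inv, e, cf_add]

theorem memD (hW : TI q W) (hu : u ∈ W) (hv : v ∈ W) (hw : w ∈ W) (w0 : w ≠ 0) :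
    ∃ g ∈ VW q W, Dd c u v w = ι g := by
  have k := fun x hx => h.p0.trc (v := x) hW hx
  have := ((((((k _ (add_mem (add_mem hu hv) hw)).mul hW ((k _ (add_mem hu hv)).inv hW)).mul hW
    ((k _ (add_mem hu hw)).inv hW)).mul hW ((k _ (add_mem hv hw)).inv hW)).mul hW (k u hu)).mul hW
    (k v hv)).mul hW (k w hw)
  rw [seven hW hu hv hw] at this
  obtain ⟨g, hg, n, hn, r⟩ := h.cent_Fx hW (fun e => w0 (by simpa [e] using hw))
    (comm_of_cn (by simpa using this.tr)) this.cen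
  replace r : Dd c u v w = ι g * n := r
  obtain ⟨A, _, C, -, e, e'⟩ := h.lift hW
  have p4 : ∀ x ∈ W, C x ^ 4 = 1 := fun x hx => Subtype.ext (by
    rw [coe_pow, ← e x hx, show c x ^ 4 = c x * c x * (c x * c x) by norm_num [pow_succ, mul_assoc],
      h.sq x (hW x hx x hx), ← map_mul, T_sq (hW x hx x hx) h.κq, map_one, coe_one])
  have d4 : Dd c u v w ^ 4 = 1 := by
    rw [e' u hu v hv w hw, ← coe_pow]
    simp (disch := apply_rules [add_mem]) only [Dd, mul_pow, inv_pow, p4, inv_one, mul_one, coe_one]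
  have c1 : Commute (c w) (ι g * n) := by
    rw [← r, e' u hu v hv w hw, e w hw]
    exact congrArg Subtype.val (mul_comm' (C w) _)
  rw [r, Commute.mul_pow ((mem_K0.1 hn).2 g).symm, show 4 = 2 * 2 from rfl, pow_mul (ι g), pow_two (ι g),
    ← map_mul, hW.el g hg, map_one, one_pow, one_mul] at d4
  rcases h.inv_pow h.nsq hn (j := 2) d4 with rfl | rfl
  · exact ⟨g, hg, by rw [r, mul_one]⟩
  · have c2 : Commute (c w) n := by simpa using ((k w hw).cV hW hg).inv_right.mul_right c1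
    exact absurd (by simpa [cn_eq c2] using (k w hw).tr) (h.z_ne (hW w hw w hw) w0)

theorem ml (hW : TI q (W ⊔ Submodule.span F {w})) (hw : w ∉ W) (h2 : 2 ≤ Module.finrank F W)
    (hu : u ∈ W) (hv : v ∈ W) : ∃ g ∈ VW q W, Dd c u v w = ι g := by
  obtain ⟨y₀, y1, y2, y3, -⟩ := lV_partner hW hw
  have w0 : w ≠ 0 := fun e => hw (e ▸ zero_mem _)
  have ex := fun u v (k : u ∈ W ∧ v ∈ W) =>
    h.memD hW (Submodule.mem_sup_left k.1) (Submodule.mem_sup_left k.2) lV_mem_v w0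
  choose! d hd e using ex
  have y4 : ∀ x ∈ W, 𝐡 x y₀ = 0 := fun x hx => herm_comm_zero (y1 x hx)
  have l := fun x (hx : x ∈ W) => Submodule.mem_sup_left (T := Submodule.span F {w}) hx
  have cj : ∀ u ∈ W, ∀ v ∈ W, ∀ x ∈ W, S q x y₀ * d u v * (S q x y₀)⁻¹ ∈ VW q _ ∧
      Dd c u v (w + x) = ι (S q x y₀ * d u v * (S q x y₀)⁻¹) ∧
      ∀ y, dl (S q x y₀ * d u v * (S q x y₀)⁻¹ * d u v) y = 𝐡 y x • dl (d u v) y₀ +
        𝐡 y (dl (d u v) y₀) • x + (𝐡 y x * 𝐡 (dl (d u v) y₀) y₀) • x := fun u hu v hv x hx => by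
    have o : O2 q x y₀ := ⟨hW _ (l x hx) _ (l x hx), y2, y4 x hx⟩
    have s1 : ∀ z ∈ W ⊔ Submodule.span F {w}, S q x y₀ • z = z + 𝐡 z y₀ • x := fun z hz => by
      rw [S_smul o, hW z hz x (l x hx), zero_smul, add_zero]
    have s2 : ∀ z ∈ W, S q x y₀ • z = z := fun z hz => by
      rw [s1 z (l z hz), y4 z hz, zero_smul, add_zero]
    have dm := hd u v ⟨hu, hv⟩
    have f1 : ∀ y, (S q x y₀ * d u v * (S q x y₀)⁻¹) • y + y = S q x y₀ • dl (d u v) (S q x y₀ • y) :=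
      fun y => by
        rw [inv_of_sq (S_sq o), dl, cf_add, mul_smul, mul_smul, smul_smul (S q x y₀) (S q x y₀), S_sq o,
          one_smul]
    have m1 : S q x y₀ * d u v * (S q x y₀)⁻¹ ∈ VW q (W ⊔ Submodule.span F {w}) :=
      mem_VW'.2 fun y => by
        rw [f1, s1 _ (dl_mem dm _)]
        exact add_mem (dl_mem dm _) (Submodule.smul_mem _ _ (l x hx))
    refine ⟨m1, ?_, fun y => ?_⟩
    · have := h.cnD hW (l u hu) (l v hv) lV_mem_v (S q x y₀)
      rw [s2 u hu, s2 v hv, s1 w lV_mem_v, herm_comm_one y3, one_smul, e u v ⟨hu, hv⟩] at this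
      rw [← this, map_mul, map_mul, map_inv, cn]
    · have f2 : dl (d u v) (S q x y₀ • y) = dl (d u v) y + 𝐡 y x • dl (d u v) y₀ := by
        simp only [S_smul o, dl, cf_add, SU_smul_comm, hW.fix dm (l x hx), smul_add]
        ext i
        simp only [Pi.add_apply, Pi.smul_apply, smul_eq_mul]
        grind
      have f3 : 𝐡 (dl (d u v) y) y₀ = 𝐡 y (dl (d u v) y₀) := by
        rw [dl, dl, herm_add_left, herm_add_right, ← SU_herm (d u v) y (d u v • y₀), smul_smul,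
          hW.el _ dm, one_smul]
      rw [dl_mul hW m1 dm, dl, f1, s1 _ (dl_mem dm _), f2, herm_add_left, herm_smul_left, f3]
      ext i
      simp only [Pi.add_apply, Pi.smul_apply, smul_eq_mul]
      grind
  have key := cf_la (W' := W ⊔ Submodule.span F {w}) h2 y4 (fun x hx r => by
      obtain ⟨z, hz, _, k, rfl⟩ := Submodule.mem_sup.1 hx
      obtain ⟨b, rfl⟩ := Submodule.mem_span_singleton.1 k
      rw [herm_add_left, y4 z hz, herm_smul_left, herm_comm_one y3, zero_add, mul_one] at r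
      rwa [r, zero_smul, add_zero])
    (fun u v => dl (d u v) y₀) (fun u hu v hv => mem_VW'.1 (hd u v ⟨hu, hv⟩) _)
    (fun u hu v hv => by
      rw [h.eq_of_sq (hW.el _ (hd u v ⟨hu, hv⟩)) (hW.el _ (hd v u ⟨hv, hu⟩)) (by
        rw [← e u v ⟨hu, hv⟩, ← e v u ⟨hv, hu⟩, h.s1 hW (l u hu) (l v hv) lV_mem_v])])
    (fun u hu v hv x hx y => by
      obtain ⟨a1, a2, a3⟩ := cj u hu v hv x hx
      obtain ⟨b1, b2, b3⟩ := cj x hx v hv u hu
      have := h.phi hW (l u hu) (l v hv) lV_mem_v (l x hx)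
      rw [a2, b2, e u v ⟨hu, hv⟩, e x v ⟨hx, hv⟩, ← map_inv, ← map_inv, ← map_mul, ← map_mul,
        inv_of_sq (hW.el _ (hd u v ⟨hu, hv⟩)), inv_of_sq (hW.el _ (hd x v ⟨hx, hv⟩))] at this
      rw [← a3, ← b3, h.eq_of_sq (hW.el _ (mul_mem a1 (hd u v ⟨hu, hv⟩)))
        (hW.el _ (mul_mem b1 (hd x v ⟨hx, hv⟩))) this]) hu hv
  refine ⟨d u v, fun y hy => ?_, e u v ⟨hu, hv⟩⟩
  have := hd u v ⟨hu, hv⟩ (y + 𝐡 y w • y₀) (lB_mem_perp_sup.2
    ⟨add_mem hy (Submodule.smul_mem _ _ y1), by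
      rw [herm_add_left, herm_smul_left, y3, mul_one, CharTwo.add_self_eq_zero]⟩)
  rwa [cf_add, SU_smul_comm, lA_add_eq_zero.1 key, add_left_inj] at this

omit h in
theorem rk2 (hi : LinearIndependent F ![u, v]) : 2 ≤ Module.finrank F (Submodule.span F {u, v}) := by
  have := finrank_span_eq_card hi
  rw [Matrix.range_cons_cons_empty] at this
  simp [this]

theorem κ0 : κ = 0 := by
  obtain ⟨u, v, e, hi⟩ := cf_ex (F := F) (q := q) h.m6
  obtain ⟨w, hw, hW⟩ := cf_ext h.m6 e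
  obtain ⟨g, hg, r⟩ := h.ml hW hw (rk2 hi) cf_l cf_l
  obtain ⟨y₀, y1, -, y3, -⟩ := lV_partner hW hw
  have m1 : u ∈ _ ⊔ Submodule.span F {w} := Submodule.mem_sup_left (cf_l (w := v))
  have k := fun x hx => T_mem_VW (hW x hx x hx) h.κq hx
  have m2 := mul_mem (mul_mem (k w lV_mem_v) (k _ (add_mem m1 lV_mem_v))) (k u m1)
  obtain ⟨A, _, C, c0, e1, e2⟩ := h.lift hW
  have := congrArg Subtype.val (Dd_self C u w (lA_add_self u) c0)
  simp only [coe_mul, coe_inv, ← e1 _ m1, ← e1 _ lV_mem_v, ← e1 _ (add_mem m1 lV_mem_v),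
    ← e2 _ m1 _ m1 _ lV_mem_v] at this
  rw [r, h.sq _ (hW _ m1 _ m1), h.sq _ (hW _ lV_mem_v _ lV_mem_v),
    h.sq _ (hW _ (add_mem m1 lV_mem_v) _ (add_mem m1 lV_mem_v)), ← map_inv, ← map_mul, ← map_mul,
    inv_of_sq (hW.el _ (k _ (add_mem m1 lV_mem_v)))] at this
  have z : dl g y₀ = 0 := lA_add_eq_zero.2 (hg y₀ y1)
  rw [h.eq_of_sq (e.ti.el g hg) (hW.el _ m2) this,
    dl_mul hW (mul_mem (k w lV_mem_v) (k _ (add_mem m1 lV_mem_v))) (k u m1),
    dl_mul hW (k w lV_mem_v) (k _ (add_mem m1 lV_mem_v)), dl_T (hW _ m1 _ m1) h.κq,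
    dl_T (hW _ lV_mem_v _ lV_mem_v) h.κq,
    dl_T (hW _ (add_mem m1 lV_mem_v) _ (add_mem m1 lV_mem_v)) h.κq, herm_add_right, y3,
    y1 u cf_l, zero_add, mul_one, mul_zero, zero_smul, add_zero, smul_add, add_left_comm,
    lA_add_self, add_zero] at z
  exact (smul_eq_zero.1 z).resolve_right (hi.ne_zero 0)

omit h in
theorem swap (hi : LinearIndependent F ![u, v]) (hw : w ∉ Submodule.span F {u, v}) :
    LinearIndependent F ![u, w] ∧ v ∉ Submodule.span F {u, w} ∧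
      Submodule.span F {u, v} ⊓ Submodule.span F {u, w} ≤ Submodule.span F {u} := by
  have k : ∀ a b a' b' : F, a • u + b • w = a' • u + b' • v → b = 0 := fun a b a' b' e => by
    by_contra b0
    refine hw ((Submodule.smul_mem_iff _ b0).1 ?_)
    rw [eq_sub_of_add_eq' e]
    exact sub_mem (add_mem (Submodule.smul_mem _ _ cf_l) (Submodule.smul_mem _ _ cf_r))
      (Submodule.smul_mem _ _ cf_l)
  refine ⟨LinearIndependent.pair_symm_iff.1 (cf_ind cf_l (hi.ne_zero 0) hw), fun r => ?_,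
    fun x hx => ?_⟩
  · obtain ⟨a, b, e⟩ := Submodule.mem_span_pair.1 r
    rw [k a b 0 1 (by simpa using e), zero_smul, add_zero] at e
    exact (linearIndependent_fin2.1 (LinearIndependent.pair_symm_iff.1 hi)).2 a e
  · obtain ⟨a, b, e⟩ := Submodule.mem_span_pair.1 hx.2
    obtain ⟨a', b', e'⟩ := Submodule.mem_span_pair.1 hx.1
    rw [← e, k a b a' b' (e.trans e'.symm), zero_smul, add_zero]
    exact Submodule.smul_mem _ _ (Submodule.mem_span_singleton_self u)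

omit h in
theorem sub3 (hW : TI q W) (hu : u ∈ W) (hv : v ∈ W) (hw : w ∈ W) :
    TI q (Submodule.span F {u, v} ⊔ Submodule.span F {w}) :=
  hW.mono (sup_le (Submodule.span_le.2 (Set.pair_subset hu hv))
    ((Submodule.span_singleton_le_iff_mem _ _).2 hw))

theorem two_mem {U U' : Submodule F (Fin m → F)} {d : G} (hU : TI q U) (hU' : TI q U')
    (h1 : ∃ g ∈ VW q U, d = ι g) (h2 : ∃ g ∈ VW q U', d = ι g) : ∃ g ∈ VW q (U ⊓ U'), d = ι g := by
  obtain ⟨g, hg, rfl⟩ := h1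
  obtain ⟨g', hg', e⟩ := h2
  refine ⟨g, ?_, rfl⟩
  rw [VW_inf]
  exact ⟨hg, h.eq_of_sq (hU.el g hg) (hU'.el g' hg') e ▸ hg'⟩

theorem ind3 (hW : TI q W) (hu : u ∈ W) (hv : v ∈ W) (hw : w ∈ W) (hi : LinearIndependent F ![u, v])
    (hn : w ∉ Submodule.span F {u, v}) : Dd c u v w = 1 := by
  have one : ∀ {u v : Fin m → F}, u ∈ W → v ∈ W → LinearIndependent F ![u, v] →
      w ∉ Submodule.span F {u, v} → ∃ g ∈ VW q (Submodule.span F {u}), Dd c u v w = ι g :=
    fun {u v} hu hv hi hn => by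
      obtain ⟨i1, i2, i3⟩ := swap hi hn
      obtain ⟨g, hg, e⟩ := h.two_mem (hW.o2 hu hv).ti (hW.o2 hu hw).ti
        (h.ml (sub3 hW hu hv hw) hn (rk2 hi) cf_l cf_r)
        (h.s2 hW hu hv hw ▸ h.ml (sub3 hW hu hw hv) i2 (rk2 i1) cf_l cf_r)
      exact ⟨g, VW_mono i3 hg, e⟩
  have t1 : ∀ x ∈ W, TI q (Submodule.span F {x}) := fun x hx =>
    hW.mono ((Submodule.span_singleton_le_iff_mem _ _).2 hx)
  obtain ⟨g, hg, e⟩ := h.two_mem (t1 u hu) (t1 v hv) (one hu hv hi hn) (h.s1 hW hu hv hw ▸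
    one hv hu (LinearIndependent.pair_symm_iff.1 hi) (by rwa [Set.pair_comm]))
  have : Submodule.span F {u} ⊓ Submodule.span F {v} = ⊥ := eq_bot_iff.2 fun x hx => by
    obtain ⟨a, rfl⟩ := Submodule.mem_span_singleton.1 hx.1
    obtain ⟨b, r⟩ := Submodule.mem_span_singleton.1 hx.2
    rw [(LinearIndependent.pair_iff.1 hi a b (by rw [r, lA_add_self])).1, zero_smul]
    exact zero_mem _
  rw [this, VW_bot, mem_bot] at hg
  rw [e, hg, map_one]

set_option maxHeartbeats 800000 in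
theorem dep3 (e : O2 q u w) (hi : LinearIndependent F ![u, w]) (a : F) : Dd c u (a • u) w = 1 := by
  obtain ⟨x, hx, hW⟩ := cf_ext h.m6 e
  obtain ⟨i1, i2, i3⟩ := swap hi hx
  have mu : u ∈ _ ⊔ Submodule.span F {x} := Submodule.mem_sup_left (cf_l (w := w))
  have mw : w ∈ _ ⊔ Submodule.span F {x} := Submodule.mem_sup_left (cf_r (u := u))
  have ma := Submodule.smul_mem _ a mu
  have u0 : u ≠ 0 := hi.ne_zero 0
  obtain ⟨g, hg, r⟩ := h.two_mem e.ti (hW.o2 mu lV_mem_v).ti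
    (h.memD e.ti cf_l (Submodule.smul_mem _ a cf_l) cf_r (hi.ne_zero 1))
    (h.ml (sub3 hW mu lV_mem_v mw) i2 (rk2 i1) cf_l (Submodule.smul_mem _ a cf_l))
  obtain ⟨b, hb, rfl⟩ := (mem_VW_one e.l).1 (VW_mono i3 hg)
  have k : ∀ z ∈ Submodule.span F {u, w} ⊔ Submodule.span F {x}, LinearIndependent F ![u, z] →
      Dd c u (a • u) z = ι (T q u b) := fun z hz hi' => by
    obtain ⟨k, k1, k2⟩ := exists_pair (by have := h.m6; omega) e hi (hW.o2 mu hz) hi'
    have := h.cnD hW mu ma mw k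
    rw [SU_smul_comm, k1, k2, r, cn, ← map_inv, ← map_mul, ← map_mul, T_conj e.l hb, k1] at this
    exact this.symm
  obtain ⟨j1, j2, -⟩ := swap (LinearIndependent.pair_symm_iff.1 hi) (by rwa [Set.pair_comm])
  have z : ∀ s : F, Dd c w x (s • u) = 1 := fun s => by
    by_cases s0 : s = 0
    · rw [s0, zero_smul, h.z0 (hW.o2 mw lV_mem_v)]
    · exact h.ind3 hW mw lV_mem_v (Submodule.smul_mem _ s mu) j1
        (by rwa [Submodule.smul_mem_iff _ s0])
  have z1 : Dd c w x u = 1 := by simpa using z 1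
  have z2 : Dd c w x (u + a • u) = 1 := by simpa [add_smul] using z (1 + a)
  have := h.four hW mu ma mw lV_mem_v
  rw [k x lV_mem_v i1, k _ (add_mem mw lV_mem_v) (LinearIndependent.pair_symm_iff.1
    (cf_ind cf_l u0 fun r => hx ((Submodule.add_mem_iff_right _ cf_r).1 r))), r, z a, z1, z2,
    mul_inv_cancel, one_mul, inv_one, mul_one, mul_one, inv_eq_one] at this
  rw [r, this]

theorem out3 (hW : TI q W) (hu : u ∈ W) (hv : v ∈ W) (hw : w ∈ W)
    (hn : w ∉ Submodule.span F {u, v}) : Dd c u v w = 1 := by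
  by_cases hi : LinearIndependent F ![v, u]
  · exact h.ind3 hW hu hv hw (LinearIndependent.pair_symm_iff.1 hi) hn
  by_cases h0 : u = 0
  · rw [h.s1 hW hu hv hw, h.s2 hW hv hu hw, h0, h.z0 (hW.o2 hv hw)]
  obtain ⟨a, rfl⟩ : ∃ a : F, a • u = v := by simpa [linearIndependent_fin2, h0] using hi
  exact h.dep3 (hW.o2 hu hw) (LinearIndependent.pair_symm_iff.1 (cf_ind cf_l h0 hn)) a

theorem all3 (hW : TI q W) (hu : u ∈ W) (hv : v ∈ W) (hw : w ∈ W) : Dd c u v w = 1 := by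
  by_cases hn : w ∈ Submodule.span F {u, v}
  swap
  · exact h.out3 hW hu hv hw hn
  obtain ⟨x, hx, hW'⟩ := cf_ext h.m6 (hW.o2 hu hv)
  have l := fun z (hz : z ∈ Submodule.span F {u, v}) =>
    Submodule.mem_sup_left (T := Submodule.span F {x}) hz
  have k : ∀ z ∈ Submodule.span F {u, v}, Dd c u z x = 1 := fun z hz =>
    h.out3 hW' (l u cf_l) (l z hz) lV_mem_v fun r =>
      hx (Submodule.span_le.2 (Set.pair_subset cf_l hz) r)
  have := h.four' hW' (l u cf_l) (l v cf_r) (l w hn) lV_mem_v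
  rw [k v cf_r, k w hn, k _ (add_mem cf_r hn), h.out3 hW' (l u cf_l) (l v cf_r)
    (add_mem (l w hn) lV_mem_v) fun r => hx ((Submodule.add_mem_iff_right _ hn).1 r)] at this
  simpa using this

theorem sq1 (hv : 𝐡 v v = 0) : c v * c v = 1 := by rw [h.sq v hv, h.κ0, T_zero hv, map_one]

theorem add (e1 : O2 q u v) (e2 : O2 q u w) (e3 : O2 q v w) :
    yy c u (v + w) = yy c u v * yy c u w := by
  have hW : TI q (Submodule.span F {u, v} ⊔ Submodule.span F {w}) :=
    e1.ti.sup e3.r (mem_perp_span.2 (by simpa using ⟨e2.rl, e3.rl⟩))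
  have mu : u ∈ _ ⊔ Submodule.span F {w} := Submodule.mem_sup_left (cf_l (w := v))
  have mv : v ∈ _ ⊔ Submodule.span F {w} := Submodule.mem_sup_left (cf_r (u := u))
  have mw : w ∈ Submodule.span F {u, v} ⊔ Submodule.span F {w} := lV_mem_v
  obtain ⟨A, _, C, -, e, e'⟩ := h.lift hW
  have := congrArg Subtype.val (Dd_yy C u v w)
  simp only [coe_mul, coe_inv, ← e _ mu, ← e _ mv, ← e _ mw, ← e _ (add_mem mu mv),
    ← e _ (add_mem mu mw), ← e _ (add_mem mv mw), ← e _ (add_mem mu (add_mem mv mw)),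
    ← e' u mu v mv w mw] at this
  rw [h.all3 hW mu mv mw, h.sq1 e1.l, h.sq1 e1.r, h.sq1 e2.r,
    h.sq1 (hW _ (add_mem mv mw) _ (add_mem mv mw))] at this
  simpa [yy] using this

theorem symm (e : O2 q u w) : yy c u w = yy c w u := by
  rw [yy, yy, add_comm, mul_assoc, h.com u w e, mul_assoc]

theorem lin (e : O2 q u w) (a : F) : yy c (a • u) w = yy c u (a ^ q • w) := by
  have := UF.finite (F := F) (q := q)
  have l : ∀ {u w : Fin m → F}, O2 q u w → ∀ a : F, O2 q (a • u) w := fun e a => by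
    simpa using e.smul a 1
  let K : Subfield F :=
    { carrier := {a | ∀ u w, O2 q u w → yy c (a • u) w = yy c u (a ^ q • w)}
      mul_mem' := fun {a b} ha hb u w e => by
        rw [mul_smul, ha _ _ (l e b), hb _ _ (l e.symm _).symm, smul_smul, mul_pow, mul_comm]
      one_mem' := fun u w _ => by simp
      add_mem' := fun {a b} ha hb u w e => by
        have o := fun x y : F => (O2.self e.l).smul x y
        have o' := fun x y : F => (O2.self e.r).smul x y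
        rw [h.symm (l e _), add_smul, h.add (l e a).symm (l e b).symm (o a b), ← h.symm (l e a),
          ← h.symm (l e b), ha u w e, hb u w e, lA_add_pow, add_smul,
          h.add (l e.symm _).symm (l e.symm _).symm (o' _ _)]
      zero_mem' := fun u w e => by
        simp [yy, lA_zero_pow, h.c0, h.sq1 e.l, h.sq1 e.r]
      neg_mem' := fun {a} ha => by rwa [CharTwo.neg_eq]
      inv_mem' := fun a ha u w e => by
        by_cases a0 : a = 0
        · simpa [a0] using ha u w e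
        have := ha _ _ (e.smul a⁻¹ (a⁻¹ ^ q))
        rw [smul_smul, smul_smul, ← mul_pow, mul_inv_cancel₀ a0, one_pow, one_smul, one_smul] at this
        exact this.symm }
  have n1 : ∀ a : F, a * conj F q a = 1 → a ∈ K := fun a (ha : a * a ^ q = 1) u w e => by
    have o := (l e.symm (a ^ q)).symm
    rw [yy, yy, show a • u + w = a • (u + a ^ q • w) by rw [smul_add, smul_smul, ha, one_smul],
      h.nm1 _ a (by simpa using o.iso 1 1) ha, h.nm1 u a e.l ha,
      h.nm1 w _ e.r (by rw [lA_pow_pow, mul_comm, ha])]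
  by_contra n
  have c1 := Nat.card_le_card_of_injective (fun x : {x : F // x * conj F q x = 1} => (⟨x, n1 x x.2⟩ : K))
    fun x y r => Subtype.ext (congrArg Subtype.val r :)
  have c2 := Nat.card_le_card_of_injective (fun p : K × K => (p.1 : F) + p.2 * a) fun x y r => by
    have r2 : x.2 = y.2 := by
      by_contra k
      have k' : (x.2 : F) - y.2 ≠ 0 := sub_ne_zero.2 fun r => k (Subtype.ext r)
      have : a = ((y.1 - x.1) / (x.2 - y.2) : K) := by
        push_cast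
        rw [eq_div_iff k']
        linear_combination r
      exact n ((this ▸ SetLike.coe_mem _ : a ∈ K) u w e)
    exact Prod.ext (Subtype.ext (by simpa [r2] using r)) r2
  rw [card_norm_fiber one_ne_zero (map_one _)] at c1
  rw [Nat.card_prod, UF.card_eq (F := F) (q := q)] at c2
  nlinarith

end Fa0

theorem Fa0.fam {κ : F} (h : Fa0 ι t c κ) : Fam ι t c :=
  ⟨h.toSu, h.nsq, h.c0, h.eqv, fun _ hv => h.sq1 hv, fun v hv => by
    rw [← h.tr v hv, inv_of_sq (h.sq1 hv)], h.cO, h.nm1, h.com, fun _ _ _ => h.add,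
    fun _ _ a e => h.lin e a⟩


end Cfsg.Agent.StdU
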