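import Mathlib
import Cfsg.Agent.KSG.AutPSU
import Cfsg.Agent.StdL.Defs
import Cfsg.Agent.StdL.Uq

/-! Definitions for S3128 (standard subgroup `U_m(2^n)`, cyclic Sylow in the centralizer).
`ι : SU →* G` has central kernel and image `L`, `t` is the involution of `C(L)`.
`sg u w a` is the Siegel element, `T v a = sg v 0 a` a transvection, `S u w = sg u w 0`. -/

set_option autoImplicit false

namespace Cfsg.Agent.StdU

open Subgroup Cfsg.Agent.Class.U Cfsg.Agent.KSG Cfsg.Agent.PLocal.Amb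
open Cfsg.Agent.StdL (El Od Uq cjh)

variable {F : Type*} [Field F] {m : ℕ} {G : Type*} [Group G]

section
variable (q : ℕ)

/-- the parameters of a Siegel element -/
structure Ok (u w : Fin m → F) (a : F) : Prop where
  uu : hermForm m F q u u = 0
  wu : hermForm m F q w u = 0
  tr : a + a ^ q + hermForm m F q w w = 0

open Classical in
/-- the Siegel element `x ↦ x + h(x,u) w + h(x,w) u + a h(x,u) u` -/
noncomputable def sg (u w : Fin m → F) (a : F) : SU m F q :=
  if h : ∃ g : SU m F q, IsSiegel u w a g then h.choose else 1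

/-- the transvection `x ↦ x + a h(x,v) v` -/
noncomputable def T (v : Fin m → F) (a : F) : SU m F q := sg q v 0 a

/-- `x ↦ x + h(x,u) w + h(x,w) u` -/
noncomputable def S (u w : Fin m → F) : SU m F q := sg q u w 0

/-- `u` and `w` span a totally isotropic subspace -/
structure O2 (u w : Fin m → F) : Prop where
  l : hermForm m F q u u = 0
  r : hermForm m F q w w = 0
  lr : hermForm m F q u w = 0

/-- totally isotropic subspace -/
def TI (W : Submodule F (Fin m → F)) : Prop := ∀ u ∈ W, ∀ w ∈ W, hermForm m F q u w = 0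

/-- maximal totally isotropic subspace -/
def MTI (W : Submodule F (Fin m → F)) : Prop := TI q W ∧ Module.finrank F W = m / 2

/-- the pointwise stabiliser -/
def Fx (X : Set (Fin m → F)) : Subgroup (SU m F q) where
  carrier := {g | ∀ x ∈ X, g • x = x}
  mul_mem' {a b} ha hb x hx := by rw [mul_smul, hb x hx, ha x hx]
  one_mem' x _ := one_smul _ x
  inv_mem' {a} ha x hx := by rw [inv_smul_eq_iff, ha x hx]

/-- the orthogonal complement -/
def perp (W : Submodule F (Fin m → F)) : Submodule F (Fin m → F) where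
  carrier := {x | ∀ w ∈ W, hermForm m F q x w = 0}
  add_mem' {a b} ha hb w hw := by rw [herm_add_left, ha w hw, hb w hw, add_zero]
  zero_mem' w _ := herm_zero_left w
  smul_mem' c a ha w hw := by rw [herm_smul_left, ha w hw, mul_zero]

/-- the elements fixing `W^⊥` pointwise -/
def VW (W : Submodule F (Fin m → F)) : Subgroup (SU m F q) := Fx q (perp q W)

/-- the hermitian form of an element of `VW W` -/
def Bf (g : SU m F q) (x y : Fin m → F) : F := hermForm m F q (g • x + x) y

/-- a semilinear isometry -/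
structure SI (s : F ≃+* F) (γ : Equiv.Perm (Fin m → F)) : Prop where
  semi : IsSemi s γ
  herm : ∀ u v, hermForm m F q (γ u) (γ v) = s (hermForm m F q u v)

end

variable {q : ℕ}

/-- `g' = γ g γ⁻¹` -/
def Rel (γ : Equiv.Perm (Fin m → F)) (g g' : SU m F q) : Prop := ∀ v, g' • γ v = γ (g • v)

/-- `n` acts on the image of `H` as `γ` -/
def IndOn (H : Subgroup (SU m F q)) (ι : SU m F q →* G) (n : G) (γ : Equiv.Perm (Fin m → F)) : Prop :=
  ∀ g ∈ H, ∀ g', Rel γ g g' → n * ι g * n⁻¹ = ι g'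

/-- `n` acts on the image of `ι` as a semilinear isometry with field automorphism `s` -/
def AcU (ι : SU m F q →* G) (n : G) (s : F ≃+* F) : Prop := ∃ γ, SI q s γ ∧ IndOn ⊤ ι n γ

/-- `C(t) ∩ C(L)` -/
def K0 (ι : SU m F q →* G) (t : G) : Subgroup G := centralizer {t} ⊓ 𝐂[ι.range]

/-- `V_W ⟨t⟩` -/
def AW (ι : SU m F q →* G) (t : G) (W : Submodule F (Fin m → F)) : Subgroup G :=
  (VW q W).map ι ⊔ zpowers t

/-- central kernel, large dimension -/
structure Rp (ι : SU m F q →* G) : Prop where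
  m6 : 6 ≤ m
  q2 : m = 6 → q ≠ 2
  ker : ∀ g, ι g = 1 → g ∈ center (SU m F q)

/-- the standard set-up -/
structure Su (ι : SU m F q →* G) (t : G) : Prop extends Rp ι where
  tt : t * t = 1
  t1 : t ≠ 1
  tc : ∀ g, t * ι g = ι g * t
  nrm : ∀ n, n * t = t * n → n ∈ 𝐍[ι.range]
  cyc : ∀ P : Subgroup G, P ≤ K0 ι t → IsPGroup 2 P → IsCyclic P

/-- `t z` is conjugate to `t` for the transvections `z` -/
def Tz (ι : SU m F q →* G) (t : G) : Prop :=
  ∀ p : Fin m → F, p ≠ 0 → hermForm m F q p p = 0 → IsConj t (t * ι (T q p 1))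

/-- the translation `t ↦ t z` is induced by an element centralizing the stabiliser of `p` -/
def Trl (ι : SU m F q →* G) (t : G) : Prop :=
  ∀ p : Fin m → F, p ≠ 0 → hermForm m F q p p = 0 →
    ∃ c : G, (∀ g ∈ Fx q {p}, c * ι g = ι g * c) ∧ c * t * c⁻¹ = t * ι (T q p 1)

/-- `K0 = O × ⟨t⟩` -/
def Nsq (ι : SU m F q →* G) (t : G) : Prop :=
  ∀ k ∈ K0 ι t, Odd (orderOf k) ∨ Odd (orderOf (k * t))

/-- first form of the doubling: commuting elements with `(c v)² = T v κ` -/
structure Fa0 (ι : SU m F q →* G) (t : G) (c : (Fin m → F) → G) (κ : F) : Prop extends Su ι t where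
  nsq : Nsq ι t
  κq : κ ^ q = κ
  c0 : c 0 = 1
  eqv : ∀ g v, hermForm m F q v v = 0 → ι g * c v * (ι g)⁻¹ = c (g • v)
  sq : ∀ v, hermForm m F q v v = 0 → c v * c v = ι (T q v κ)
  tr : ∀ v, hermForm m F q v v = 0 → c v * t * (c v)⁻¹ = t * ι (T q v 1)
  cO : ∀ v, hermForm m F q v v = 0 → ∀ k ∈ K0 ι t, Odd (orderOf k) → c v * k = k * c v
  nm1 : ∀ v (a : F), hermForm m F q v v = 0 → a * a ^ q = 1 → c (a • v) = c v
  com : ∀ u w, O2 q u w → c u * c w = c w * c u

/-- the polarisation of `c` -/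
def yy (c : (Fin m → F) → G) (u w : Fin m → F) : G := c (u + w) * c u * c w

/-- the doubling `v ↦ c v` of the transvections `T v 1` -/
structure Fam (ι : SU m F q →* G) (t : G) (c : (Fin m → F) → G) : Prop extends Su ι t where
  nsq : Nsq ι t
  c0 : c 0 = 1
  eqv : ∀ g v, hermForm m F q v v = 0 → ι g * c v * (ι g)⁻¹ = c (g • v)
  sq : ∀ v, hermForm m F q v v = 0 → c v * c v = 1
  tr : ∀ v, hermForm m F q v v = 0 → c v * t * c v = t * ι (T q v 1)
  cO : ∀ v, hermForm m F q v v = 0 → ∀ k ∈ K0 ι t, Odd (orderOf k) → c v * k = k * c v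
  nm1 : ∀ v (a : F), hermForm m F q v v = 0 → a * a ^ q = 1 → c (a • v) = c v
  com : ∀ u w, O2 q u w → c u * c w = c w * c u
  add : ∀ u v w, O2 q u v → O2 q u w → O2 q v w → yy c u (v + w) = yy c u v * yy c u w
  lin : ∀ u w (a : F), O2 q u w → yy c (a • u) w = yy c u (a ^ q • w)

/-- the doubled group -/
def Vh (ι : SU m F q →* G) (c : (Fin m → F) → G) (W : Submodule F (Fin m → F)) : Subgroup G :=
  (VW q W).map ι ⊔ closure (c '' W)

/-- `x̂(u, w; a + b ε)` -/
noncomputable def xh (ι : SU m F q →* G) (c : (Fin m → F) → G) (u w : Fin m → F) (a b : F) : G :=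
  ι (S q u (a • w)) * yy c u (b • w)

/-- the action of `yy c f x` on the doubled groups; `ε² = ε + d` -/
structure Ac (ι : SU m F q →* G) (t : G) (c : (Fin m → F) → G) (d : F) : Prop
    extends Fam ι t c where
  dq : d ^ q = d
  actS : ∀ f x u w, O2 q f x → O2 q x u → O2 q x w → O2 q u w →
    yy c f x * ι (S q u w) * yy c f x = ι (S q u w) * yy c u (hermForm m F q w f • x) *
      yy c (hermForm m F q u f • x) w * xh ι c (hermForm m F q u f • x) (hermForm m F q w f • x) d 1
  actY : ∀ f x u w, O2 q f x → O2 q x u → O2 q x w → O2 q u w →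
    yy c f x * yy c u w * yy c f x = yy c u w * xh ι c u (hermForm m F q w f • x) d 1 *
      xh ι c (hermForm m F q u f • x) w d 1 *
      xh ι c (hermForm m F q u f • x) (hermForm m F q w f • x) d (1 + d)

/-- `X(u, w) = x̂(u, w; θ^q + ε)`; in the field case it is `1 + w h(·, u)` -/
noncomputable def XX (ι : SU m F q →* G) (c : (Fin m → F) → G) (θ : F) (u w : Fin m → F) : G :=
  ι (S q u (θ ^ q • w)) * yy c u w

/-- the graph-field automorphism `g ↦ g^{-*}` -/
def Adj (g g' : Matrix.SpecialLinearGroup (Fin m) F) : Prop :=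
  ∀ u v, hermForm m F q (g.1.mulVec u) (g'.1.mulVec v) = hermForm m F q u v

/-- `g = 1 + w h(·, u)` -/
def IsX (u w : Fin m → F) (g : Matrix.SpecialLinearGroup (Fin m) F) : Prop :=
  ∀ x, g.1.mulVec x = x + hermForm m F q x u • w

/-- field case: `G0 = ρ.range` is an image of `SL_m(q²)` and `ε = θ` -/
structure Fld (ι : SU m F q →* G) (t : G) (c : (Fin m → F) → G) (θ : F)
    (ρ : Matrix.SpecialLinearGroup (Fin m) F →* G) : Prop extends Fam ι t c where
  θq : θ ^ q = θ + 1
  ext : ∀ g : SU m F q, ρ g = ι g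
  cv : ∀ v g, hermForm m F q v v = 0 → IsX (q := q) v (θ • v) g → ρ g = c v

/-- field case, with the action of `t` and `C(t)` -/
structure Fl2 (ι : SU m F q →* G) (t : G) (c : (Fin m → F) → G) (θ : F)
    (ρ : Matrix.SpecialLinearGroup (Fin m) F →* G) : Prop extends Fld ι t c θ ρ where
  rp : StdL.Rp ρ
  act : ∀ g g', Adj (q := q) g g' → t * ρ g * t = ρ g'
  gen : ∀ H : Subgroup G, ι.range ≤ H → (∀ v, hermForm m F q v v = 0 → c v ∈ H) → ρ.range ≤ H
  cn : ∀ n, n * t = t * n → n ∈ 𝐍[ρ.range]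

/-- split case: `L` is the diagonal of `L₁ L₁^t`, `L₁ = r.range` -/
structure Spl (ι : SU m F q →* G) (t : G) (c : (Fin m → F) → G) (θ : F)
    (r : SU m F q →* G) : Prop extends Fam ι t c where
  θq : θ ^ q = θ
  com' : ∀ g h, r g * (t * r h * t) = t * r h * t * r g
  dec : ∀ g, ι g = r g * (t * r g * t)
  cv : ∀ v, hermForm m F q v v = 0 → r (T q v 1) = c v * ι (T q v θ)

/-- `G0 = L₁ L₂` -/
def G0 (r : SU m F q →* G) (t : G) : Subgroup G := r.range ⊔ (cjh t r).range

/-- `A = V₁ V₂` -/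
def AA (r : SU m F q →* G) (t : G) (W W' : Submodule F (Fin m → F)) : Subgroup G :=
  (VW q W).map r ⊔ (VW q W').map (cjh t r)

/-- `x` lies in one of the two factors -/
def Pure (r : SU m F q →* G) (t x : G) : Prop := x ∈ r.range ∨ x ∈ (cjh t r).range

/-- `n` normalises both factors, with field automorphisms `s₁`, `s₂` -/
def Ac2 (r : SU m F q →* G) (t n : G) (s₁ s₂ : F ≃+* F) : Prop := AcU r n s₁ ∧ AcU (cjh t r) n s₂

/-- split case with unique fixed point -/
structure Sq (ι : SU m F q →* G) (t : G) (c : (Fin m → F) → G) (θ : F)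
    (r : SU m F q →* G) : Prop extends Spl ι t c θ r where
  uq : Uq 𝐍[G0 r t] t

/-- purity of involutions is invariant under fusion -/
def Pur (r : SU m F q →* G) (t : G) : Prop :=
  ∀ x g, x * x = 1 → Pure r t x → g * x * g⁻¹ ∈ G0 r t → Pure r t (g * x * g⁻¹)

theorem mem_Fx {X : Set (Fin m → F)} {g : SU m F q} : g ∈ Fx q X ↔ ∀ x ∈ X, g • x = x := Iff.rfl

theorem mem_Fx_one {p : Fin m → F} {g : SU m F q} : g ∈ Fx q {p} ↔ g • p = p := by
  simp [mem_Fx]

theorem mem_perp {W : Submodule F (Fin m → F)} {x : Fin m → F} :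
    x ∈ perp q W ↔ ∀ w ∈ W, hermForm m F q x w = 0 := Iff.rfl

theorem mem_VW {W : Submodule F (Fin m → F)} {g : SU m F q} :
    g ∈ VW q W ↔ ∀ x, (∀ w ∈ W, hermForm m F q x w = 0) → g • x = x := Iff.rfl

theorem mem_K0 {ι : SU m F q →* G} {t k : G} :
    k ∈ K0 ι t ↔ k * t = t * k ∧ ∀ g, k * ι g = ι g * k := by
  simp only [K0, mem_inf, mem_centralizer_iff, Set.mem_singleton_iff, forall_eq, SetLike.mem_coe,
    MonoidHom.mem_range, forall_exists_index, forall_apply_eq_imp_iff]
  exact ⟨fun h => ⟨h.1.symm, fun g => (h.2 g).symm⟩, fun h => ⟨h.1.symm, fun g => (h.2 g).symm⟩⟩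

end Cfsg.Agent.StdU
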