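import Cfsg.Agent.StdU.Bas

/-! Step 0. `comm_gen`: for `x ∈ W` take `v ∈ W` outside `⟨x, p⟩` (`m/2 ≥ 3`) and by
`dual` an isotropic `f ⊥ x, p` with `h v f = 1`; `l = S (a^q • f) x`
fixes `p`, stabilises `W`, `l v = v + a x`; `⁅l, T v 1⁆ = T x (a a^q) S v (a x)`; the product over `a = 1, ω, ω^q` is
`T x 1`. `VW_eq_closure`.
`key`: `AW W ≤ C(x)`, so `cj(g⁻¹, AW W) = AW W'` (`Su.J`, `card_AW`). For `l` as in `comm_gen`, `ι l` centralises
`x`, normalises `AW W`, so `n = g⁻¹ ι l g ∈ C(t) ⊓ N(AW W')` normalises `(VW W').map ι` (`AW_inf`, `nrm`) and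
`⁅n, AW W'⁆ ≤ (VW W').map ι`; hence `(VW W).map ι ≤ cj(g, (VW W').map ι)`, equal orders. `not_conj`: `x = g t g⁻¹`
would lie in `cj(g, (VW W').map ι)`. `Su.tz`: suppose `t ι (T p 1)` is not conjugate to `t` for one, so all
(`exists_SU_smul_eq`, `T_smul_vec`) transvections. (a) The product `π W` of the conjugates of `t` in the abelian
group `AW W` is `t`: it is fixed by all `ι (sg p y a)`, `p ∈ W` (they stabilise `W`), so its `VW`-part lies in
`⋂ VW (F p) = 1` (`cent_Q`, `VW_inf`); the number of conjugates in the coset `t VW` is odd, since the `2`-group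
`QU p` acts on them and fixes only `t` (`cent_Q`). (b) No conjugate `d = g t g⁻¹ ≠ t` commutes with `t` and acts
linearly: `inn`, `exists_VW` put `d ∈ AW W`, `cj(g⁻¹, AW W) = AW W'` and `g⁻¹ t g = g⁻¹ (π W) g = π W' = t`.
(c) If `d` acts as `γ` with `s ≠ 1`: `Rp.nf`, `SI.frame`; `x = T (v₀ + ω v₁) 1`, `ι x d (ι x)⁻¹ = d w`,
`w = ι (S v₀ v₁) = ⁅ι (S v₀ v₂), ι (S y v₁)⁆`, both factors centralise `d` (`rel_S`). In the conjugate set-up
`Su.cj` (`d` in place of `t`) `w` is a commutator, so `d w` acts linearly (`AcU.mul`, `Aut F` abelian): (b). -/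

set_option autoImplicit false
set_option linter.unusedSectionVars false
set_option linter.unusedVariables false
set_option linter.unusedSimpArgs false

namespace Cfsg.Agent.StdU

open Subgroup Cfsg.Agent.Class.U Cfsg.Agent.KSG Cfsg.Agent.PLocal.Amb
open Cfsg.Agent.StdL (El Od Uq cjh)
open scoped commutatorElement

variable {F : Type*} [Field F] {m q : ℕ} [UF F q] [CharP F 2]
  {G : Type*} [Group G] [Finite G] {ι r : SU m F q →* G} {t : G} {c : (Fin m → F) → G}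

local notation "𝐡" => hermForm m F q

variable {W : Submodule F (Fin m → F)} {p : Fin m → F} {a : F} {g : G}

theorem comm_gen (hm : 6 ≤ m) (hW : MTI q W) (hp : p ∈ W) :
    VW q W ≤ closure {x | ∃ l v : SU m F q, l • p = p ∧ Mv (l • ·) W W ∧ v ∈ VW q W ∧ x = ⁅l, v⁆} := by
  refine (VW_eq_closure hW.1).le.trans ((closure_le _).2 ?_)
  rintro _ ⟨x, hx, rfl⟩
  have h2 : Module.finrank F (Submodule.span F {x, p}) ≤ 2 := by
    classical
    exact (finrank_span_le_card _).trans (by simpa using Finset.card_le_two)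
  obtain ⟨v, hv, hv'⟩ := exists_notMem (U := Submodule.span F {x, p}) (W := W) (by rw [hW.2]; omega)
  obtain ⟨f, hf, f0, e⟩ := dual (hW.1 v hv v hv) (mem_perp_span.2 (by
    rintro _ (rfl | rfl)
    exacts [hW.1 v hv _ hx, hW.1 v hv _ hp])) hv'
  rw [mem_perp_span] at hf
  have fx := hf x (by simp)
  have fp := herm_comm_zero (hf p (by simp))
  have o := hW.1.o2 hv hx
  have mT : ∀ {z}, z ∈ W → T q z 1 ∈ VW q W := fun hz => T_mem_VW (hW.1 _ hz _ hz) (one_pow q) hz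
  have key : ∀ a : F, T q (v + a • x) 1 * (T q v 1)⁻¹ ∈ closure
      {x | ∃ l v : SU m F q, l • p = p ∧ Mv (l • ·) W W ∧ v ∈ VW q W ∧ x = ⁅l, v⁆} := fun a => by
    have o' : O2 q (a ^ q • f) x := by simpa using (⟨f0, o.r, fx⟩ : O2 q f x).smul (a ^ q) 1
    have e1 : ∀ z ∈ W, S q (a ^ q • f) x • z = z + (a * 𝐡 z f) • x := fun z hz => by
      rw [S_smul o', herm_smul_r, lA_pow_pow, hW.1 z hz x hx, zero_smul, add_zero]
    refine subset_closure ⟨S q (a ^ q • f) x, T q v 1, by rw [e1 p hp, fp]; simp,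
      mv_of_le (si_su _) (fun z hz => ?_) rfl, mT hv, ?_⟩
    · change S q (a ^ q • f) x • z ∈ W
      rw [e1 z hz]
      exact add_mem hz (W.smul_mem _ hx)
    · rw [commutatorElement_def, T_conj o.l (one_pow q), e1 v hv, e, mul_one]
  obtain ⟨ω, hω⟩ := exists_om (F := F) (q := q)
  have h5 := five o hω (one_pow q)
  have A := hW.1.el
  have a1 := key 1
  rw [one_smul] at a1
  have := mul_mem (mul_mem a1 (key ω)) (key (ω ^ q))
  have b1 := mT (add_mem hv hx)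
  have b2 := mT (add_mem hv (W.smul_mem ω hx))
  have b3 := mT (add_mem hv (W.smul_mem (ω ^ q) hx))
  have b4 := mT hv
  have b5 := A _ (mT hx)
  generalize T q (v + x) 1 = C, T q (v + ω • x) 1 = D, T q (v + ω ^ q • x) 1 = E, T q v 1 = B,
    T q x 1 = X at *
  rw [inv_eq_of_mul_eq_one_right (A B b4), mul_assoc C B, ← mul_assoc B, A.comm b4 b2, mul_assoc D,
    A B b4, mul_one, ← mul_assoc, A.comm (mul_mem (mul_mem b1 b2) b3) b4] at this
  rw [show B * X * C * D * E = B * (X * (C * D * E) * B) * B⁻¹ by group, conj_eq_one_iff, mul_assoc,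
    A.comm (mul_mem (mul_mem b1 b2) b3) b4] at h5
  rw [← inv_eq_of_mul_eq_one_right h5, inv_eq_of_mul_eq_one_right b5] at this
  exact this

theorem Su.st0_J (h : Su ι t) (hW : MTI q W) (hx : g * t * g⁻¹ ∈ AW ι t W) :
    ∃ W', MTI q W' ∧ cj(g, AW ι t W') = AW ι t W := by
  have A := h.el_AW hW.1
  obtain ⟨W', h1, h2⟩ := h.J (B := cj(g⁻¹, AW ι t W)) (fun x hx => by
      obtain ⟨y, hy, rfl⟩ := mem_cj_iff_exists.1 hx
      rw [conj_mul, A y hy]; simp)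
    (by
      rw [cj_le_iff, inv_inv, ← centralizer_singleton_conj]
      intro y hy _ e
      rw [e, A.comm hx hy])
    (by rw [card_cj, h.card_AW hW.1, hW.2])
  exact ⟨W', h1, by rw [← h2, cj_cj_inv]⟩

theorem Su.key (h : Su ι t) (hW : MTI q W) (hp : p ∈ W) (ha : a ^ q = a)
    (hx : g * t * g⁻¹ = ι (T q p a) ∨ g * t * g⁻¹ = t * ι (T q p a)) :
    ∃ W', MTI q W' ∧ cj(g, (VW q W').map ι) = (VW q W).map ι := by
  have p0 := hW.1 p hp p hp
  obtain ⟨W', h1, h2⟩ := h.st0_J hW (h.mem_AW.2 ⟨_, T_mem_VW p0 ha hp, hx⟩)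
  refine ⟨W', h1, (eq_of_le_of_card_ge ?_ ?_).symm⟩
  · refine (map_mono (comm_gen h.m6 hW hp)).trans ?_
    rw [map_le_iff_le_comap, closure_le]
    rintro _ ⟨l, v, hl, hm, hv, rfl⟩
    have m1 : ⁅l, v⁆ ∈ VW q W := mul_mem ((conj_mem_VW hm).2 hv) (inv_mem hv)
    change ι ⁅l, v⁆ ∈ cj(g, _)
    rw [← h.AW_inf, cj_inf, h2]
    refine ⟨h.mem_AW.2 ⟨_, m1, Or.inl rfl⟩, mem_cj.2 ?_⟩
    have c1 : ι l * ι (T q p a) = ι (T q p a) * ι l := by
      rw [← map_mul, (comm_T p0 ha hl).eq, map_mul]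
    have c2 : Commute (ι l) (g * t * g⁻¹) := by
      rcases hx with e | e <;> rw [e]
      exacts [c1, Commute.mul_right (h.tc l).symm c1]
    have c3 : g⁻¹ * ι l * g * t = t * (g⁻¹ * ι l * g) := by
      rw [show g⁻¹ * ι l * g * t = g⁻¹ * (ι l * (g * t * g⁻¹)) * g by group, c2.eq]; group
    have m2 : g⁻¹ * ι v * g ∈ AW ι t W' := by
      rw [← mem_cj, h2]; exact h.mem_AW.2 ⟨v, hv, Or.inl rfl⟩
    rw [map_commutatorElement, show g⁻¹ * ⁅ι l, ι v⁆ * g = ⁅g⁻¹ * ι l * g, g⁻¹ * ι v * g⁆ by group]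
    generalize g⁻¹ * ι l * g = n at c3
    obtain ⟨k, -, e⟩ := h.mem_AW.1 m2
    have m3 : ⁅n, ι k⁆ ∈ ι.range :=
      mul_mem (conj_mem_of_mem_normalizer (h.nrm n c3) ⟨k, rfl⟩) (inv_mem ⟨k, rfl⟩)
    rcases e with e | e <;> rw [e]
    · exact m3
    · rw [show ⁅n, t * ι k⁆ = n * t * n⁻¹ * ⁅n, ι k⁆ * t⁻¹ by group, c3, mul_inv_cancel_right]
      exact conj_mem_of_mem_normalizer (h.nrm t rfl) m3
  · rw [card_cj, h.card_VW hW.1, h.card_VW h1.1, hW.2, h1.2]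

theorem Su.not_conj (h : Su ι t) (hp : 𝐡 p p = 0) (ha : a ^ q = a) (g : G) :
    g * t * g⁻¹ ≠ ι (T q p a) := fun e => by
  obtain ⟨W, hW, le⟩ := (ti_span (q := q) (X := {p}) (by rintro _ rfl _ rfl; exact hp)).exists_MTI
  have hp' := le (Submodule.mem_span_singleton_self p)
  obtain ⟨W', -, h2⟩ := h.key hW hp' ha (Or.inl e)
  have : g * t * g⁻¹ ∈ cj(g, (VW q W').map ι) := h2 ▸ ⟨_, T_mem_VW hp ha hp', e.symm⟩
  exact h.notMem (map_le_range ι _ (conj_mem_cj_iff.1 this))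

theorem st0_odd {P : Subgroup G} (hP : IsPGroup 2 P) {X : Set G}
    (hX : ∀ k ∈ P, ∀ x ∈ X, k * x * k⁻¹ ∈ X) (ht : t ∈ X) (h1 : ∀ k ∈ P, k * t * k⁻¹ = t)
    (h2 : ∀ x ∈ X, (∀ k ∈ P, k * x * k⁻¹ = x) → x = t) : Odd (Nat.card X) := by
  letI : MulAction P X :=
    { smul := fun k x => ⟨k * x * k⁻¹, hX k k.2 x x.2⟩
      one_smul := fun x => Subtype.ext (by change (1 : G) * x * 1⁻¹ = x; simp)
      mul_smul := fun a b x => Subtype.ext (by
        change (a * b : G) * x * (a * b : G)⁻¹ = a * (b * x * (b : G)⁻¹) * (a : G)⁻¹; group) }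
  have e := hP.card_modEq_card_fixedPoints X
  have : MulAction.fixedPoints P X = {⟨t, ht⟩} := by
    ext x
    exact ⟨fun hx => Subtype.ext (h2 x x.2 fun k hk => congrArg Subtype.val (hx ⟨k, hk⟩)),
      fun hx k => by rw [hx]; exact Subtype.ext (h1 k k.2)⟩
  rw [this, Nat.card_unique (α := ({⟨t, ht⟩} : Set X))] at e
  exact Nat.odd_iff.2 e

theorem st0_prod {A L : Subgroup G} (hA : El A) (hL : ∀ x ∈ A, ∀ y ∈ A, x ∉ L → y ∉ L → x * y ∈ L)
    (ho : Odd (Nat.card {x | x ∈ A ∧ IsConj t x ∧ x ∉ L})) :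
    ∃ π ∈ A, π ∉ L ∧ ∀ n ∈ 𝐍[A], n * π * n⁻¹ = π := by
  classical
  letI : CommGroup A := { (inferInstance : Group A) with
    mul_comm := fun x y => Subtype.ext (hA.comm x.2 y.2) }
  have := Fintype.ofFinite A
  let s : Finset A := Finset.univ.filter fun x => IsConj t (x : G)
  let χ : A →* ℤˣ := MonoidHom.mk' (fun x => if (x : G) ∈ L then 1 else -1) fun x y => by
    by_cases hx : (x : G) ∈ L <;> by_cases hy : (y : G) ∈ L
    · simp [hx, hy, mul_mem hx hy]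
    · simp [hx, hy, mul_mem_cancel_left hx]
    · simp [hx, hy, mul_mem_cancel_right hy]
    · simp [hx, hy, hL _ x.2 _ y.2 hx hy]
  refine ⟨(∏ x ∈ s, x : A), SetLike.coe_mem _, fun e => ?_, fun n hn => ?_⟩
  · have h1 : χ (∏ x ∈ s, x) = 1 := if_pos e
    rw [map_prod] at h1
    simp only [χ, MonoidHom.mk'_apply] at h1
    rw [Finset.prod_ite, Finset.prod_const_one, one_mul, Finset.prod_const] at h1
    have h2 : (s.filter fun x : A => (x : G) ∉ L).card = Nat.card {x | x ∈ A ∧ IsConj t x ∧ x ∉ L} := by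
      rw [← Nat.card_eq_finsetCard]
      exact Nat.card_congr
        { toFun := fun x => ⟨x.1, x.1.2, by simpa [s] using x.2⟩
          invFun := fun x => ⟨⟨x.1, x.2.1⟩, by simpa [s] using x.2.2⟩
          left_inv := fun _ => rfl
          right_inv := fun _ => rfl }
    rw [h2, ho.neg_one_pow] at h1
    exact absurd h1 (by decide)
  · let φ : MulAut A := A.normalizerMonoidHom ⟨n, hn⟩
    have h1 : φ (∏ x ∈ s, x) = ∏ x ∈ s, x := by
      rw [map_prod]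
      refine Finset.prod_equiv φ.toEquiv (fun x => ?_) fun _ _ => rfl
      simp only [s, Finset.mem_filter, Finset.mem_univ, true_and]
      have : IsConj (x : G) (φ x : G) := isConj_iff.2 ⟨n, rfl⟩
      exact ⟨fun h => h.trans this, fun h => h.trans this.symm⟩
    exact congrArg Subtype.val h1

theorem Su.st0_nrm (h : Su ι t) {k : SU m F q} {W' : Submodule F (Fin m → F)} (e : Mv (k • ·) W W') :
    cj(ι k, AW ι t W) = AW ι t W' := by
  ext x
  rw [mem_cj_iff_exists]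
  constructor
  · rintro ⟨y, hy, rfl⟩
    obtain ⟨z, hz, e1⟩ := h.mem_AW.1 hy
    refine h.mem_AW.2 ⟨_, (conj_mem_VW e).2 hz, ?_⟩
    rcases e1 with rfl | rfl
    · left; simp
    · right; rw [← mul_assoc, ← h.tc]; simp [mul_assoc]
  · intro hx
    obtain ⟨z, hz, e1⟩ := h.mem_AW.1 hx
    have hz' : k⁻¹ * z * k ∈ VW q W := (conj_mem_VW e).1 (by simpa [mul_assoc] using hz)
    rcases e1 with rfl | rfl
    · exact ⟨_, h.mem_AW.2 ⟨_, hz', Or.inl rfl⟩, by simp [mul_assoc]⟩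
    · exact ⟨_, h.mem_AW.2 ⟨_, hz', Or.inr rfl⟩, by rw [← mul_assoc, ← h.tc]; simp [mul_assoc]⟩

theorem st0_mv (hW : TI q W) (hp : p ∈ W) {y : Fin m → F} (e : Ok q p y a) :
    Mv (sg q p y a • ·) W W := by
  refine mv_of_le (si_su _) (fun z hz => ?_) rfl
  change sg q p y a • z ∈ W
  rw [sg_smul e, hW z hz p hp]
  simpa using add_mem hz (W.smul_mem _ hp)

theorem Su.st0_cent (h : Su ι t) (hW : TI q W) (hp : p ∈ W) (h0 : p ≠ 0) {x : G} (hx : x ∈ AW ι t W)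
    (e : ∀ y a, Ok q p y a → ι (sg q p y a) * x * (ι (sg q p y a))⁻¹ = x) :
    ∃ a : F, a ^ q = a ∧ (x = ι (T q p a) ∨ x = t * ι (T q p a)) := by
  obtain ⟨z, hz, e1⟩ := h.mem_AW.1 hx
  obtain ⟨a, ha, rfl⟩ := cent_Q (hW p hp p hp) h0 (hz p (hW.le_perp hp)) fun y a o =>
    (h.comm (k := 1) (by rw [pow_one, pow_two, hW.el z hz]) (by
      have := mul_inv_eq_iff_eq_mul.1 (e y a o)
      rcases e1 with rfl | rfl
      · exact this
      · rwa [← mul_assoc, ← h.tc, mul_assoc, mul_assoc, mul_right_inj] at this)).symm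
  exact ⟨a, ha, e1⟩

theorem Su.st0_nc (h : Su ι t) (hn : ¬ Tz ι t) (hp : 𝐡 p p = 0) (h0 : p ≠ 0) (ha : a ^ q = a)
    (e : IsConj t (t * ι (T q p a))) : a = 0 := by
  by_contra a0
  refine hn fun p' h0' hp' => ?_
  obtain ⟨b, rfl⟩ := exists_norm ha
  rw [← mul_one (b * b ^ q), ← T_smul_vec hp (one_pow q)] at e
  have o := ((O2.self hp).smul b b).l
  obtain ⟨k, rfl⟩ := exists_SU_smul_eq (by have := h.m6; omega)
    (smul_ne_zero (left_ne_zero_of_mul a0) h0) h0' o hp'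
  refine e.trans (isConj_iff.2 ⟨ι k, ?_⟩)
  rw [← T_conj o (one_pow q), ← mul_assoc, ← h.tc]
  simp [mul_assoc]

theorem Su.st0_fix (h : Su ι t) (hn : ¬ Tz ι t) (hW : MTI q W) {n : G} (hN : n ∈ 𝐍[AW ι t W]) :
    n * t * n⁻¹ = t := by
  have h6 := h.m6
  obtain ⟨p, hp, h0⟩ := exists_notMem (U := ⊥) (W := W) (by rw [finrank_bot, hW.2]; omega)
  rw [Submodule.mem_bot] at h0
  obtain ⟨p', hp', h0'⟩ := exists_notMem (U := Submodule.span F {p}) (W := W)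
    (by rw [finrank_span_singleton h0, hW.2]; omega)
  have p0 := hW.1 p hp p hp
  have nrm : ∀ {p y a}, p ∈ W → Ok q p y a → ι (sg q p y a) ∈ 𝐍[AW ι t W] := fun hp o =>
    cj_eq_iff.1 (h.st0_nrm (st0_mv hW.1 hp o))
  have hQ : ∀ k ∈ QU p p0, ∃ y a, Ok q p y a ∧ k = sg q p y a := fun k ⟨y, a, h1, h2⟩ =>
    ⟨y, a, ⟨p0, h1, h2.cond h0 p0 h1⟩, (lA_sg_eq h2).symm⟩
  obtain ⟨π, h1, h2, h3⟩ := st0_prod (t := t) (L := ι.range) (h.el_AW hW.1) (fun x hx y hy x1 y1 => by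
      obtain ⟨z, -, rfl | rfl⟩ := h.mem_AW.1 hx
      · exact absurd ⟨z, rfl⟩ x1
      obtain ⟨z', -, rfl | rfl⟩ := h.mem_AW.1 hy
      · exact absurd ⟨z', rfl⟩ y1
      refine ⟨z * z', ?_⟩
      rw [h.tc z, mul_assoc, ← mul_assoc t, h.tt, one_mul, map_mul])
    (st0_odd (P := (QU p p0).map ι) (t := t) (IsPGroup.map (isPGroup_iff.2 fun k hk => by
        obtain ⟨y, a, o, rfl⟩ := hQ k hk
        exact ⟨2, by rw [show 2 ^ 2 = 2 * 2 from rfl, pow_mul, pow_two, pow_two, o.sq,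
          T_sq p0 (herm_pow y y)]⟩) ι)
      (by
        rintro _ ⟨k, hk, rfl⟩ x ⟨x1, x2, x3⟩
        obtain ⟨y, a, o, rfl⟩ := hQ k hk
        refine ⟨conj_mem_of_mem_normalizer (nrm hp o) x1, x2.trans (isConj_iff.2 ⟨_, rfl⟩), fun e => x3 ?_⟩
        have m : ι (sg q p y a) ∈ ι.range := ⟨_, rfl⟩
        rwa [mul_mem_cancel_right (inv_mem m), mul_mem_cancel_left m] at e)
      ⟨mem_sup_right (mem_zpowers t), IsConj.refl t, h.notMem⟩
      (by rintro _ ⟨k, -, rfl⟩; rw [← h.tc, mul_inv_cancel_right])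
      (by
        rintro x ⟨x1, x2, x3⟩ e
        obtain ⟨a, ha, rfl | rfl⟩ := h.st0_cent hW.1 hp h0 x1 fun y a o =>
          e _ ⟨_, ⟨y, a, o.wu, o.isSiegel⟩, rfl⟩
        · exact absurd ⟨_, rfl⟩ x3
        · rw [h.st0_nc hn p0 h0 ha x2, T_zero p0, map_one, mul_one]))
  have p1 := hW.1 p' hp' p' hp'
  obtain ⟨a, ha, rfl | rfl⟩ := h.st0_cent hW.1 hp h0 h1 fun y a o => h3 _ (nrm hp o)
  · exact absurd ⟨_, rfl⟩ h2
  obtain ⟨b, hb, e | e⟩ := h.st0_cent hW.1 hp' (fun e => h0' (e ▸ zero_mem _)) h1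
    fun y a o => h3 _ (nrm hp' o)
  · exact absurd ⟨_, e.symm⟩ h2
  have a0 : a = 0 := by
    by_contra a0
    obtain ⟨l, rfl, -⟩ := T_eq_T p0 p1 h0 ha a0 hb
      (h.eq_of_sq (T_sq p0 ha) (T_sq p1 hb) (mul_left_cancel e))
    exact h0' (Submodule.smul_mem _ l (Submodule.mem_span_singleton_self p))
  have := h3 n hN
  rwa [a0, T_zero p0, map_one, mul_one] at this

theorem Su.st0_lin (h : Su ι t) (hn : ¬ Tz ι t) {d : G} (hd : IsConj t d) (h2 : d * t = t * d)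
    (hA : AcU ι d 1) : d = t := by
  obtain ⟨g, rfl⟩ := isConj_iff.1 hd
  obtain ⟨x, x2, e⟩ := h.inn h2 (by rw [conj_mul, h.tt]; simp) hA
  obtain ⟨W, hW, hx⟩ := exists_VW x2
  obtain ⟨W', hW', e1⟩ := h.st0_J hW (h.mem_AW.2 ⟨x, hx, e⟩)
  obtain ⟨k, hk⟩ := hW.trans hW'
  rw [← h.st0_nrm hk, ← cj_mul, cj_eq_iff] at e1
  have := h.st0_fix hn hW e1
  rwa [mul_assoc g, ← h.tc, mul_inv_rev, ← mul_assoc, ← mul_assoc, mul_inv_cancel_right] at this

theorem Su.tz (h : Su ι t) (h1 : g * t * g⁻¹ ≠ t) (h2 : g * t * g⁻¹ * t = t * (g * t * g⁻¹)) :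
    Tz ι t := by
  by_contra hn
  obtain ⟨s, γ, hγ, hi⟩ := h.ac h2
  have h' := h.cj g
  have hn' : ¬ Tz (cjh g ι) (g * t * g⁻¹) := fun e => hn fun p h0 hp => by
    have := e p h0 hp
    rw [StdL.cjh_apply, conj_mul] at this
    exact ((isConj_iff.2 ⟨g, rfl⟩).trans this).trans (isConj_iff.2 ⟨g, rfl⟩).symm
  have hd : IsConj t (g * t * g⁻¹) := isConj_iff.2 ⟨g, rfl⟩
  generalize g * t * g⁻¹ = d at *
  obtain ⟨s2, γ2⟩ := h.nf hγ hi (N := 2) fun y => by rw [pow_two, h'.tt, one_mul, mul_one]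
  rw [pow_two] at s2
  by_cases s1 : s = 1
  · exact h1 (h.st0_lin hn hd h2 ⟨γ, s1 ▸ hγ, hi⟩)
  have hs := (aut_sq (q := q) s2).resolve_left s1
  have γ2 := γ2 (by rw [orderOf_eq_prime (p := 2) (by rwa [pow_two]) s1]; exact even_two)
  obtain ⟨v, y, hv, f1, o, f2, y0, y1, y2, y3⟩ := hγ.frame h.m6 hs (by rwa [← pow_two])
  obtain ⟨ω, hω⟩ := exists_om (F := F) (q := q)
  have oo : ∀ i j, O2 q (v i) (v j) := fun i j => ⟨o i i, o j j, o i j⟩
  have o1 : ∀ a : F, O2 q (v 0) (a • v 1) := fun a => by simpa using (oo 0 1).smul 1 a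
  have o2 : ∀ a : F, 𝐡 (v 0 + a • v 1) (v 0 + a • v 1) = 0 := fun a => by simpa using (oo 0 1).iso 1 a
  have oy : O2 q y (v 1) := ⟨y0, o 1 1, herm_comm_zero y2⟩
  have cS : ∀ {u w}, O2 q u w → γ u = u → γ w = w → ι (S q u w) * d = d * ι (S q u w) :=
    fun e a b => by
      have := hi _ trivial _ (hγ.rel_S e)
      rw [a, b, mul_inv_eq_iff_eq_mul] at this
      exact this.symm
  have e1 : d * ι (T q (v 0 + ω • v 1) 1) * d⁻¹ = ι (T q (v 0 + ω ^ q • v 1) 1) := by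
    have := hi _ trivial _ (hγ.rel_T (o2 ω) (one_pow q))
    rwa [map_one, hγ.semi.add, hγ.semi.smul, f1, f1, hs] at this
  have e2 : T q (v 0 + ω ^ q • v 1) 1 * T q (v 0 + ω • v 1) 1 = S q (v 0) (v 1) := by
    refine SU_ext fun x => ?_
    simp only [mul_smul, T_smul (o2 _) (one_pow q), S_smul (oo 0 1), herm_add_left, herm_add_right,
      herm_smul_left, herm_smul_r, o, lA_pow_pow]
    generalize ω ^ q = ω' at hω
    ext i; simp only [Pi.add_apply, Pi.smul_apply, smul_eq_mul]; grind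
  have e3 : S q (v 0) (v 1) = (S q (v 0) (v 2))⁻¹ * (S q y (v 1) * S q (v 0) (v 2) * (S q y (v 1))⁻¹) := by
    rw [S_conj (oo 0 2), S_smul oy, S_smul oy, y1, y3, o, o]
    simp [S_add (oo 0 2) (oo 0 1) (oo 2 1)]
  have e4 : ι (S q (v 0) (v 1)) * d = (ι (T q (v 0 + ω • v 1) 1))⁻¹ * d * (ι (T q (v 0 + ω • v 1) 1))⁻¹⁻¹ := by
    rw [cS (oo 0 1) (f1 0) (f1 1), ← e2, map_mul, ← e1, inv_inv, ← map_inv,
      inv_eq_of_mul_eq_one_right (T_sq (o2 ω) (one_pow q)), inv_eq_of_mul_eq_one_right h'.tt]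
    simp only [← mul_assoc, h'.tt, one_mul]
  obtain ⟨s₁, a1⟩ := h'.ac (cS (oo 0 2) (f1 0) (f1 2))
  obtain ⟨s₂, a2⟩ := h'.ac (cS oy f2 (f1 1))
  have a3 := (a1.inv.mul ((a2.mul a1).mul a2.inv)).mul (acU_cent h'.tc)
  have := UF.finite (F := F) q
  have := isCyclic_ringAut F
  rw [mul_comm' s₂, mul_inv_cancel_right, inv_mul_cancel, mul_one, ← map_inv, ← map_inv, ← map_mul,
    ← map_mul, ← map_mul, ← e3] at a3
  have e5 := h'.st0_lin hn' (isConj_iff.2 ⟨_, e4.symm⟩)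
    (by rw [mul_assoc, ← mul_assoc d, ← cS (oo 0 1) (f1 0) (f1 1), mul_assoc]) a3
  rw [mul_eq_right, ← map_one ι] at e5
  obtain ⟨b, -, e6⟩ := (S_eq_one (oo 0 1) (hv.ne_zero 0)).1 (h.eq_of_sq (S_sq (oo 0 1)) (mul_one 1) e5)
  exact hv.notMem_span_image (s := {0}) (x := 1) (by simp)
    (e6 ▸ Submodule.smul_mem _ b (Submodule.subset_span ⟨0, rfl, rfl⟩))

end Cfsg.Agent.StdU
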