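import Cfsg.Agent.StdU.Hat
import Cfsg.Agent.StdU.St0

/-! `y = yy f x` normalises `Vh W`. If `f ⊥ W` then `f ∈ W` (`MTI.mem`). Else `W₀ = W ⊓ f^⊥ ∋ x`,
`v ∈ W`, `h v f = 1`; let `𝒲` be the set of maximal `W'` with `W₀ ≤ W' ≤ Y = W + F f`. `step`: let `W' ∈ 𝒲`,
`f ∉ W'`, `0 ≠ x ∈ W₀`; then `W' + F f = Y`. `σ = t ι (S f x) = y t y` normalises `Vh W'` (`S f x` stabilises `W'`,
`cj_Vh'`, `norm_t`) and is not in it (`S f x` does not commute with `T v' 1`, `v' ∈ W' - W₀`); `B₁ = C_{Vh W'}(σ)` has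
`|B₁|² ≥ |Vh W'|`, so `cj(y, B₁ ⟨σ⟩) = AW W₁` (`Su.J`), `|B₁|² = |Vh W'|`, hence `B₁ = ⁅Vh W', σ⁆` and `σ B₁` consists
of conjugates of `t`. So `H = cj(y, B₁)` has index `2` in `AW W₁`, `t ∉ H`, `t H` are conjugates of `t`; no
`ι (T u 1)` is (`not_conj`), so `H = ι VW W₁` (`VW_eq_closure`). `ι VW W₀ ≤ B₁` is centralised by `y`, so `W₀ ≤ W₁`.
`ι Fx Y` centralises `y` and `Vh W'`, so `H`: for `u ∈ W₁`, `e ∈ perp Y`, `0 ≠ w₀ ∈ W₀`, `sg w₀ e _ ∈ Fx Y` fixes `u` up to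
a scalar (`of_comm_T`); as `finrank W₀ ≥ 2` this gives `h u e = 0`, `W₁ ≤ perp (perp Y) = Y`. Pick `f' ∈ {f, v'}` outside
`W₁`; `Fx (insert f' W₁) = Fx Y`. For `a ∈ cj(y, Vh W')`: `a t a ∈ t H`, `mem_Vh_c`; if `a t ∈ ι VW` then `a`
commutes with `t`, so `a ∈ H`, `t ∈ H`, false. So `cj(y, Vh W') = Vh W₁` (orders), `W₁ ∈ 𝒲`. If `f ∈ W'` then
`y ∈ Vh W'`. So `x ↦ π x` (action of `yy f x` on `{Vh W' | W' ∈ 𝒲}`, `le_of_Vh_le`) is additive on `W₀` (`add`), and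
constant on `W₀ - 0`: `exists_H0` (`X = F f`) gives `g x = x'`, `g f = f`, `g` stabilising every `W' ∈ 𝒲`
(`yy_eqv`, `cj_Vh'`). With `x, x', x + x' ≠ 0`: `π² = π`, `π = 1`. -/

set_option autoImplicit false
set_option linter.unusedSectionVars false

namespace Cfsg.Agent.StdU

open Subgroup Cfsg.Agent.Class.U Cfsg.Agent.KSG Cfsg.Agent.PLocal.Amb
open Cfsg.Agent.StdL (El Od Uq cjh)
open scoped commutatorElement

variable {F : Type*} [Field F] {m q : ℕ} [UF F q] [CharP F 2]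
  {G : Type*} [Group G] [Finite G] {ι r : SU m F q →* G} {t : G} {c : (Fin m → F) → G}

local notation "𝐡" => hermForm m F q

theorem dA_fix {A : Subgroup G} (hA : El A) {σ : G} (h2 : σ * σ = 1) (hn : σ ∈ 𝐍[A]) :
    Nat.card A ≤ Nat.card ↥(A ⊓ centralizer {σ}) ^ 2 ∧
      (Nat.card ↥(A ⊓ centralizer {σ}) ^ 2 ≤ Nat.card A →
        ∀ b ∈ A ⊓ centralizer {σ}, ∃ a ∈ A, a * σ * a = b * σ) := by
  have hi : σ⁻¹ = σ := inv_eq_of_mul_eq_one_right h2
  have hm : ∀ a ∈ A, σ * a * σ ∈ A := fun a ha => by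
    have := (mem_normalizer_iff.1 hn a).1 ha
    rwa [hi] at this
  let φ : A →* G := MonoidHom.mk' (fun a => a * (σ * a * σ)) fun a b => by
    simp only [coe_mul]
    rw [hat_mm hA (hm _ a.2) b.2]
    congr 1
    calc σ * (a * b) * σ = σ * a * (σ * σ) * b * σ := by rw [h2]; group
      _ = _ := by group
  have h1 : φ.range ≤ A ⊓ centralizer {σ} := by
    rintro _ ⟨a, rfl⟩
    refine ⟨mul_mem a.2 (hm _ a.2), mem_centralizer_singleton_iff.2 ?_⟩
    change (a : G) * (σ * a * σ) * σ = σ * (a * (σ * a * σ))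
    rw [hA.comm a.2 (hm _ a.2)]
    calc σ * a * σ * a * σ = σ * (a * (σ * a * σ)) := by group
      _ = _ := by rw [hA.comm a.2 (hm _ a.2)]
  have h3 : φ.ker = (A ⊓ centralizer {σ}).subgroupOf A := by
    ext a
    rw [mem_subgroupOf, mem_inf, mem_centralizer_singleton_iff, MonoidHom.mem_ker]
    change (a : G) * (σ * a * σ) = 1 ↔ _
    constructor
    · intro e
      refine ⟨a.2, ?_⟩
      have e1 : σ * a * σ = a := by
        rw [eq_inv_of_mul_eq_one_right e, inv_eq_of_mul_eq_one_right (hA a a.2)]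
      calc (a : G) * σ = σ * a * σ * σ := by rw [e1]
        _ = _ := by rw [mul_assoc, h2, mul_one]
    · rintro ⟨-, e⟩
      rw [← e, mul_assoc _ σ, h2, mul_one, hA a a.2]
  have h4 : Nat.card A = Nat.card ↥(A ⊓ centralizer {σ}) * Nat.card φ.range := by
    rw [← φ.ker.card_mul_index, index_ker, h3,
      Nat.card_congr (subgroupOfEquivOfLe (H := A ⊓ centralizer {σ}) (K := A) inf_le_left).toEquiv]
  refine ⟨?_, fun e b hb => ?_⟩
  · rw [h4, pow_two]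
    exact Nat.mul_le_mul_left _ (card_le_of_le h1)
  · rw [h4, pow_two] at e
    obtain ⟨a, ha⟩ := (eq_of_le_of_card_ge h1 (Nat.le_of_mul_le_mul_left e Nat.card_pos)).ge hb
    refine ⟨a, a.2, ?_⟩
    rw [← ha]
    change _ = (a : G) * (σ * a * σ) * σ
    rw [mul_assoc _ (σ * a * σ), mul_assoc (σ * a), h2, mul_one, mul_assoc]

theorem dA_rank {W : Submodule F (Fin m → F)} (f : Fin m → F) :
    Module.finrank F W ≤ Module.finrank F ↥(W ⊓ perp q (Submodule.span F {f})) + 1 := by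
  have h1 := Submodule.finrank_sup_add_finrank_inf_eq W (perp q (Submodule.span F {f}))
  have h2 := finrank_perp (q := q) (Submodule.span F {f})
  have h3 : Module.finrank F (Submodule.span F {f}) ≤ 1 := by
    simpa using finrank_span_le_card (R := F) ({f} : Set (Fin m → F))
  have h4 := Submodule.finrank_le (W ⊔ perp q (Submodule.span F {f}))
  rw [Module.finrank_fin_fun] at h4
  omega

theorem dA_mem {W : Submodule F (Fin m → F)} {f x : Fin m → F} :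
    x ∈ W ⊓ perp q (Submodule.span F {f}) ↔ x ∈ W ∧ 𝐡 x f = 0 := by
  rw [Submodule.mem_inf, mem_perp_span]
  simp

theorem Fam.dA_step (h : Fam ι t c) {f x : Fin m → F} {W : Submodule F (Fin m → F)} (e : O2 q f x)
    (hW : MTI q W) (hx : x ∈ W) (hf : f ∉ W) : ∃ W₁, TI q W₁ ∧
      W ⊓ perp q (Submodule.span F {f}) ≤ W₁ ∧ cj(yy c f x, Vh ι c W) = Vh ι c W₁ := by
  have hs := h.toSu
  have hr := hs.toRp
  obtain ⟨W₀, hW₀⟩ : ∃ W₀, W₀ = W ⊓ perp q (Submodule.span F {f}) := ⟨_, rfl⟩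
  have m0 : ∀ {z}, z ∈ W₀ ↔ z ∈ W ∧ 𝐡 z f = 0 := fun {z} => hW₀ ▸ dA_mem
  rw [← hW₀]
  have r0 : 2 ≤ Module.finrank F W₀ := by
    have := dA_rank (q := q) (W := W) f
    rw [← hW₀, hW.2] at this
    have := hr.m6
    omega
  have t0 : TI q W₀ := hW.1.mono fun z hz => (m0.1 hz).1
  have t1 : TI q (W₀ ⊔ Submodule.span F {f}) :=
    t0.sup e.l fun z hz => herm_comm_zero (m0.1 hz).2
  have hf1 : f ∈ W₀ ⊔ Submodule.span F {f} := lV_mem_v
  have hx1 : x ∈ W₀ ⊔ Submodule.span F {f} := Submodule.mem_sup_left (m0.2 ⟨hx, e.rl⟩)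
  obtain ⟨y, hy⟩ : ∃ y, y = yy c f x := ⟨_, rfl⟩
  rw [← hy]
  have y2 : y * y = 1 := hy ▸ h.yy_sq e
  have yi : y⁻¹ = y := inv_eq_of_mul_eq_one_right y2
  have yV : y ∈ Vh ι c (W₀ ⊔ Submodule.span F {f}) := hy ▸ yy_mem_Vh hf1 hx1
  obtain ⟨σ, hσ⟩ : ∃ σ, σ = y * t * y := ⟨_, rfl⟩
  have hσ' : σ = t * ι (S q f x) := by rw [hσ, hy, h.yy_tr e]
  have yσ : y * σ * y⁻¹ = t := by
    rw [hσ, yi, ← mul_assoc, ← mul_assoc, y2, one_mul, mul_assoc, y2, mul_one]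
  have σ2 : σ * σ = 1 := by
    rw [← conj_eq_one_iff (a := y), ← conj_mul, yσ, hs.tt]
  have hA := h.el_Vh hW.1
  have σn : σ ∈ 𝐍[Vh ι c W] := by
    rw [hσ']
    refine mul_mem (h.norm_t hW.1) (cj_eq_iff.1 (h.cj_Vh' hW.1
      (mv_of_le (si_su (S q f x)) (fun v hv => ?_) rfl)))
    change S q f x • v ∈ W
    rw [S_smul e, hW.1 v hv x hx, zero_smul, add_zero]
    exact add_mem hv (W.smul_mem _ hx)
  have σA : σ ∉ Vh ι c W := fun hσA => by
    obtain ⟨g, -, e1⟩ := h.Vh_fix hW.1 hσA (by rw [hσ', mul_assoc, ← hs.tc])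
    refine hs.notMem ⟨g * (S q f x)⁻¹, ?_⟩
    rw [map_mul, map_inv, e1, hσ', mul_inv_cancel_right]
  obtain ⟨c1, c2⟩ := dA_fix hA σ2 σn
  obtain ⟨B, hB⟩ : ∃ B, B = Vh ι c W ⊓ centralizer {σ} := ⟨_, rfl⟩
  rw [← hB] at c1 c2
  have BA : B ≤ Vh ι c W := hB ▸ inf_le_left
  have Bσ : ∀ b ∈ B, σ * b = b * σ := fun b hb => by
    rw [hB] at hb
    exact (mem_centralizer_singleton_iff.1 hb.2).symm
  rw [h.card_Vh hW.1, hW.2, mul_comm 2, pow_mul] at c1 c2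
  have c3 := (Nat.pow_le_pow_iff_left two_ne_zero).1 c1
  obtain ⟨H, hH⟩ : ∃ H, H = cj(y, B) := ⟨_, rfl⟩
  have Hc : Nat.card H = Nat.card B := hH ▸ card_cj y B
  have HA : H ≤ cj(y, Vh ι c W) := hH ▸ cj_mono y BA
  have eA : El cj(y, Vh ι c W) := by
    rintro _ ⟨a, ha, rfl⟩
    change y * a * y⁻¹ * (y * a * y⁻¹) = 1
    rw [conj_mul, hA a ha, mul_one, mul_inv_cancel]
  have tA : t ∉ cj(y, Vh ι c W) := fun ht => σA (conj_mem_cj_iff.1 (yσ ▸ ht))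
  have Ht : ∀ k ∈ H, t * k = k * t := by
    rw [hH]
    rintro _ ⟨b, hb, rfl⟩
    change t * (y * b * y⁻¹) = y * b * y⁻¹ * t
    rw [← yσ, conj_mul, conj_mul, Bσ b hb]
  have eH : El H := fun k hk => eA k (HA hk)
  have cH := bs_card Ht hs.tt fun ht => tA (HA ht)
  have lH : H ⊔ zpowers t ≤ centralizer {t} :=
    sup_le (fun k hk => mem_centralizer_singleton_iff.2 (Ht k hk).symm)
      (zpowers_le.2 (mem_centralizer_singleton_iff.2 rfl))
  have c4 := hs.J_le (bs_el eH Ht hs.tt) lH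
  rw [cH, Hc] at c4
  obtain ⟨W₁, hW₁, e1⟩ := hs.J (bs_el eH Ht hs.tt) lH (by rw [cH, Hc]; omega)
  have c5 : Nat.card B = q ^ (m / 2) ^ 2 := by omega
  have tr : ∀ k ∈ H, ∃ a ∈ cj(y, Vh ι c W), a * t * a = k * t := by
    rw [hH]
    rintro _ ⟨b, hb, rfl⟩
    obtain ⟨a, ha, e2⟩ := c2 (by rw [c5]) b hb
    refine ⟨_, conj_mem_cj y ha, ?_⟩
    change _ = y * b * y⁻¹ * t
    rw [← yσ, conj_mul, conj_mul, conj_mul, e2]
  have HV : (VW q W₁).map ι = H := by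
    refine eq_of_le_of_card_ge ?_ (by rw [Hc, c5, hr.card_VW hW₁.1, hW₁.2])
    rw [VW_eq_closure hW₁.1, map_le_iff_le_comap, closure_le]
    rintro _ ⟨u, hu, rfl⟩
    have u0 := hW₁.1 u hu u hu
    have h1 : ι (T q u 1) ∈ H ⊔ zpowers t :=
      e1 ▸ hs.mem_AW.2 ⟨_, T_mem_VW u0 (one_pow q) hu, .inl rfl⟩
    refine ((bs_mem Ht hs.tt).1 h1).resolve_right fun h2 => ?_
    obtain ⟨a, ha, e2⟩ := tr _ h2
    refine hs.not_conj u0 (one_pow q) a ?_
    rw [inv_eq_of_mul_eq_one_right (eA a ha), e2, hs.tc, mul_assoc, hs.tt, mul_one]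
  have l0 : W₀ ≤ W₁ := by
    refine hr.le_of_map_le t0 hW₁.1 ?_
    rw [HV, hH]
    rintro _ ⟨g, hg, rfl⟩
    have h1 : ι g ∈ Vh ι c (W₀ ⊔ Submodule.span F {f}) := map_mem_Vh (VW_mono le_sup_left hg)
    have h2 : ι g ∈ B := by
      rw [hB]
      refine ⟨map_mem_Vh (VW_mono (fun z hz => (m0.1 hz).1) hg), mem_centralizer_singleton_iff.2 ?_⟩
      rw [hσ', ← mul_assoc, ← hs.tc, mul_assoc, mul_assoc,
        (h.el_Vh t1).comm h1 (map_mem_Vh (S_mem_VW e hf1 hx1))]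
    have := conj_mem_cj y h2
    rwa [(h.el_Vh t1).comm yV h1, mul_inv_cancel_right] at this
  obtain ⟨Y, hY⟩ : ∃ Y, Y = W ⊔ Submodule.span F {f} := ⟨_, rfl⟩
  have WY : W ≤ Y := hY ▸ le_sup_left
  have fY : f ∈ Y := hY ▸ lV_mem_v
  have Y0 : ∀ z ∈ Y, ∀ w ∈ W₀, 𝐡 z w = 0 := by
    have : Y ≤ perp q W₀ := by
      rw [hY]
      exact sup_le (fun z hz w hw => hW.1 z hz w (m0.1 hw).1)
        ((Submodule.span_singleton_le_iff_mem _ _).2 fun w hw => herm_comm_zero (m0.1 hw).2)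
    exact fun z hz => this hz
  have cY : ∀ g : SU m F q, (∀ z ∈ Y, g • z = z) → ∀ a ∈ cj(y, Vh ι c W), a * ι g = ι g * a := by
    rintro g hg _ ⟨a, ha, rfl⟩
    have h1 : Commute (ι g) y := hy ▸ h.yy_cen e (hg f fY) (hg x (WY hx))
    have h2 : Commute (ι g) a := h.Vh_cen hW.1 ha fun v hv => hg v (WY hv)
    exact ((h1.mul_right h2).mul_right h1.inv_right).symm
  have l1 : W₁ ≤ Y := fun u hu => by
    rw [← perp_perp (q := q) Y]
    intro z hz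
    by_contra h0
    have u0 := hW₁.1 u hu u hu
    have h1 : W₀ ≤ Submodule.span F {u} := fun w hw => by
      have hwY := WY (m0.1 hw).1
      obtain ⟨a, ha⟩ := exists_ok (t0 w hw w hw) (hz w hwY)
      have h2 := cY (sg q w z a) (fun v hv => by
        rw [sg_smul ha, Y0 v hv w hw, herm_comm_zero (hz v hv)]; simp) (ι (T q u 1))
        (HA (HV ▸ mem_map_of_mem ι (T_mem_VW u0 (one_pow q) hu)))
      obtain ⟨l, -, hl⟩ := of_comm_T u0 (one_pow q) one_ne_zero (hr.comm (au_T_sq u0) h2.symm)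
      rw [sg_smul ha, hW₁.1 u hu w (l0 hw)] at hl
      simp only [zero_smul, add_zero, mul_zero] at hl
      refine Submodule.mem_span_singleton.2 ⟨(𝐡 u z)⁻¹ * (l - 1), ?_⟩
      rw [mul_smul, sub_smul, ← hl, one_smul, add_sub_cancel_left, inv_smul_smul₀ h0]
    have h2 := Submodule.finrank_mono h1
    have h3 : Module.finrank F (Submodule.span F {u}) ≤ 1 := by
      simpa using finrank_span_le_card (R := F) ({u} : Set (Fin m → F))
    omega
  obtain ⟨f', f1, f2, f3⟩ : ∃ f' ∈ Y, 𝐡 f' f' = 0 ∧ f' ∉ W₁ := by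
    by_cases h1 : f ∈ W₁
    · by_contra hc
      push Not at hc
      exact hf (hW.mem e.l fun v hv => hW₁.1 f h1 v (hc v (WY hv) (hW.1 v hv v hv)))
    · exact ⟨f, fY, e.l, h1⟩
  have eY : W₁ ⊔ Submodule.span F {f'} = Y := by
    refine Submodule.eq_of_le_of_finrank_le
      (sup_le l1 ((Submodule.span_singleton_le_iff_mem _ _).2 f1)) ?_
    have h1 := lB_finrank_sup W f
    have h2 := Submodule.finrank_lt_finrank_of_lt (lB_lt_sup f3)
    rw [← hY, hW.2] at h1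
    rw [hW₁.2] at h2
    omega
  refine ⟨W₁, hW₁.1, l0, eq_of_le_of_card_ge (fun a ha => ?_)
    (by rw [card_cj, h.card_Vh hW.1, h.card_Vh hW₁.1, hW.2, hW₁.2])⟩
  obtain ⟨g, hg, e2⟩ : a * t * a * t ∈ (VW q W₁).map ι := by
    rw [HV, hH]
    obtain ⟨a, ha, rfl⟩ := ha
    have h1 : σ * a * σ ∈ Vh ι c W := by
      have := (mem_normalizer_iff.1 σn a).1 ha
      rwa [inv_eq_of_mul_eq_one_right σ2] at this
    have h2 : a * σ * a * σ ∈ B := by
      rw [hB]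
      refine mem_inf.2 ⟨by simpa only [mul_assoc] using mul_mem ha h1,
        mem_centralizer_singleton_iff.2 ?_⟩
      calc a * σ * a * σ * σ = a * σ * a := by rw [mul_assoc _ σ, σ2, mul_one]
        _ = a * (σ * a * σ) * σ := by rw [mul_assoc _ (σ * a * σ), mul_assoc (σ * a), σ2, mul_one, mul_assoc]
        _ = _ := by rw [hA.comm ha h1]; group
    have := conj_mem_cj y h2
    rw [← conj_mul, ← conj_mul, ← conj_mul, yσ] at this
    exact this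
  refine (h.mem_Vh_c hW₁ f2 f3 (eA a ha) (fun k hk => eA.comm ha (HA (HV ▸ mem_map_of_mem ι hk)))
    (fun k hk => cY k (fun z hz => ?_) a ha) hg
    (by rw [hs.tc, e2, mul_assoc (a * t * a), hs.tt, mul_one])).resolve_right fun h1 => tA ?_
  · rw [← eY] at hz
    obtain ⟨u, hu, _, hv, rfl⟩ := Submodule.mem_sup.1 hz
    obtain ⟨b, rfl⟩ := Submodule.mem_span_singleton.1 hv
    rw [smul_add, SU_smul_comm, hk u (.inr hu), hk f' (.inl rfl)]
  · rw [HV] at h1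
    have := mul_mem ha (HA h1)
    rwa [← mul_assoc, eA a ha, one_mul] at this

theorem Fam.norm_Vh (h : Fam ι t c) {f x : Fin m → F} {W : Submodule F (Fin m → F)} (e : O2 q f x)
    (hW : MTI q W) (hx : x ∈ W) : yy c f x ∈ 𝐍[Vh ι c W] := by
  by_cases hf : f ∈ W
  · exact le_normalizer (yy_mem_Vh hf hx)
  rcases eq_or_ne x 0 with rfl | x0
  · rw [h.yy_zero e.l]; exact one_mem _
  obtain ⟨W₁, hW₁, l0, e1⟩ := h.dA_step e hW hx hf
  obtain ⟨W₀, hW₀⟩ : ∃ W₀, W₀ = W ⊓ perp q (Submodule.span F {f}) := ⟨_, rfl⟩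
  have m0 : ∀ {z}, z ∈ W₀ ↔ z ∈ W ∧ 𝐡 z f = 0 := fun {z} => hW₀ ▸ dA_mem
  rw [← hW₀] at l0
  have r0 : 2 ≤ Module.finrank F W₀ := by
    have := dA_rank (q := q) (W := W) f
    rw [← hW₀, hW.2] at this
    have := h.m6
    omega
  have t0 : TI q W₀ := hW.1.mono fun z hz => (m0.1 hz).1
  have hx0 : x ∈ W₀ := m0.2 ⟨hx, e.rl⟩
  have key : ∀ x' ∈ W₀, x' ≠ 0 → cj(yy c f x', Vh ι c W) = Vh ι c W₁ := fun x' hx' h0 => by
    obtain ⟨g, g1, g2, g3⟩ := exists_H0 (X := Submodule.span F {f}) t0 r0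
      ((Submodule.span_singleton_le_iff_mem _ _).2 fun w hw => herm_comm_zero (m0.1 hw).2)
      (by
        rw [inf_comm, ← disjoint_iff, Submodule.disjoint_span_singleton]
        exact fun hb => absurd (m0.1 hb).1 hf) hx0 hx' x0 h0
    have st : ∀ U, TI q U → W₀ ≤ U → cj(ι g, Vh ι c U) = Vh ι c U := fun U hU l =>
      h.cj_Vh' hU (mv_of_le (si_su g) (fun v hv => by
        have := add_mem (l (g3 v (perp_anti l (hU.le_perp hv)))) hv
        rwa [add_assoc, lA_add_self, add_zero] at this) rfl)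
    have e2 := h.yy_eqv e g
    rw [g1, g2 f (Submodule.mem_span_singleton_self f)] at e2
    rw [← e2, cj_mul, cj_mul, ← st W hW.1 fun z hz => (m0.1 hz).1, cj_inv_cj, e1, st W₁ hW₁ l0]
  obtain ⟨x', h1, h2⟩ := exists_notMem (U := Submodule.span F {x}) (W := W₀) (by
    rw [finrank_span_singleton x0]; omega)
  have x1 : x' ≠ 0 := fun e2 => h2 (e2 ▸ zero_mem _)
  have x2 : x + x' ≠ 0 := fun e2 => h2 (lA_add_eq_zero.1 e2 ▸ Submodule.mem_span_singleton_self x)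
  have e2 := key _ (add_mem hx0 h1) x2
  rw [h.add f x x' e ⟨e.l, t0 _ h1 _ h1, herm_comm_zero (m0.1 h1).2⟩ (t0.o2 hx0 h1), cj_mul,
    key x' h1 x1, ← e1, ← cj_mul, h.yy_sq e, cj_one] at e2
  exact cj_eq_iff.1 e2.symm

end Cfsg.Agent.StdU
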