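import Cfsg.Agent.StdU.DpM

/-! `filt1`, `filt2`: the additive model `StdU/DpM`. `actS0`: conjugate `yy f x` by `ι (S v w)` (`f ↦ f + w`).
`exists_d`: `Φ(x,w) = ⁅yy f x, yy v w⁆ = yy x w ι R(x,w)`, `R ∈ VW ⟨x,w⟩` (`dR`), additive in `w`, symmetric under
`(f,v,x,w) ↦ (v,f,w,x)` and `SU`-equivariant. For independent `x, w`, `R = T x α T w β S x (δ w)`; the elements
`S f' (a x) : w ↦ w + a x` give `β = 0`, `R(x, a x) = S x (δ a x)`; so `δ` depends on `(f, v, x)` only and `SU` is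
transitive on these triples. -/

set_option autoImplicit false
set_option linter.unusedSectionVars false

namespace Cfsg.Agent.StdU

open Subgroup Cfsg.Agent.Class.U Cfsg.Agent.KSG Cfsg.Agent.PLocal.Amb
open Cfsg.Agent.StdL (El Od Uq cjh)
open scoped commutatorElement

variable {F : Type*} [Field F] {m q : ℕ} [UF F q] [CharP F 2]
  {G : Type*} [Group G] [Finite G] {ι r : SU m F q →* G} {t : G} {c : (Fin m → F) → G}

local notation "𝐡" => hermForm m F q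

variable {f v x w : Fin m → F} {W : Submodule F (Fin m → F)} {a : G}

theorem Fam.filt1 (h : Fam ι t c) (hW : MTI q (W ⊔ Submodule.span F {v})) (hf : 𝐡 f f = 0)
    (hf' : f ∈ perp q W) (hv : 𝐡 v f = 1) (hx : x ∈ W) (ha : a ∈ Vh ι c (W ⊔ Submodule.span F {v})) :
    ∃ w ∈ W, ∃ w' ∈ W, ∃ y₀ ∈ Vh ι c W,
      yy c f x * a * yy c f x = a * (ι (S q v w) * yy c v w' * y₀) := by
  obtain ⟨𝔪, h1, h2, h3, h4, h5, h6⟩ := h.exists_mo hW hf hf' hv
  have e : 𝔪.φ ⟨x, Submodule.mem_sup_left hx⟩ = 0 := (h1 _).trans (herm_comm_zero (hf' x hx))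
  obtain ⟨w, w', hw, hw', y, hy, e1⟩ := 𝔪.filt1 e (ElM.mk _ a ha)
  refine ⟨w, (dM_mem hf' hv w.2).1 ((h1 _).symm.trans hw), w',
    (dM_mem hf' hv w'.2).1 ((h1 _).symm.trans hw'), y.val, (h5 y).1 hy, ?_⟩
  have e2 := h6 _ e (ElM.mk _ a ha)
  rw [𝔪.Y_eq, e1, ElM.val_add, ElM.val_add, ElM.val_add, h3, h4, h2] at e2
  exact e2.symm

theorem Fam.filt2 (h : Fam ι t c) (hW : MTI q (W ⊔ Submodule.span F {v})) (hf : 𝐡 f f = 0)
    (hf' : f ∈ perp q W) (hv : 𝐡 v f = 1) (hx : x ∈ W) (hw : w ∈ W) :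
    yy c f x * yy c v w * yy c f x * yy c v w ∈ Vh ι c W := by
  obtain ⟨𝔪, h1, h2, h3, h4, h5, h6⟩ := h.exists_mo hW hf hf' hv
  have e : 𝔪.φ ⟨x, Submodule.mem_sup_left hx⟩ = 0 := (h1 _).trans (herm_comm_zero (hf' x hx))
  have e' : 𝔪.φ ⟨w, Submodule.mem_sup_left hw⟩ = 0 := (h1 _).trans (herm_comm_zero (hf' w hw))
  have := (h5 _).1 (𝔪.filt2 e e')
  rwa [𝔪.D_apply, ElM.val_add, h6 _ e, h4, h2] at this

theorem Fam.dB_sq (h : Fam ι t c) {u w : Fin m → F} (e : O2 q u w) :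
    ι (S q u w) * ι (S q u w) = 1 := by rw [← map_mul, S_sq e, map_one]

theorem Fam.dB_sy (h : Fam ι t c) (hv : 𝐡 f v = 1) (e1 : O2 q f x) (e2 : O2 q f w) (e3 : O2 q v x)
    (e4 : O2 q v w) (e5 : O2 q x w) :
    ι (S q v w) * yy c f x * ι (S q v w) = yy c f x * yy c x w ∧
    ι (S q v w) * ι (S q f x) * ι (S q v w) = ι (S q f x) * ι (S q x w) := by
  have a1 : S q v w • f = f + w := by rw [S_smul e4, hv, e2.lr]; simp
  have a2 : S q v w • x = x := by rw [S_smul e4, e3.rl, e5.lr]; simp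
  constructor
  · have h1 := h.yy_eqv e1 (S q v w)
    rwa [inv_eq_of_mul_eq_one_right (h.dB_sq e4), a1, a2, h.yy_add_left e2 e1 e5.symm,
      yy_symm h e5.symm] at h1
  · have h1 := S_conj e1 (S q v w)
    rw [inv_eq_of_mul_eq_one_right (S_sq e4), a1, a2,
      ← S_symm (e1.symm.add e5 e2), S_add e1.symm e5 e2, S_symm e1.symm] at h1
    rw [← map_mul, ← map_mul, h1, map_mul]

theorem Fam.actS0 (h : Fam ι t c) (hv : 𝐡 v f = 1) (e1 : O2 q f x) (e2 : O2 q f w) (e3 : O2 q v x)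
    (e4 : O2 q v w) (e5 : O2 q x w) :
    yy c f x * ι (S q v w) * yy c f x = ι (S q v w) * yy c x w := by
  have h1 := (h.dB_sy (herm_comm_one hv) e1 e2 e3 e4 e5).1
  have h2 := h.yy_sq e1
  have h3 := h.yy_sq (e1.symm.add e5 e2)
  rw [h.add _ _ _ e1.symm e5 e2, ← yy_symm h e1] at h3
  calc _ = ι (S q v w) * ι (S q v w) * yy c f x * ι (S q v w) * yy c f x := by
        rw [h.dB_sq e4, one_mul]
    _ = ι (S q v w) * (yy c f x * yy c x w * (yy c f x * yy c x w)) * (yy c x w)⁻¹ := by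
        rw [mul_assoc (ι _) (ι _), mul_assoc (ι _) _ (ι _), h1]; group
    _ = _ := by rw [h3, inv_eq_of_mul_eq_one_right (h.yy_sq e5), mul_one]

theorem dB_grp {y η s σ κ ρ : G} (y2 : y * y = 1) (η2 : η * η = 1) (s2 : s * s = 1) (σ2 : σ * σ = 1)
    (κ2 : κ * κ = 1) (h1 : y * t * y = t * s) (h2 : η * t * η = t * σ) (h3 : y * σ * y = σ * κ)
    (h4 : s * η * s = η * κ) (h5 : s * σ * s = σ * ρ) (c1 : y * s = s * y) (c2 : y * ρ = ρ * y)
    (c3 : η * σ = σ * η) (c4 : η * κ = κ * η) (c5 : σ * κ = κ * σ) (c6 : σ * ρ = ρ * σ) :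
    y * η * y * η * t * (η * y * η * y) = t * ρ := by
  have a1 : η * s * η = s * κ := by
    calc _ = s * (s * η * s) * η := by rw [← mul_assoc, ← mul_assoc, s2, one_mul]
      _ = _ := by rw [h4, c4, mul_assoc, mul_assoc, η2, mul_one]
  have a2 : σ * s * σ = s * ρ := by
    calc _ = s * (s * σ * s) * σ := by rw [← mul_assoc, ← mul_assoc, s2, one_mul]
      _ = _ := by rw [h5, c6, mul_assoc, mul_assoc, σ2, mul_one]
  have a3 : σ * κ * η = η * (κ * σ) := by rw [mul_assoc, ← c4, ← mul_assoc, ← c3, mul_assoc, c5]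
  calc _ = y * η * y * (η * t * η) * (y * η * y) := by group
    _ = y * η * y * t * (y * y) * σ * (y * η * y) := by rw [h2, y2]; group
    _ = y * η * (y * t * y) * (y * σ * y * η) * y := by group
    _ = y * η * t * (η * η) * s * η * κ * σ * y := by rw [h1, h3, a3, η2]; group
    _ = y * (η * t * η) * (η * s * η) * κ * σ * y := by group
    _ = y * t * σ * s * (κ * κ) * σ * y := by rw [h2, a1]; group
    _ = y * t * (σ * s * σ) * y := by rw [κ2]; group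
    _ = y * t * s * (ρ * y) := by rw [a2]; group
    _ = y * t * (s * y) * ρ := by rw [← c2]; group
    _ = y * t * y * s * ρ := by rw [← c1]; group
    _ = _ := by rw [h1, mul_assoc t, s2, mul_one]

variable (q) in
/-- the standing configuration -/
structure Gd (f v x w : Fin m → F) : Prop where
  vf : hermForm m F q v f = 1
  fx : O2 q f x
  fw : O2 q f w
  vx : O2 q v x
  vw : O2 q v w
  xw : O2 q x w

theorem Gd.swap (e : Gd q f v x w) : Gd q v f w x :=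
  ⟨herm_comm_one e.vf, e.vw, e.vx, e.fw, e.fx, e.xw.symm⟩

theorem Gd.act (e : Gd q f v x w) (g : SU m F q) : Gd q (g • f) (g • v) (g • x) (g • w) :=
  ⟨(SU_herm g _ _).trans e.vf, e.fx.act g, e.fw.act g, e.vx.act g, e.vw.act g, e.xw.act g⟩

theorem dB_o2 {u w : Fin m → F} (e : O2 q u w) (a : F) : O2 q u (a • w) := by
  simpa using e.smul 1 a

theorem Gd.line (e : Gd q f v x w) (a : F) : Gd q f v x (a • x) :=
  ⟨e.vf, e.fx, dB_o2 e.fx a, e.vx, dB_o2 e.vx a, dB_o2 (.self e.xw.l) a⟩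

theorem Gd.ti (e : Gd q f v x w) : TI q (Submodule.span F {x, w} ⊔ Submodule.span F {v}) :=
  e.xw.ti.sup e.vx.l (mem_perp_span.2 (by
    rintro _ (rfl | rfl)
    exacts [e.vx.lr, e.vw.lr]))

theorem Gd.setup (e : Gd q f v x w) : ∃ W, MTI q (W ⊔ Submodule.span F {v}) ∧ f ∈ perp q W ∧
    x ∈ W ∧ w ∈ W := by
  obtain ⟨W, hW, l⟩ := e.ti.exists_MTI
  exact ⟨_, dM_split (l lV_mem_v) e.vf ▸ hW, dM_perp,
    dA_mem.2 ⟨l (Submodule.mem_sup_left hat_l), e.fx.rl⟩,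
    dA_mem.2 ⟨l (Submodule.mem_sup_left hat_r), e.fw.rl⟩⟩

theorem dB_X (hW : TI q (W ⊔ Submodule.span F {v})) (hf : 𝐡 f f = 0) (hf' : f ∈ perp q W)
    (hv : 𝐡 v f = 1) :
    Submodule.span F {f, v} ≤ perp q W ∧ Submodule.span F {f, v} ⊓ W = ⊥ := by
  have h1 : v ∈ perp q W := fun w hw => hW v lV_mem_v w (Submodule.mem_sup_left hw)
  refine ⟨Submodule.span_le.2 ?_, eq_bot_iff.2 fun z ⟨h2, h3⟩ => ?_⟩
  · rintro _ (rfl | rfl)
    exacts [hf', h1]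
  · obtain ⟨a, b, rfl⟩ := Submodule.mem_span_pair.1 h2
    have h4 := herm_comm_zero (hf' _ h3)
    have h5 := herm_comm_zero (h1 _ h3)
    rw [herm_add_left, herm_smul_left, herm_smul_left, hf, hv, mul_zero, zero_add, mul_one] at h4
    rw [herm_add_left, herm_smul_left, herm_smul_left, herm_comm_one hv, hW v lV_mem_v v lV_mem_v,
      mul_zero, add_zero, mul_one] at h5
    simp [h4, h5]

theorem dB_fix {z u : Fin m → F} (hz : 𝐡 z z = 0) (h : 𝐡 z u = 0) : T q z 1 • u = u := by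
  rw [T_smul hz (one_pow q), herm_comm_zero h, mul_zero, zero_smul, add_zero]

/-- `⁅yy f x, yy v w⁆ = yy x w ι R` -/
def dQ (ι : SU m F q →* G) (c : (Fin m → F) → G) (f v x w : Fin m → F) (R : SU m F q) : Prop :=
  yy c f x * yy c v w * yy c f x * yy c v w = yy c x w * ι R

variable {R R' : SU m F q}

theorem Fam.dR (h : Fam ι t c) (e : Gd q f v x w) :
    ∃ R ∈ VW q (Submodule.span F {x, w}), dQ ι c f v x w R := by
  obtain ⟨W, hW, hf, hx, hw⟩ := e.setup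
  have t0 : TI q W := hW.1.mono le_sup_left
  have hA := h.el_Vh hW.1
  have hB := h.el_Vh (t0.sup e.fx.l hf)
  have hx1 : x ∈ W ⊔ Submodule.span F {v} := Submodule.mem_sup_left hx
  have hw1 : w ∈ W ⊔ Submodule.span F {v} := Submodule.mem_sup_left hw
  have mη : yy c v w ∈ Vh ι c _ := yy_mem_Vh lV_mem_v hw1
  have mσ : ι (S q v w) ∈ Vh ι c _ := map_mem_Vh (S_mem_VW e.vw lV_mem_v hw1)
  have mκ : yy c x w ∈ Vh ι c W := yy_mem_Vh hx hw
  have mρ : ι (S q x w) ∈ Vh ι c W := map_mem_Vh (S_mem_VW e.xw hx hw)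
  have my : yy c f x ∈ Vh ι c (W ⊔ Submodule.span F {f}) :=
    yy_mem_Vh lV_mem_v (Submodule.mem_sup_left hx)
  obtain ⟨a1, a2⟩ := h.dB_sy e.vf e.vw e.vx e.fw e.fx e.xw.symm
  rw [yy_symm h e.xw.symm] at a1
  rw [S_symm e.xw.symm] at a2
  have h1 := dB_grp (h.yy_sq e.fx) (h.yy_sq e.vw) (h.dB_sq e.fx) (h.dB_sq e.vw) (h.yy_sq e.xw)
    (h.yy_tr e.fx) (h.yy_tr e.vw) (h.actS0 e.vf e.fx e.fw e.vx e.vw e.xw) a1 a2
    (hB.comm my (map_mem_Vh (S_mem_VW e.fx lV_mem_v (Submodule.mem_sup_left hx))))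
    (hB.comm my (Vh_mono le_sup_left mρ)) (hA.comm mη mσ) (hA.comm mη (Vh_mono le_sup_left mκ))
    (hA.comm mσ (Vh_mono le_sup_left mκ)) (hA.comm mσ (Vh_mono le_sup_left mρ))
  have h2 := h.filt2 hW e.fx.l hf e.vf hx hw
  obtain ⟨Φ, hΦ⟩ : ∃ Φ, Φ = yy c f x * yy c v w * yy c f x * yy c v w := ⟨_, rfl⟩
  have h3 : yy c v w * yy c f x * yy c v w * yy c f x = Φ⁻¹ := by
    rw [hΦ]
    simp only [mul_inv_rev, inv_eq_of_mul_eq_one_right (h.yy_sq e.fx),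
      inv_eq_of_mul_eq_one_right (h.yy_sq e.vw), mul_assoc]
  rw [← hΦ] at h2
  rw [← hΦ, h3] at h1
  have κ2 := h.yy_sq e.xw
  obtain ⟨R, hR, e1⟩ := h.Vh_fix t0 (mul_mem mκ h2) (by
    rw [← mul_inv_eq_iff_eq_mul]
    calc _ = yy c x w * (Φ * t * Φ⁻¹) * (yy c x w)⁻¹ := by group
      _ = yy c x w * t * (ι (S q x w) * yy c x w) := by
        rw [h1, inv_eq_of_mul_eq_one_right κ2]; group
      _ = _ := by
        rw [(h.el_Vh t0).comm mρ mκ, ← mul_assoc, h.yy_tr e.xw, mul_assoc, h.dB_sq e.xw, mul_one])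
  obtain ⟨X1, X2⟩ := dB_X hW.1 e.fx.l hf e.vf
  refine ⟨R, VW_of_cent t0 (Submodule.span_le.2 (by rintro _ (rfl | rfl); exacts [hx, hw])) X1 X2 hR
    fun z h4 h5 h6 => h.comm (au_T_sq h6) ?_, ?_⟩
  · have b1 := dB_fix h6 (h4 _ hat_l)
    have b2 := dB_fix h6 (h4 _ hat_r)
    have c1 : Commute (ι (T q z 1)) (yy c f x) := h.yy_cen e.fx (dB_fix h6 (h5 _ hat_l)) b1
    have c2 : Commute (ι (T q z 1)) (yy c v w) := h.yy_cen e.vw (dB_fix h6 (h5 _ hat_r)) b2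
    have c3 : Commute (ι (T q z 1)) (yy c x w) := h.yy_cen e.xw b1 b2
    rw [e1, hΦ]
    exact (c3.mul_right (((c1.mul_right c2).mul_right c1).mul_right c2)).symm
  · rw [dQ, e1, ← mul_assoc, κ2, one_mul, hΦ]

theorem Fam.dQ_swap (h : Fam ι t c) (e : Gd q f v x w) (hR : R ∈ VW q (Submodule.span F {x, w}))
    (a : dQ ι c f v x w R) : dQ ι c v f w x R := by
  have h1 := h.el_Vh e.xw.ti _ (mul_mem (yy_mem_Vh hat_l hat_r) (map_mem_Vh hR))
  rw [dQ, ← yy_symm h e.xw, ← inv_eq_of_mul_eq_one_right h1, ← a]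
  simp only [mul_inv_rev, inv_eq_of_mul_eq_one_right (h.yy_sq e.fx),
    inv_eq_of_mul_eq_one_right (h.yy_sq e.vw), mul_assoc]

theorem Fam.dQ_act (h : Fam ι t c) (e : Gd q f v x w) (a : dQ ι c f v x w R) (g : SU m F q) :
    dQ ι c (g • f) (g • v) (g • x) (g • w) (g * R * g⁻¹) := by
  rw [dQ, ← h.yy_eqv e.fx, ← h.yy_eqv e.vw, ← h.yy_eqv e.xw, conj_mul, conj_mul, conj_mul, a, map_mul,
    map_mul, map_inv, conj_mul]

theorem Fam.dQ_uq (h : Fam ι t c) (a : dQ ι c f v x w R) (a' : dQ ι c f v x w R') (h1 : R * R = 1)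
    (h2 : R' * R' = 1) : R = R' := h.eq_of_sq h1 h2 (mul_left_cancel (a.symm.trans a'))

theorem Fam.dQ_add (h : Fam ι t c) {w' : Fin m → F} (e : O2 q f x) (hW : TI q W) (hv : v ∈ W)
    (hx : x ∈ W) (hw : w ∈ W) (hw' : w' ∈ W) (hR : R ∈ VW q W) (hR' : R' ∈ VW q W)
    (a : dQ ι c f v x w R) (a' : dQ ι c f v x w' R') : dQ ι c f v x (w + w') (R * R') := by
  have hA := h.el_Vh hW
  have m1 : yy c v w ∈ Vh ι c W := yy_mem_Vh hv hw
  have m2 : yy c v w' ∈ Vh ι c W := yy_mem_Vh hv hw'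
  have m3 : yy c x w' ∈ Vh ι c W := yy_mem_Vh hx hw'
  have m4 := mul_mem m3 (map_mem_Vh (c := c) hR')
  rw [dQ, h.add _ _ _ (hW.o2 hv hw) (hW.o2 hv hw') (hW.o2 hw hw'),
    h.add _ _ _ (hW.o2 hx hw) (hW.o2 hx hw') (hW.o2 hw hw'), map_mul,
    hat_mm hA m3 (map_mem_Vh hR), ← a, mul_assoc _ (yy c v w) (yy c x w' * ι R'), hA.comm m1 m4, ← a',
    hA.comm m1 m2]
  calc _ = yy c f x * yy c v w * 1 * yy c v w' * yy c f x * (yy c v w' * yy c v w) := by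
        rw [hA.comm m2 m1]; group
    _ = _ := by rw [← h.yy_sq e]; group

theorem Gd.dual4 (e : Gd q f v x w) (hw : w ∉ Submodule.span F {x}) : ∃ f', O2 q f' x ∧ 𝐡 w f' = 1 ∧
    ∀ a : F, S q f' (a • x) • f = f ∧ S q f' (a • x) • v = v ∧ S q f' (a • x) • x = x ∧
      S q f' (a • x) • w = w + a • x ∧ S q f' (a • x) • f' = f' := by
  obtain ⟨f', h1, h2, h3⟩ := dual (U := Submodule.span F {f, v, x}) e.xw.r (mem_perp_span.2 (by
    rintro _ (rfl | rfl | rfl)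
    exacts [e.fw.rl, e.vw.rl, e.xw.rl])) fun h1 => by
      obtain ⟨a, b, l, h2⟩ := Submodule.mem_span_triple.1 h1
      have h4 := e.fw.rl
      have h5 := e.vw.rl
      rw [← h2, herm_add_left, herm_add_left, herm_smul_left, herm_smul_left, herm_smul_left] at h4 h5
      rw [e.fx.l, e.vf, e.fx.rl] at h4
      rw [e.vx.l, herm_comm_one e.vf, e.vx.rl] at h5
      simp only [mul_zero, mul_one, add_zero, zero_add] at h4 h5
      exact hw (Submodule.mem_span_singleton.2 ⟨l, by simpa [h4, h5] using h2⟩)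
  rw [mem_perp_span] at h1
  have o : O2 q f' x := ⟨h2, e.xw.l, h1 x (by simp)⟩
  refine ⟨f', o, h3, fun a => ?_⟩
  simp [S_smul (dB_o2 o a), herm_smul_r, herm_comm_zero (h1 f (by simp)), herm_comm_zero (h1 v (by simp)),
    o.rl, o.lr, o.l, h3, e.fx.lr, e.vx.lr, e.xw.l, e.xw.rl]

theorem Fam.dB_beta (h : Fam ι t c) (e : Gd q f v x w) (hw : w ∉ Submodule.span F {x}) (x0 : x ≠ 0)
    {α β δ : F} (hα : α ^ q = α) (hβ : β ^ q = β)
    (a : dQ ι c f v x w (T q x α * T q w β * S q x (δ • w))) : β = 0 := by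
  obtain ⟨f', o, h1, h2⟩ := e.dual4 hw
  obtain ⟨b1, b2, b3, b4, b5⟩ := h2 1
  rw [one_smul] at b1 b2 b3 b4 b5
  obtain ⟨R, hR, a1⟩ := h.dR (e.line 1)
  rw [one_smul] at hR a1
  have m1 : x ∈ Submodule.span F {x, w} ⊔ Submodule.span F {v} := Submodule.mem_sup_left hat_l
  have m2 : w ∈ Submodule.span F {x, w} ⊔ Submodule.span F {v} := Submodule.mem_sup_left hat_r
  have m3 := mul_mem (mul_mem (T_mem_VW e.xw.l hα m1) (T_mem_VW e.xw.r hβ m2))
    (S_mem_VW (dB_o2 e.xw δ) m1 (Submodule.smul_mem _ δ m2))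
  have m4 : R ∈ VW q (Submodule.span F {x, w} ⊔ Submodule.span F {v}) :=
    VW_mono (Submodule.span_le.2 (by rintro _ (rfl | rfl) <;> exact m1)) hR
  have a2 := h.dQ_act e a (S q f' x)
  rw [b1, b2, b3, b4] at a2
  have h3 := h.dQ_uq a2 (h.dQ_add e.fx e.ti lV_mem_v m1 m2 m1 m3 m4 a a1)
    (by rw [conj_mul, e.ti.el _ m3, mul_one, mul_inv_cancel]) (e.ti.el _ (mul_mem m3 m4))
  have h4 := congrArg (· • f') h3
  have h5 : R • f' = f' := hR f' (mem_perp_span.2 (by rintro _ (rfl | rfl) <;> exact o.lr))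
  have h6 : (T q x α * T q w β * S q x (δ • w)) • f' = f' + β • w + δ ^ q • x := by
    simp [mul_smul, S_smul (dB_o2 e.xw δ), T_smul e.xw.l hα, T_smul e.xw.r hβ, herm_add_left,
      herm_smul_left, herm_smul_r, o.lr, herm_comm_one h1, e.xw.l, e.xw.lr, e.xw.rl]
  rw [mul_smul _ R, h5, mul_smul, mul_smul, inv_smul_eq_iff.2 b5.symm, h6, smul_add, smul_add,
    SU_smul_comm, SU_smul_comm, b5, b3, b4, smul_add, add_left_inj, add_right_inj, add_eq_left] at h4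
  exact (smul_eq_zero.1 h4).resolve_right x0

theorem Fam.dB_one (h : Fam ι t c) (e : Gd q f v x w) (hw : w ∉ Submodule.span F {x}) (x0 : x ≠ 0) :
    ∃ δ : F, dQ ι c f v x w (S q x (δ • w)) ∧ ∀ a : F, dQ ι c f v x (a • x) (S q x (δ • a • x)) := by
  obtain ⟨R, hR, a⟩ := h.dR e
  have a' := h.dQ_swap e hR a
  obtain ⟨α, β, δ, hα, hβ, rfl⟩ := (mem_VW_two e.xw).1 hR
  have h1 := h.dB_beta e hw x0 hα hβ a
  rw [(T_comm e.xw hα hβ).eq, S_symm (dB_o2 e.xw δ), S_smul_left e.xw.symm] at a'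
  have h2 := h.dB_beta e.swap (fun h2 => by
    obtain ⟨l, hl⟩ := Submodule.mem_span_singleton.1 h2
    have l0 : l ≠ 0 := fun e => x0 (by rw [← hl, e, zero_smul])
    exact hw (Submodule.mem_span_singleton.2 ⟨l⁻¹, by rw [← hl, inv_smul_smul₀ l0]⟩))
    (fun e => hw (by rw [e]; exact zero_mem _)) hβ hα a'
  rw [h1, h2, T_zero e.xw.l, T_zero e.xw.r, one_mul, one_mul] at a
  refine ⟨δ, a, fun b => ?_⟩
  obtain ⟨f', o, -, h3⟩ := e.dual4 hw
  obtain ⟨b1, b2, b3, b4, -⟩ := h3 b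
  have a2 := h.dQ_act e a (S q f' (b • x))
  rw [S_conj (dB_o2 e.xw δ), SU_smul_comm, b1, b2, b3, b4] at a2
  have m1 : x ∈ Submodule.span F {x, w} ⊔ Submodule.span F {v} := Submodule.mem_sup_left hat_l
  have m2 : w ∈ Submodule.span F {x, w} ⊔ Submodule.span F {v} := Submodule.mem_sup_left hat_r
  have m3 := add_mem m2 (Submodule.smul_mem _ b m1)
  have m4 := Submodule.smul_mem _ δ m2
  have m5 := Submodule.smul_mem _ δ m3
  have a3 := h.dQ_add e.fx e.ti lV_mem_v m1 m2 m3 (S_mem_VW (e.ti.o2 m1 m4) m1 m4)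
    (S_mem_VW (e.ti.o2 m1 m5) m1 m5) a a2
  rwa [← S_add (e.ti.o2 m1 m4) (e.ti.o2 m1 m5) (e.ti.o2 m4 m5), ← smul_add, ← add_assoc, lA_add_self,
    zero_add] at a3

theorem dB_tr {δ : F} (h : ∀ a : F, (δ * a) ^ q = δ * a) : δ = 0 := by
  obtain ⟨ω, hω⟩ := exists_om (F := F) (q := q)
  have h1 := h 1
  have h2 := h ω
  rw [mul_one] at h1
  rw [mul_pow, h1] at h2
  rw [← mul_one δ, ← hω, mul_add, h2, CharTwo.add_self_eq_zero]

theorem dB_uq (hx : 𝐡 x x = 0) (x0 : x ≠ 0) {δ δ' : F}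
    (h : ∀ a : F, S q x ((δ * a) • x) = S q x ((δ' * a) • x)) : δ = δ' := by
  refine CharTwo.add_eq_zero.1 (dB_tr (q := q) fun a => ?_)
  have h1 := h a
  rw [S_self hx, S_self hx] at h1
  have h2 := T_inj hx x0 (DMo.tr_pow _) (DMo.tr_pow _) h1
  rw [add_mul, lA_add_pow]
  linear_combination h2 + (δ' * a + (δ' * a) ^ q - δ * a - δ' * a) * (CharTwo.two_eq_zero (R := F))

theorem Fam.dB_all (h : Fam ι t c) (e : Gd q f v x w) (x0 : x ≠ 0) :
    ∃ δ : F, dQ ι c f v x w (S q x (δ • w)) ∧ ∀ a : F, dQ ι c f v x (a • x) (S q x (δ • a • x)) := by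
  by_cases hw : w ∈ Submodule.span F {x}
  · obtain ⟨W, hW, hf, hx, -⟩ := e.setup
    have h1 := lB_finrank_sup W v
    have h3 := h.m6
    rw [hW.2] at h1
    obtain ⟨u, hu, h4⟩ := exists_notMem (U := Submodule.span F {x}) (W := W) (by
      rw [finrank_span_singleton x0]; omega)
    have h5 := hW.1.o2 (Submodule.mem_sup_left hx) (Submodule.mem_sup_left hu)
    obtain ⟨δ, -, h6⟩ := h.dB_one ⟨e.vf, e.fx, ⟨e.fx.l, h5.r, hf u hu⟩, e.vx,
      hW.1.o2 lV_mem_v (Submodule.mem_sup_left hu), h5⟩ h4 x0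
    obtain ⟨a, rfl⟩ := Submodule.mem_span_singleton.1 hw
    exact ⟨δ, h6 a, h6⟩
  · exact h.dB_one e hw x0

theorem dB_trans (hm : 6 ≤ m) {f' v' x' w' : Fin m → F} (e : Gd q f v x w) (e' : Gd q f' v' x' w')
    (x0 : x ≠ 0) (x0' : x' ≠ 0) : ∃ g : SU m F q, g • f = f' ∧ g • v = v' ∧ g • x = x' := by
  obtain ⟨g, h1, h2⟩ := exists_SU_pair (by omega) e.vx.l e.fx.l e'.vx.l e'.fx.l
    (e.vf.trans e'.vf.symm) (e.vf ▸ one_ne_zero)
  have e1 := e.act g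
  rw [h1, h2] at e1
  have sp := (split_top (F := F) (q := q) (n := m)).perp2 Submodule.mem_top Submodule.mem_top
    e'.vx.l e'.fx.l e'.vf
  have rk := finrank_le_perp2 (q := q) (⊤ : Submodule F (Fin m → F)) v' f'
  rw [finrank_top, Module.finrank_fin_fun] at rk
  obtain ⟨k, hk, h3⟩ := sp.exists_SW_smul_eq (by omega)
    (mem_perp2.2 ⟨trivial, e1.vx.rl, e1.fx.rl⟩) (mem_perp2.2 ⟨trivial, e'.vx.rl, e'.fx.rl⟩)
    (fun e => x0 ((smul_eq_zero_iff_eq g).1 e)) x0' e1.xw.l e'.xw.l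
  refine ⟨k * g, ?_, ?_, ?_⟩
  · rw [mul_smul, h2, SW_smul_of_orth hk fun _ h => herm_comm_zero h.2.2]
  · rw [mul_smul, h1, SW_smul_of_orth hk fun _ h => herm_comm_zero h.2.1]
  · rw [mul_smul, h3]

theorem Fam.exists_d (h : Fam ι t c) : ∃ d : F, d ^ q = d ∧ ∀ f v x w : Fin m → F, 𝐡 v f = 1 →
    O2 q f x → O2 q f w → O2 q v x → O2 q v w → O2 q x w →
    yy c f x * yy c v w * yy c f x = yy c v w * yy c x w * ι (S q x (d • w)) := by
  suffices H : ∃ d : F, d ^ q = d ∧ ∀ f v x w : Fin m → F, Gd q f v x w → x ≠ 0 →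
      dQ ι c f v x w (S q x (d • w)) by
    obtain ⟨d, h1, h2⟩ := H
    refine ⟨d, h1, fun f v x w e0 e1 e2 e3 e4 e5 => ?_⟩
    rcases eq_or_ne x 0 with rfl | x0
    · rw [h.yy_zero e1.l, yy_symm h e5, h.yy_zero e5.r, S_symm (dB_o2 e5 d), S_zero (dB_o2 e5 d).r,
        map_one, one_mul, mul_one, mul_one]
    have e : Gd q f v x w := ⟨e0, e1, e2, e3, e4, e5⟩
    have m1 : x ∈ Submodule.span F {x, w} ⊔ Submodule.span F {v} := Submodule.mem_sup_left hat_l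
    have m2 : w ∈ Submodule.span F {x, w} ⊔ Submodule.span F {v} := Submodule.mem_sup_left hat_r
    rw [mul_assoc (yy c v w), (h.el_Vh e.ti).comm (yy_mem_Vh lV_mem_v m2) (mul_mem (yy_mem_Vh m1 m2)
      (map_mem_Vh (S_mem_VW (dB_o2 e5 d) m1 (Submodule.smul_mem _ d m2)))), ← h2 f v x w e x0,
      mul_assoc _ (yy c v w) (yy c v w), h.yy_sq e4, mul_one]
  by_cases hex : ∃ f v x w : Fin m → F, Gd q f v x w ∧ x ≠ 0
  swap
  · exact ⟨0, lA_zero_pow, fun f v x w e x0 => absurd ⟨f, v, x, w, e, x0⟩ hex⟩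
  obtain ⟨f₀, v₀, x₀, w₀, e₀, x₀0⟩ := hex
  obtain ⟨d, -, hd⟩ := h.dB_all e₀ x₀0
  have sq : ∀ {x : Fin m → F} (a b : F), 𝐡 x x = 0 → S q x (a • b • x) * S q x (a • b • x) = 1 :=
    fun a b hx => S_sq (dB_o2 (dB_o2 (.self hx) b) a)
  have key : ∀ f v x w : Fin m → F, Gd q f v x w → x ≠ 0 → dQ ι c f v x w (S q x (d • w)) := by
    intro f v x w e x0
    obtain ⟨δ, h1, h2⟩ := h.dB_all e x0
    obtain ⟨g, rfl, rfl, rfl⟩ := dB_trans h.m6 e₀ e x₀0 x0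
    rwa [dB_uq e.xw.l x0 (δ := d) (δ' := δ) fun a => ?_]
    have h3 := h.dQ_act (e₀.line a) (hd a) g
    rw [S_conj (dB_o2 (dB_o2 (.self e₀.xw.l) a) d), SU_smul_comm, SU_smul_comm, SU_smul_comm] at h3
    rw [mul_smul, mul_smul]
    exact h.dQ_uq h3 (h2 a) (sq _ _ e.xw.l) (sq _ _ e.xw.l)
  refine ⟨d, dB_uq e₀.xw.l x₀0 fun a => ?_, key⟩
  rcases eq_or_ne a 0 with rfl | a0
  · simp
  have o := dB_o2 (O2.self e₀.xw.l) a
  have h1 := h.dQ_swap (e₀.line a) (S_mem_VW (dB_o2 o d) hat_l (Submodule.smul_mem _ d hat_r)) (hd a)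
  have h2 := h.dQ_uq h1 (key _ _ _ _ (e₀.line a).swap (smul_ne_zero a0 x₀0)) (sq _ _ e₀.xw.l)
    (S_sq (dB_o2 o.symm d))
  rw [S_smul_left (dB_o2 (.self e₀.xw.l) d)] at h2
  rw [mul_smul d, h2, smul_smul, S_self e₀.xw.l, S_self e₀.xw.l, mul_pow, mul_pow, lA_pow_pow,
    lA_pow_pow]
  congr 1
  ring

end Cfsg.Agent.StdU
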