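import Cfsg.Agent.StdU.DpB

/-! The action formulas: the additive model `StdU/DpM` (`DMo.Act.fin`); the remainder `y₀(x)` commutes with
`ι (T z 1)`, `z ⊥ f, v, x`, so it lies in `Vh (F x)` (`Vh_of_cent`). -/

set_option autoImplicit false
set_option linter.unusedSectionVars false

namespace Cfsg.Agent.StdU

open Subgroup Cfsg.Agent.Class.U Cfsg.Agent.KSG Cfsg.Agent.PLocal.Amb
open Cfsg.Agent.StdL (El Od Uq cjh)
open scoped commutatorElement

variable {F : Type*} [Field F] {m q : ℕ} [UF F q] [CharP F 2]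
  {G : Type*} [Group G] [Finite G] {ι r : SU m F q →* G} {t : G} {c : (Fin m → F) → G}

local notation "𝐡" => hermForm m F q

theorem Fam.dC_act (h : Fam ι t c) {d : F} (dq : d ^ q = d)
    (hd : ∀ f v x w : Fin m → F, 𝐡 v f = 1 → O2 q f x → O2 q f w → O2 q v x → O2 q v w → O2 q x w →
      yy c f x * yy c v w * yy c f x = yy c v w * yy c x w * ι (S q x (d • w)))
    {f x u w : Fin m → F} (e1 : O2 q f x) (e2 : O2 q x u) (e3 : O2 q x w) (e4 : O2 q u w) :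
    yy c f x * ι (S q u w) * yy c f x = ι (S q u w) * yy c u (𝐡 w f • x) *
      yy c (𝐡 u f • x) w * xh ι c (𝐡 u f • x) (𝐡 w f • x) d 1 ∧
    yy c f x * yy c u w * yy c f x = yy c u w * xh ι c u (𝐡 w f • x) d 1 *
      xh ι c (𝐡 u f • x) w d 1 * xh ι c (𝐡 u f • x) (𝐡 w f • x) d (1 + d) := by
  obtain ⟨U, hU, l⟩ := (e4.ti.sup e2.l (mem_perp_span.2 (by
    rintro _ (rfl | rfl)
    exacts [e2.lr, e3.lr]))).exists_MTI
  have hx : x ∈ U := l lV_mem_v
  have hu : u ∈ U := l (Submodule.mem_sup_left hat_l)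
  have hw : w ∈ U := l (Submodule.mem_sup_left hat_r)
  by_cases hf : f ∈ perp q U
  · have fU := hU.mem e1.l hf
    have hA := h.el_Vh hU.1
    have y0 : ∀ z, 𝐡 z z = 0 → yy c 0 z = 1 := fun z hz => by
      rw [yy_symm h (O2.zero hz).symm, h.yy_zero hz]
    have s0 : ∀ z : Fin m → F, 𝐡 z z = 0 → S q 0 z = 1 := fun z hz => by
      rw [S_symm (O2.zero hz).symm, S_zero hz]
    have z0 : 𝐡 0 0 = 0 := herm_zero_left _
    simp only [herm_comm_zero (hf u hu), herm_comm_zero (hf w hw), zero_smul, xh, smul_zero,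
      h.yy_zero e4.l, S_zero e4.l, y0 _ e4.r, y0 _ z0, s0 _ z0, s0 _ (dB_o2 e4 d).r, one_smul, map_one,
      mul_one]
    constructor
    · rw [hA.comm (yy_mem_Vh fU hx) (map_mem_Vh (S_mem_VW e4 hu hw)), mul_assoc, h.yy_sq e1, mul_one]
    · rw [hA.comm (yy_mem_Vh fU hx) (yy_mem_Vh hu hw), mul_assoc, h.yy_sq e1, mul_one]
  obtain ⟨v, hv, vf⟩ : ∃ v ∈ U, 𝐡 v f = 1 := by
    rw [mem_perp] at hf
    push Not at hf
    obtain ⟨v, hv, h0⟩ := hf
    exact ⟨(𝐡 v f)⁻¹ • v, U.smul_mem _ hv, by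
      rw [herm_smul_left, inv_mul_cancel₀ (herm_comm_ne h0)]⟩
  obtain ⟨W, rfl, hf'⟩ : ∃ W, U = W ⊔ Submodule.span F {v} ∧ f ∈ perp q W :=
    ⟨_, dM_split hv vf, dM_perp⟩
  obtain ⟨𝔪, h1, h2, h3, h4, h5, h6⟩ := h.exists_mo hU e1.l hf' vf
  have hA := h.el_Vh hU.1
  have o : ∀ u w : ↥(W ⊔ Submodule.span F {v}), O2 q u.1 w.1 := fun u w => hU.1.o2 u.2 w.2
  have ov : ∀ u : ↥(W ⊔ Submodule.span F {v}), O2 q v u.1 := fun u => hU.1.o2 hv u.2
  have of : ∀ u : ↥(W ⊔ Submodule.span F {v}), 𝔪.φ u = 0 → O2 q f u.1 := fun u e =>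
    ⟨e1.l, (o u u).l, herm_comm_zero ((h1 u).symm.trans e)⟩
  have ac : 𝔪.Act d := {
    dq := dq
    s := fun x w hx hw => 𝔪.eq_of (by
      rw [𝔪.D_apply, add_assoc]
      refine (congrArg (· + _) (ElM.ext ?_)).trans (𝔪.two _)
      rw [h6 _ hx, ElM.val_add, h3, h4, h2, h.actS0 vf (of x hx) (of w hw) (ov x) (ov w) (o x w)])
    y := fun x w hx hw => 𝔪.eq_of (by
      rw [𝔪.D_apply, add_assoc]
      refine (congrArg (· + _) (ElM.ext ?_)).trans (𝔪.two _)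
      rw [h6 _ hx, ElM.val_add, ElM.val_add, h3, h4, h4, h2,
        hd _ _ _ _ vf (of x hx) (of w hw) (ov x) (ov w) (o x w), mul_assoc]
      rfl) }
  obtain ⟨X1, X2⟩ := dB_X hU.1 e1.l hf' vf
  obtain ⟨r1, r2⟩ := ac.fin (fun a b x hx => by
    have m0 := (h5 _).1 (ac.one hx a b)
    have xW := (dM_mem hf' vf x.2).1 ((h1 x).symm.trans hx)
    obtain ⟨a', b', e⟩ := (h.mem_Vh_one (o x x).l).1 (h.Vh_of_cent (hU.1.mono le_sup_left)
      ((Submodule.span_singleton_le_iff_mem _ _).2 xW) X1 X2 m0 fun z k1 k2 k3 => by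
        have b1 := dB_fix k3 (k1 _ (Submodule.mem_span_singleton_self _))
        have b2 := dB_fix k3 (k2 _ hat_r)
        have c1 : Commute (ι (T q z 1)) (yy c f x) := h.yy_cen (of x hx) (dB_fix k3 (k2 _ hat_l)) b1
        have c2 : ∀ (l : F) (p : ↥(W ⊔ Submodule.span F {v})), T q z 1 • p.1 = p.1 →
            Commute (ι (T q z 1)) (𝔪.η 𝔪.v (l • p)).val ∧
            Commute (ι (T q z 1)) (𝔪.σ 𝔪.v (l • p)).val := fun l p hp => by
          have b3 : T q z 1 • (l • p).1 = (l • p).1 := by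
            rw [Submodule.coe_smul, SU_smul_comm, hp]
          rw [h3, h4, h2]
          refine ⟨h.yy_cen (ov _) b2 b3, Commute.map ?_ ι⟩
          have := S_conj (ov (l • p)) (T q z 1)
          rw [b2, b3] at this
          exact mul_inv_eq_iff_eq_mul.1 this
        have b4 : T q z 1 • 𝔪.v.1 = 𝔪.v.1 := by rw [h2, b2]
        have c3 := (c2 a _ b4).2.mul_right (c2 b _ b4).1
        rw [𝔪.D_apply, ElM.val_add, ElM.val_add, h6 _ hx, ElM.val_add, ElM.val_add]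
        exact ((((c1.mul_right c3).mul_right c1).mul_right c3).mul_right
          ((c2 _ _ b1).2.mul_right (c2 _ _ b1).1)).symm)
    exact ⟨a', b', ElM.ext (by rw [e, ElM.val_add, h3, h4]; rfl)⟩)
    (x := ⟨x, hx⟩) ((h1 _).trans e1.rl) ⟨u, hu⟩ ⟨w, hw⟩
  have k1 := congrArg ElM.val r1
  have k2 := congrArg ElM.val r2
  rw [h6 _ ((h1 _).trans e1.rl)] at k1 k2
  simp only [ElM.val_add, h1, h3, h4] at k1 k2
  exact ⟨k1, k2⟩

theorem Fam.ac (h : Fam ι t c) : ∃ d : F, Ac ι t c d := by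
  obtain ⟨d, dq, hd⟩ := h.exists_d
  exact ⟨d, h, dq, fun f x u w e1 e2 e3 e4 => (h.dC_act dq hd e1 e2 e3 e4).1,
    fun f x u w e1 e2 e3 e4 => (h.dC_act dq hd e1 e2 e3 e4).2⟩

end Cfsg.Agent.StdU
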