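import Cfsg.Agent.StdU.DpA

/-! Additive model for `DpB`, `DpC`: `M = Vh (W + F v)`, `σ u w = ι (S u w)`, `η u w = yy u w`, `φ = h(·, f)`,
`E u`, `Y x` conjugation by `ι (S f u)`, `yy f x`, `M₀ = Vh W`. -/

set_option autoImplicit false
set_option linter.unusedSectionVars false

namespace Cfsg.Agent.StdU

open Cfsg.Agent.Class.U

/-- the additive model -/
structure DMo (F : Type*) [Field F] (q : ℕ) (V M : Type*) [AddCommGroup V] [Module F V]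
    [AddCommGroup M] where
  φ : V →ₗ[F] F
  v : V
  σ : V →+ V →+ M
  η : V →+ V →+ M
  M₀ : AddSubgroup M
  E : V → M →+ M
  Y : V → M →+ M
  φv : φ v = 1
  twoV : ∀ u : V, u + u = 0
  two : ∀ a : M, a + a = 0
  big : ∀ p, ∃ u, φ u = 0 ∧ u ∉ Submodule.span F {p}
  σs : ∀ u w, σ u w = σ w u
  ηs : ∀ u w, η u w = η w u
  σl : ∀ (a : F) u w, σ (a • u) w = σ u (a ^ q • w)
  ηl : ∀ (a : F) u w, η (a • u) w = η u (a ^ q • w)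
  σr : ∀ (a : F) u, a ^ q = a → σ u (a • u) = 0
  ηr : ∀ (a : F) u, a ^ q = a → η u (a • u) = 0
  inj : ∀ u w w', u ≠ 0 → σ u w + η u w' = 0 →
    w ∈ Submodule.span F {u} ∧ w' ∈ Submodule.span F {u}
  uq : ∀ x x' (a b a' b' l l' : F), x ∉ Submodule.span F {x'} →
    σ x (a • x) + η x (b • x) + σ x (l • x') + η x (l' • x') = σ x' (a' • x') + η x' (b' • x') →
    a ^ q = a ∧ b ^ q = b ∧ l • x' = 0 ∧ l' • x' = 0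
  σ0 : ∀ u w, φ u = 0 → φ w = 0 → σ u w ∈ M₀
  η0 : ∀ u w, φ u = 0 → φ w = 0 → η u w ∈ M₀
  dec : ∀ z, ∃ a b : F, ∃ w w', φ w = 0 ∧ φ w' = 0 ∧ ∃ y ∈ M₀,
    z = σ v (a • v) + η v (b • v) + σ v w + η v w' + y
  Eσ : ∀ u p p', φ u = 0 → E u (σ p p') = σ (p + φ p • u) (p' + φ p' • u)
  Eη : ∀ u p p', φ u = 0 → E u (η p p') = η (p + φ p • u) (p' + φ p' • u)
  E0 : ∀ u y, φ u = 0 → y ∈ M₀ → E u y = y
  Y0 : ∀ x y, φ x = 0 → y ∈ M₀ → Y x y = y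
  YE : ∀ x u a, φ x = 0 → φ u = 0 → Y x (E u a) = E u (Y x a)
  Yadd : ∀ x x' a, φ x = 0 → φ x' = 0 → Y (x + x') a = Y x (Y x' a)

namespace DMo

variable {F : Type*} [Field F] {q : ℕ} [UF F q] [CharP F 2] {V M : Type*} [AddCommGroup V]
  [Module F V] [AddCommGroup M] (𝔪 : DMo F q V M) {u u' w w' x x' : V} {a b d : F} {y z : M}

include 𝔪 in
theorem two' (a b : M) : a + (a + b) = b := by rw [← add_assoc, 𝔪.two, zero_add]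

include 𝔪 in
theorem eq_of (h : y + z = 0) : y = z := by rw [← 𝔪.two' z y, add_comm z y, h, add_zero]

include 𝔪 in
theorem tz (a : M) : (2 : ℤ) • a = 0 := by rw [two_smul, 𝔪.two]

include 𝔪 in
theorem tz' (a : M) : (4 : ℤ) • a = 0 := by rw [show (4 : ℤ) = 2 * 2 from rfl, mul_smul, 𝔪.tz]

theorem φs (h : 𝔪.φ u = 0) (a : F) : 𝔪.φ (a • u) = 0 := by rw [map_smul, h, smul_zero]

theorem φa (h : 𝔪.φ u = 0) (h' : 𝔪.φ w = 0) : 𝔪.φ (u + w) = 0 := by rw [map_add, h, h', add_zero]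

theorem σf (a : F) (u w : V) : 𝔪.σ u (a • w) = 𝔪.σ w (a ^ q • u) := by rw [𝔪.σs, 𝔪.σl]

theorem ηf (a : F) (u w : V) : 𝔪.η u (a • w) = 𝔪.η w (a ^ q • u) := by rw [𝔪.ηs, 𝔪.ηl]

theorem Eσ1 (h : 𝔪.φ u = 0) (hw : 𝔪.φ w = 0) : 𝔪.E u (𝔪.σ 𝔪.v w) = 𝔪.σ 𝔪.v w + 𝔪.σ u w := by
  rw [𝔪.Eσ _ _ _ h, hw, 𝔪.φv, zero_smul, add_zero, one_smul, map_add, AddMonoidHom.add_apply]

theorem Eη1 (h : 𝔪.φ u = 0) (hw : 𝔪.φ w = 0) : 𝔪.E u (𝔪.η 𝔪.v w) = 𝔪.η 𝔪.v w + 𝔪.η u w := by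
  rw [𝔪.Eη _ _ _ h, hw, 𝔪.φv, zero_smul, add_zero, one_smul, map_add, AddMonoidHom.add_apply]

theorem Eσ2 (h : 𝔪.φ u = 0) (a : F) : 𝔪.E u (𝔪.σ 𝔪.v (a • 𝔪.v)) =
    𝔪.σ 𝔪.v (a • 𝔪.v) + 𝔪.σ 𝔪.v ((a + a ^ q) • u) + 𝔪.σ u (a • u) := by
  rw [𝔪.Eσ _ _ _ h, map_smul, 𝔪.φv, smul_eq_mul, mul_one, one_smul, add_smul]
  simp only [map_add, AddMonoidHom.add_apply]
  rw [𝔪.σf a u 𝔪.v]
  abel

theorem Eη2 (h : 𝔪.φ u = 0) (a : F) : 𝔪.E u (𝔪.η 𝔪.v (a • 𝔪.v)) =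
    𝔪.η 𝔪.v (a • 𝔪.v) + 𝔪.η 𝔪.v ((a + a ^ q) • u) + 𝔪.η u (a • u) := by
  rw [𝔪.Eη _ _ _ h, map_smul, 𝔪.φv, smul_eq_mul, mul_one, one_smul, add_smul]
  simp only [map_add, AddMonoidHom.add_apply]
  rw [𝔪.ηf a u 𝔪.v]
  abel

/-- `1 + E u` -/
def N (u : V) : M →+ M := 𝔪.E u + AddMonoidHom.id M

/-- `1 + Y x` -/
def D (x : V) : M →+ M := 𝔪.Y x + AddMonoidHom.id M

theorem N_apply (u : V) (z : M) : 𝔪.N u z = 𝔪.E u z + z := rfl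

theorem D_apply (u : V) (z : M) : 𝔪.D u z = 𝔪.Y u z + z := rfl

theorem Y_eq (u : V) (z : M) : 𝔪.Y u z = z + 𝔪.D u z := by
  rw [D_apply, add_left_comm, 𝔪.two, add_zero]

theorem N0 (h : 𝔪.φ u = 0) (hy : y ∈ 𝔪.M₀) : 𝔪.N u y = 0 := by rw [N_apply, 𝔪.E0 _ _ h hy, 𝔪.two]

theorem D0 (h : 𝔪.φ u = 0) (hy : y ∈ 𝔪.M₀) : 𝔪.D u y = 0 := by rw [D_apply, 𝔪.Y0 _ _ h hy, 𝔪.two]

theorem ND (hx : 𝔪.φ x = 0) (h : 𝔪.φ u = 0) (z : M) : 𝔪.N u (𝔪.D x z) = 𝔪.D x (𝔪.N u z) := by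
  simp only [N_apply, D_apply, map_add, 𝔪.YE _ _ _ hx h]
  abel

theorem N1 (h : 𝔪.φ u = 0) (hw : 𝔪.φ w = 0) (hw' : 𝔪.φ w' = 0) (hy : y ∈ 𝔪.M₀) :
    𝔪.N u (𝔪.σ 𝔪.v w + 𝔪.η 𝔪.v w' + y) = 𝔪.σ u w + 𝔪.η u w' := by
  rw [map_add, 𝔪.N0 h hy, add_zero, N_apply, map_add, 𝔪.Eσ1 h hw, 𝔪.Eη1 h hw']
  simp only [add_assoc, add_comm, add_left_comm, 𝔪.two, 𝔪.two', zero_add]

theorem N2 (h : 𝔪.φ u = 0) (a b : F) : 𝔪.N u (𝔪.σ 𝔪.v (a • 𝔪.v) + 𝔪.η 𝔪.v (b • 𝔪.v)) =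
    𝔪.σ 𝔪.v ((a + a ^ q) • u) + 𝔪.η 𝔪.v ((b + b ^ q) • u) + (𝔪.σ u (a • u) + 𝔪.η u (b • u)) := by
  rw [N_apply, map_add, 𝔪.Eσ2 h, 𝔪.Eη2 h]
  simp only [add_assoc, add_comm, add_left_comm, 𝔪.two, 𝔪.two']

theorem NN (h : 𝔪.φ u = 0) (h' : 𝔪.φ u' = 0) (hw : 𝔪.φ w = 0) (hw' : 𝔪.φ w' = 0) (hy : y ∈ 𝔪.M₀) :
    𝔪.N u' (𝔪.N u (𝔪.σ 𝔪.v (a • 𝔪.v) + 𝔪.η 𝔪.v (b • 𝔪.v) + 𝔪.σ 𝔪.v w + 𝔪.η 𝔪.v w' + y)) =
      𝔪.σ u' ((a + a ^ q) • u) + 𝔪.η u' ((b + b ^ q) • u) := by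
  rw [add_assoc, add_assoc, map_add, ← add_assoc (𝔪.σ 𝔪.v w), 𝔪.N1 h hw hw' hy, 𝔪.N2 h, add_assoc,
    𝔪.N1 h' (𝔪.φs h _) (𝔪.φs h _) (add_mem (add_mem (𝔪.σ0 _ _ h (𝔪.φs h _)) (𝔪.η0 _ _ h (𝔪.φs h _)))
      (add_mem (𝔪.σ0 _ _ h hw) (𝔪.η0 _ _ h hw')))]

theorem real (h : a + a ^ q = 0) : a ^ q = a := (CharTwo.add_eq_zero.1 h).symm

theorem filt1 (hx : 𝔪.φ x = 0) (z : M) : ∃ w w', 𝔪.φ w = 0 ∧ 𝔪.φ w' = 0 ∧ ∃ y ∈ 𝔪.M₀,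
    𝔪.D x z = 𝔪.σ 𝔪.v w + 𝔪.η 𝔪.v w' + y := by
  obtain ⟨u', h', h0⟩ := 𝔪.big 0
  obtain ⟨u, h, h1⟩ := 𝔪.big u'
  obtain ⟨a, b, w, w', hw, hw', y, hy, e⟩ := 𝔪.dec (𝔪.D x z)
  have e1 : 𝔪.N u' (𝔪.N u (𝔪.D x z)) = 0 := by
    obtain ⟨a, b, w, w', hw, hw', y, hy, rfl⟩ := 𝔪.dec z
    rw [𝔪.ND hx h, 𝔪.ND hx h', 𝔪.NN h h' hw hw' hy,
      𝔪.D0 hx (add_mem (𝔪.σ0 _ _ h' (𝔪.φs h _)) (𝔪.η0 _ _ h' (𝔪.φs h _)))]
  rw [e, 𝔪.NN h h' hw hw' hy] at e1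
  obtain ⟨e2, e3⟩ := 𝔪.inj _ _ _ (fun e => h0 (by rw [e]; exact zero_mem _)) e1
  have key : ∀ l : F, l • u ∈ Submodule.span F {u'} → l = 0 := fun l hl => by
    by_contra l0
    exact h1 ((Submodule.smul_mem_iff _ l0).1 hl)
  refine ⟨w, w', hw, hw', y, hy, ?_⟩
  rw [e, 𝔪.σr _ _ (real (key _ e2)), 𝔪.ηr _ _ (real (key _ e3)), add_zero, zero_add]

theorem zer (h : ∀ u, 𝔪.φ u = 0 → 𝔪.σ u w + 𝔪.η u w' = 0) : w = 0 ∧ w' = 0 := by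
  have key : ∀ p, (∀ u, 𝔪.φ u = 0 → u ≠ 0 → p ∈ Submodule.span F {u}) → p = 0 := fun p hp => by
    obtain ⟨u, h1, h2⟩ := 𝔪.big p
    obtain ⟨l, hl⟩ := Submodule.mem_span_singleton.1 (hp u h1 fun e => h2 (e ▸ zero_mem _))
    by_contra p0
    have l0 : l ≠ 0 := fun e => p0 (by rw [← hl, e, zero_smul])
    exact h2 (Submodule.mem_span_singleton.2 ⟨l⁻¹, by rw [← hl, inv_smul_smul₀ l0]⟩)
  exact ⟨key _ fun u h1 h2 => (𝔪.inj _ _ _ h2 (h u h1)).1, key _ fun u h1 h2 => (𝔪.inj _ _ _ h2 (h u h1)).2⟩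

theorem filt2 (hx : 𝔪.φ x = 0) (hw : 𝔪.φ w = 0) : 𝔪.D x (𝔪.η 𝔪.v w) ∈ 𝔪.M₀ := by
  obtain ⟨p, p', hp, hp', y, hy, e⟩ := 𝔪.filt1 hx (𝔪.η 𝔪.v w)
  obtain ⟨rfl, rfl⟩ := 𝔪.zer (w := p) (w' := p') fun u hu => by
    rw [← 𝔪.N1 hu hp hp' hy, ← e, 𝔪.ND hx hu, N_apply, 𝔪.Eη1 hu hw, add_comm, 𝔪.two',
      𝔪.D0 hx (𝔪.η0 _ _ hu hw)]
  rwa [e, map_zero, map_zero, add_zero, zero_add]

/-- the action on `x̂(v, w; e)` -/
structure Act (d : F) : Prop where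
  dq : d ^ q = d
  s : ∀ x w, 𝔪.φ x = 0 → 𝔪.φ w = 0 → 𝔪.D x (𝔪.σ 𝔪.v w) = 𝔪.η x w
  y : ∀ x w, 𝔪.φ x = 0 → 𝔪.φ w = 0 → 𝔪.D x (𝔪.η 𝔪.v w) = 𝔪.η x w + 𝔪.σ x (d • w)

variable {𝔪}

theorem tr_pow (a : F) : (a + a ^ q) ^ q = a + a ^ q := by rw [lA_add_pow, lA_pow_pow, add_comm]

theorem Act.one (h : 𝔪.Act d) (hx : 𝔪.φ x = 0) (a b : F) :
    𝔪.D x (𝔪.σ 𝔪.v (a • 𝔪.v) + 𝔪.η 𝔪.v (b • 𝔪.v)) + (𝔪.σ 𝔪.v ((d * (b + b ^ q)) • x) +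
      𝔪.η 𝔪.v ((a + a ^ q + (b + b ^ q)) • x)) ∈ 𝔪.M₀ := by
  obtain ⟨p, p', hp, hp', y, hy, e⟩ := 𝔪.filt1 hx (𝔪.σ 𝔪.v (a • 𝔪.v) + 𝔪.η 𝔪.v (b • 𝔪.v))
  obtain ⟨e1, e2⟩ := 𝔪.zer (w := p + (d * (b + b ^ q)) • x)
      (w' := p' + (a + a ^ q + (b + b ^ q)) • x) fun u hu => by
    have e3 := 𝔪.N1 hu hp hp' hy
    rw [← e, 𝔪.ND hx hu, 𝔪.N2 hu, map_add,
      𝔪.D0 hx (add_mem (𝔪.σ0 _ _ hu (𝔪.φs hu _)) (𝔪.η0 _ _ hu (𝔪.φs hu _))), add_zero, map_add,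
      h.s _ _ hx (𝔪.φs hu _), h.y _ _ hx (𝔪.φs hu _), smul_smul, 𝔪.σf, 𝔪.ηf, 𝔪.ηf _ x, tr_pow, tr_pow,
      mul_pow, h.dq, tr_pow] at e3
    rw [map_add, map_add, add_add_add_comm, ← e3, add_smul (a + a ^ q), map_add]
    simp only [add_assoc, add_comm, add_left_comm, 𝔪.two, 𝔪.two']
  have e3 : ∀ {p p' : V}, p + p' = 0 → p = p' := fun {p p'} e => by
    rw [← add_zero p, ← 𝔪.twoV p', ← add_assoc, e, zero_add]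
  rw [e, e3 e1, e3 e2, add_comm, 𝔪.two']
  exact hy

theorem triv {Q : V → M} (h1 : ∀ x x', 𝔪.φ x = 0 → 𝔪.φ x' = 0 → Q (x + x') = Q x + Q x')
    (h2 : ∀ x, 𝔪.φ x = 0 → ∃ a b : F, Q x = 𝔪.σ x (a • x) + 𝔪.η x (b • x)) (hx : 𝔪.φ x = 0) :
    Q x = 0 := by
  obtain ⟨x', hx', h0⟩ := 𝔪.big x
  obtain ⟨a, b, e⟩ := h2 x hx
  obtain ⟨a', b', e'⟩ := h2 x' hx'
  obtain ⟨l, l', e1⟩ := h2 _ (𝔪.φa hx hx')
  rw [h1 _ _ hx hx', e, e'] at e1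
  rcases eq_or_ne x 0 with rfl | x0
  · rw [e]; simp
  have h3 : x ∉ Submodule.span F {x'} := fun h3 => by
    obtain ⟨k, rfl⟩ := Submodule.mem_span_singleton.1 h3
    have k0 : k ≠ 0 := fun e => x0 (by rw [e, zero_smul])
    exact h0 (Submodule.mem_span_singleton.2 ⟨k⁻¹, inv_smul_smul₀ k0 _⟩)
  have x1 : x' ≠ 0 := fun e => h0 (e ▸ zero_mem _)
  obtain ⟨r1, r2, r3, r4⟩ := 𝔪.uq x x' (a + l) (b + l') (a' + l) (b' + l') (l + l ^ q) (l' + l' ^ q) h3 (by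
    simp only [smul_add, add_smul, map_add, AddMonoidHom.add_apply, 𝔪.σf l x' x, 𝔪.ηf l' x' x] at e1 ⊢
    refine 𝔪.eq_of ?_
    rw [← 𝔪.two (𝔪.σ x (a • x) + 𝔪.η x (b • x) + (𝔪.σ x' (a' • x') + 𝔪.η x' (b' • x')))]
    nth_rewrite 2 [e1]
    abel)
  have r5 := real ((smul_eq_zero.1 r3).resolve_right x1)
  have r6 := real ((smul_eq_zero.1 r4).resolve_right x1)
  rw [lA_add_pow, r5, add_left_inj] at r1
  rw [lA_add_pow, r6, add_left_inj] at r2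
  rw [e, 𝔪.σr _ _ r1, 𝔪.ηr _ _ r2, add_zero]

theorem Dadd (hx : 𝔪.φ x = 0) (hx' : 𝔪.φ x' = 0) (z : M) :
    𝔪.D (x + x') z = 𝔪.D x z + 𝔪.D x' z + 𝔪.D x (𝔪.D x' z) := by
  simp only [D_apply, 𝔪.Yadd _ _ _ hx hx', map_add]
  simp only [add_assoc, add_comm, add_left_comm, 𝔪.two, 𝔪.two']

theorem Act.two (h : 𝔪.Act d) {a b : F} (hc : ∀ x, 𝔪.φ x = 0 → ∃ a' b' : F,
      𝔪.D x (𝔪.σ 𝔪.v (a • 𝔪.v) + 𝔪.η 𝔪.v (b • 𝔪.v)) + (𝔪.σ 𝔪.v ((d * (b + b ^ q)) • x) +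
      𝔪.η 𝔪.v ((a + a ^ q + (b + b ^ q)) • x)) = 𝔪.σ x (a' • x) + 𝔪.η x (b' • x))
    (hx : 𝔪.φ x = 0) :
    𝔪.D x (𝔪.σ 𝔪.v (a • 𝔪.v) + 𝔪.η 𝔪.v (b • 𝔪.v)) = 𝔪.σ 𝔪.v ((d * (b + b ^ q)) • x) +
      𝔪.η 𝔪.v ((a + a ^ q + (b + b ^ q)) • x) +
      (𝔪.σ x ((d * (a + b)) • x) + 𝔪.η x ((a + b + d * b) • x)) := by
  obtain ⟨z, hz⟩ : ∃ z, z = 𝔪.σ 𝔪.v (a • 𝔪.v) + 𝔪.η 𝔪.v (b • 𝔪.v) := ⟨_, rfl⟩
  rw [← hz] at hc ⊢
  refine 𝔪.eq_of ?_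
  rw [← add_assoc]
  refine triv (𝔪 := 𝔪) (Q := fun x => 𝔪.D x z + (𝔪.σ 𝔪.v ((d * (b + b ^ q)) • x) +
      𝔪.η 𝔪.v ((a + a ^ q + (b + b ^ q)) • x)) +
      (𝔪.σ x ((d * (a + b)) • x) + 𝔪.η x ((a + b + d * b) • x))) (fun x x' hx hx' => ?_)
      (fun x hx => ?_) hx
  · have e1 := 𝔪.D0 hx (h.one hx' a b)
    rw [← hz, map_add, map_add, h.s _ _ hx (𝔪.φs hx' _), h.y _ _ hx (𝔪.φs hx' _)] at e1
    simp only [Dadd hx hx', 𝔪.eq_of e1, smul_add, map_add, AddMonoidHom.add_apply,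
      𝔪.σf _ x' x, 𝔪.ηf _ x' x, smul_smul, mul_pow, lA_add_pow, h.dq, mul_add, add_smul]
    refine 𝔪.eq_of ?_
    abel_nf
    simp only [𝔪.tz, 𝔪.tz', add_zero]
  · obtain ⟨a', b', e⟩ := hc x hx
    refine ⟨a' + d * (a + b), b' + (a + b + d * b), ?_⟩
    beta_reduce
    rw [e, add_smul a', add_smul b', map_add, map_add, add_add_add_comm]

theorem dec1 (𝔪 : DMo F q V M) (u : V) : ∃ a : F, ∃ u₀, 𝔪.φ u₀ = 0 ∧ u = a • 𝔪.v + u₀ :=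
  ⟨𝔪.φ u, 𝔪.φ u • 𝔪.v + u, by
    rw [map_add, map_smul, 𝔪.φv, smul_eq_mul, mul_one, CharTwo.add_self_eq_zero], by
    rw [← add_assoc, 𝔪.twoV, zero_add]⟩

theorem Act.fin (h : 𝔪.Act d) (hc : ∀ a b : F, ∀ x, 𝔪.φ x = 0 → ∃ a' b' : F,
      𝔪.D x (𝔪.σ 𝔪.v (a • 𝔪.v) + 𝔪.η 𝔪.v (b • 𝔪.v)) + (𝔪.σ 𝔪.v ((d * (b + b ^ q)) • x) +
      𝔪.η 𝔪.v ((a + a ^ q + (b + b ^ q)) • x)) = 𝔪.σ x (a' • x) + 𝔪.η x (b' • x))
    (hx : 𝔪.φ x = 0) (u w : V) :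
    𝔪.Y x (𝔪.σ u w) = 𝔪.σ u w + 𝔪.η u (𝔪.φ w • x) + 𝔪.η (𝔪.φ u • x) w +
      (𝔪.σ (𝔪.φ u • x) (d • 𝔪.φ w • x) + 𝔪.η (𝔪.φ u • x) ((1 : F) • 𝔪.φ w • x)) ∧
    𝔪.Y x (𝔪.η u w) = 𝔪.η u w + (𝔪.σ u (d • 𝔪.φ w • x) + 𝔪.η u ((1 : F) • 𝔪.φ w • x)) +
      (𝔪.σ (𝔪.φ u • x) (d • w) + 𝔪.η (𝔪.φ u • x) ((1 : F) • w)) +
      (𝔪.σ (𝔪.φ u • x) (d • 𝔪.φ w • x) + 𝔪.η (𝔪.φ u • x) ((1 + d) • 𝔪.φ w • x)) := by
  obtain ⟨a, u, hu, rfl⟩ := 𝔪.dec1 u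
  obtain ⟨b, w, hw, rfl⟩ := 𝔪.dec1 w
  have e1 := h.two (hc (a ^ q * b) 0) hx
  have e2 := h.two (hc 0 (a ^ q * b)) hx
  have e3 : ∀ (a : F) u, 𝔪.φ u = 0 → 𝔪.φ (a • 𝔪.v + u) = a := fun a u hu => by
    rw [map_add, map_smul, hu, 𝔪.φv, smul_eq_mul, mul_one, add_zero]
  simp only [zero_smul, map_zero, add_zero, zero_add, lA_zero_pow, mul_zero, mul_pow, lA_pow_pow,
    add_smul, mul_add, map_add] at e1 e2
  rw [Y_eq, Y_eq, e3 a u hu, e3 b w hw]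
  simp only [map_add, AddMonoidHom.add_apply, 𝔪.σl, 𝔪.ηl, smul_smul, 𝔪.σf _ u 𝔪.v, 𝔪.ηf _ u 𝔪.v,
    e1, e2, h.s _ _ hx (𝔪.φs hu _), h.s _ _ hx (𝔪.φs hw _), h.y _ _ hx (𝔪.φs hu _),
    h.y _ _ hx (𝔪.φs hw _), 𝔪.D0 hx (𝔪.σ0 _ _ hu hw), 𝔪.D0 hx (𝔪.η0 _ _ hu hw), smul_add,
    𝔪.σf _ x 𝔪.v, 𝔪.ηf _ x 𝔪.v, 𝔪.σf _ u x, 𝔪.ηf _ u x, one_smul, mul_pow, lA_pow_pow, h.dq,
    add_mul, one_mul, mul_add, add_smul]
  simp only [mul_left_comm (a ^ q) d, mul_left_comm a d, mul_comm (a ^ q) d]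
  constructor <;> abel

end DMo

open Subgroup Cfsg.Agent.KSG Cfsg.Agent.PLocal.Amb
open Cfsg.Agent.StdL (El)

section
variable {G : Type*} [Group G] {A : Subgroup G} {hA : El A}

/-- an elementary abelian subgroup, additively -/
def ElM (_ : El A) : Type _ := Additive A

instance ElM.acg : AddCommGroup (ElM hA) :=
  { (inferInstance : AddGroup (Additive A)) with
    add_comm := fun a b => Additive.toMul.injective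
      (Subtype.ext (hA.comm (Additive.toMul a : A).2 (Additive.toMul b : A).2)) }

/-- the underlying element -/
def ElM.val (a : ElM hA) : G := (Additive.toMul a : A)

theorem ElM.val_add (a b : ElM hA) : (a + b).val = a.val * b.val := rfl

theorem ElM.val_zero : (0 : ElM hA).val = 1 := rfl

theorem ElM.ext {a b : ElM hA} (h : a.val = b.val) : a = b := Additive.toMul.injective (Subtype.ext h)

theorem ElM.mem (a : ElM hA) : a.val ∈ A := (Additive.toMul a : A).2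

/-- an element of `A` -/
def ElM.mk (hA : El A) (a : G) (h : a ∈ A) : ElM hA := Additive.ofMul ⟨a, h⟩

open Classical in
/-- conjugation -/
noncomputable def ElM.cjm (hA : El A) (n : G) : ElM hA →+ ElM hA :=
  if hn : n ∈ 𝐍[A] then AddMonoidHom.mk'
    (fun a => ElM.mk hA (n * a.val * n⁻¹) ((mem_normalizer_iff.1 hn _).1 a.mem))
    fun _ _ => ElM.ext conj_mul.symm else 0

theorem ElM.val_cjm {n : G} (hn : n ∈ 𝐍[A]) (a : ElM hA) : (ElM.cjm hA n a).val = n * a.val * n⁻¹ := by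
  rw [ElM.cjm, dif_pos hn]
  rfl

/-- a subgroup -/
def ElM.sub (hA : El A) (B : Subgroup G) : AddSubgroup (ElM hA) where
  carrier := {a | a.val ∈ B}
  add_mem' {a b} ha hb := (mul_mem ha hb : a.val * b.val ∈ B)
  zero_mem' := one_mem B
  neg_mem' {a} ha := (inv_mem ha : a.val⁻¹ ∈ B)

theorem ElM.mem_sub {B : Subgroup G} {a : ElM hA} : a ∈ ElM.sub hA B ↔ a.val ∈ B := Iff.rfl

end

variable {F : Type*} [Field F] {m q : ℕ} [UF F q] [CharP F 2]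
  {G : Type*} [Group G] [Finite G] {ι : SU m F q →* G} {t : G} {c : (Fin m → F) → G}

local notation "𝐡" => hermForm m F q

variable {f v : Fin m → F} {W : Submodule F (Fin m → F)}

theorem dM_mem (hf' : f ∈ perp q W) (hv : 𝐡 v f = 1) {u : Fin m → F}
    (hu : u ∈ W ⊔ Submodule.span F {v}) : 𝐡 u f = 0 ↔ u ∈ W := by
  refine ⟨fun e => ?_, fun e => herm_comm_zero (hf' u e)⟩
  obtain ⟨w, hw, _, h1, rfl⟩ := Submodule.mem_sup.1 hu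
  obtain ⟨a, rfl⟩ := Submodule.mem_span_singleton.1 h1
  rw [herm_add_left, herm_smul_left, hv, herm_comm_zero (hf' w hw), zero_add, mul_one] at e
  rwa [e, zero_smul, add_zero]

theorem dM_split (hv : v ∈ W) (h1 : 𝐡 v f = 1) :
    W = W ⊓ perp q (Submodule.span F {f}) ⊔ Submodule.span F {v} := by
  refine le_antisymm (fun u hu => ?_)
    (sup_le inf_le_left ((Submodule.span_singleton_le_iff_mem _ _).2 hv))
  have : u = u + 𝐡 u f • v + 𝐡 u f • v := by rw [add_assoc, lA_add_self, add_zero]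
  rw [this]
  refine add_mem (Submodule.mem_sup_left (dA_mem.2 ⟨add_mem hu (W.smul_mem _ hv), ?_⟩))
    (Submodule.smul_mem _ _ lV_mem_v)
  rw [herm_add_left, herm_smul_left, h1, mul_one, CharTwo.add_self_eq_zero]

theorem dM_perp : f ∈ perp q (W ⊓ perp q (Submodule.span F {f})) :=
  fun _ hz => herm_comm_zero (dA_mem.1 hz).2

theorem Fam.exists_mo (h : Fam ι t c) (hW : MTI q (W ⊔ Submodule.span F {v})) (hf : 𝐡 f f = 0)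
    (hf' : f ∈ perp q W) (hv : 𝐡 v f = 1) :
    ∃ 𝔪 : DMo F q ↥(W ⊔ Submodule.span F {v}) (ElM (h.el_Vh hW.1)),
      (∀ u, 𝔪.φ u = 𝐡 u f) ∧ (𝔪.v : Fin m → F) = v ∧ (∀ u w, (𝔪.σ u w).val = ι (S q u w)) ∧
      (∀ u w, (𝔪.η u w).val = yy c u w) ∧ (∀ y, y ∈ 𝔪.M₀ ↔ y.val ∈ Vh ι c W) ∧
      ∀ x, 𝔪.φ x = 0 → ∀ a, (𝔪.Y x a).val = yy c f x * a.val * yy c f x := by
  have o : ∀ u w : ↥(W ⊔ Submodule.span F {v}), O2 q u.1 w.1 := fun u w => hW.1.o2 u.2 w.2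
  have mW : ∀ u : ↥(W ⊔ Submodule.span F {v}), 𝐡 u f = 0 → u.1 ∈ W := fun u => (dM_mem hf' hv u.2).1
  have of : ∀ u : ↥(W ⊔ Submodule.span F {v}), 𝐡 u f = 0 → O2 q f u.1 := fun u e =>
    ⟨hf, (o u u).l, herm_comm_zero e⟩
  have t0 : TI q W := hW.1.mono le_sup_left
  have t1 : TI q (W ⊔ Submodule.span F {f}) := t0.sup hf hf'
  have act : ∀ u p : ↥(W ⊔ Submodule.span F {v}), 𝐡 u f = 0 →
      S q f u • p.1 = (p + 𝐡 p f • u).1 := fun u p e => by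
    rw [S_smul (of u e), (o p u).lr, zero_smul, add_zero]
    rfl
  have nE : ∀ u : ↥(W ⊔ Submodule.span F {v}), 𝐡 u f = 0 →
      ι (S q f u) ∈ 𝐍[Vh ι c (W ⊔ Submodule.span F {v})] := fun u e =>
    cj_eq_iff.1 (h.cj_Vh' hW.1 (mv_of_le (si_su (S q f u)) (fun p hp => by
      have := act u ⟨p, hp⟩ e
      change S q f u • p ∈ _
      rw [this]
      exact Subtype.property _) rfl))
  have nY : ∀ u : ↥(W ⊔ Submodule.span F {v}), 𝐡 u f = 0 →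
      yy c f u ∈ 𝐍[Vh ι c (W ⊔ Submodule.span F {v})] := fun u e => h.norm_Vh (of u e) hW u.2
  have mE : ∀ u : ↥(W ⊔ Submodule.span F {v}), 𝐡 u f = 0 →
      ι (S q f u) ∈ Vh ι c (W ⊔ Submodule.span F {f}) := fun u e =>
    map_mem_Vh (S_mem_VW (of u e) lV_mem_v (Submodule.mem_sup_left (mW u e)))
  have mY : ∀ u : ↥(W ⊔ Submodule.span F {v}), 𝐡 u f = 0 →
      yy c f u ∈ Vh ι c (W ⊔ Submodule.span F {f}) := fun u e =>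
    yy_mem_Vh lV_mem_v (Submodule.mem_sup_left (mW u e))
  have sp : ∀ u w : ↥(W ⊔ Submodule.span F {v}), S q u.1 w.1 = 1 → u ≠ 0 →
      w ∈ Submodule.span F {u} := fun u w e u0 => by
    obtain ⟨b, -, hb⟩ := (S_eq_one (o u w) fun e => u0 (Subtype.ext e)).1 e
    exact Submodule.mem_span_singleton.2 ⟨b, Subtype.ext hb.symm⟩
  refine ⟨{
    φ := { toFun := fun u => 𝐡 u f
           map_add' := fun u w => herm_add_left _ _ _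
           map_smul' := fun a u => herm_smul_left _ _ _ }
    v := ⟨v, lV_mem_v⟩
    σ := AddMonoidHom.mk' (fun u => AddMonoidHom.mk'
      (fun w => ElM.mk _ (ι (S q u w)) (map_mem_Vh (S_mem_VW (o u w) u.2 w.2)))
      fun w w' => ElM.ext ?_) fun u u' => AddMonoidHom.ext fun w => ElM.ext ?_
    η := AddMonoidHom.mk' (fun u => AddMonoidHom.mk'
      (fun w => ElM.mk _ (yy c u w) (yy_mem_Vh u.2 w.2))
      fun w w' => ElM.ext (h.add _ _ _ (o u w) (o u w') (o w w'))) fun u u' =>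
        AddMonoidHom.ext fun w => ElM.ext (h.yy_add_left (o u u') (o u w) (o u' w))
    M₀ := ElM.sub _ (Vh ι c W)
    E := fun u => ElM.cjm _ (ι (S q f u))
    Y := fun u => ElM.cjm _ (yy c f u)
    φv := hv
    twoV := fun u => Subtype.ext (lA_add_self _)
    two := fun a => ElM.ext (h.el_Vh hW.1 _ a.mem)
    big := fun p => ?_
    σs := fun u w => ElM.ext (congrArg ι (S_symm (o u w)))
    ηs := fun u w => ElM.ext (yy_symm h (o u w))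
    σl := fun a u w => ElM.ext (congrArg ι (S_smul_left (o u w) a))
    ηl := fun a u w => ElM.ext (h.lin _ _ a (o u w))
    σr := fun a u ha => ElM.ext ?_
    ηr := fun a u ha => ElM.ext (h.yy_real (o u u).l ha)
    inj := fun u w w' u0 e => ?_
    uq := fun x x' a b a' b' l l' h1 e => ?_
    σ0 := fun u w h1 h2 => map_mem_Vh (S_mem_VW (o u w) (mW u h1) (mW w h2))
    η0 := fun u w h1 h2 => ElM.mem_sub.2 (by exact yy_mem_Vh (mW u h1) (mW w h2))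
    dec := fun z => ?_
    Eσ := fun u p p' e => ElM.ext ?_
    Eη := fun u p p' e => ElM.ext ?_
    E0 := fun u y e hy => ElM.ext ?_
    Y0 := fun u y e hy => ElM.ext ?_
    YE := fun x u a e e' => ElM.ext ?_
    Yadd := fun x x' a e e' => ElM.ext ?_ },
    fun u => rfl, rfl, fun u w => rfl, fun u w => rfl, fun y => Iff.rfl, fun x e a => ?_⟩
  · exact (congrArg ι (S_add (o u w) (o u w') (o w w'))).trans (map_mul ι _ _)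
  · change ι (S q (u + u').1 w) = ι (S q u w) * ι (S q u' w)
    rw [S_symm (o _ w), S_symm (o u w), S_symm (o u' w), ← map_mul, ← S_add (o w u) (o w u') (o u u')]
    rfl
  · have h1 := lB_finrank_sup W v
    have h2 : Module.finrank F (Submodule.span F {p.1}) ≤ 1 := by
      simpa using finrank_span_le_card (R := F) ({p.1} : Set (Fin m → F))
    have h3 := h.m6
    rw [hW.2] at h1
    obtain ⟨u, hu, h4⟩ := exists_notMem (U := Submodule.span F {p.1}) (W := W) (by omega)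
    refine ⟨⟨u, Submodule.mem_sup_left hu⟩, herm_comm_zero (hf' u hu), fun h5 => h4 ?_⟩
    obtain ⟨a, ha⟩ := Submodule.mem_span_singleton.1 h5
    exact Submodule.mem_span_singleton.2 ⟨a, congrArg Subtype.val ha⟩
  · change ι (S q u.1 (a • u.1)) = 1
    rw [S_self (o u u).l, ha, CharTwo.add_self_eq_zero, T_zero (o u u).l, map_one]
  · obtain ⟨h1, h2⟩ := h.sy_eq_one (o u w) (o u w') (o w w') (congrArg ElM.val e)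
    exact ⟨sp _ _ h1 u0, sp _ _ h2 u0⟩
  · have h2 : Submodule.span F {x'.1} ⊔ Submodule.span F {x.1} ≤ W ⊔ Submodule.span F {v} :=
      sup_le ((Submodule.span_singleton_le_iff_mem _ _).2 x'.2)
        ((Submodule.span_singleton_le_iff_mem _ _).2 x.2)
    obtain ⟨r1, r2, r3, r4⟩ := h.Vh_sup_uniq (a := a) (b := b) (hW.1.mono h2) (fun h3 => h1 (by
        obtain ⟨a, ha⟩ := Submodule.mem_span_singleton.1 h3
        exact Submodule.mem_span_singleton.2 ⟨a, Subtype.ext ha⟩))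
      (Submodule.smul_mem _ l (Submodule.mem_span_singleton_self _))
      (Submodule.smul_mem _ l' (Submodule.mem_span_singleton_self _))
      ((h.mem_Vh_one (o x' x').l).2 ⟨a', b', congrArg ElM.val e⟩)
    exact ⟨r1, r2, Subtype.ext r3, Subtype.ext r4⟩
  · obtain ⟨a, b, w, hw, w', hw', y, hy, e⟩ := (h.mem_Vh_sup hW.1).1 z.mem
    exact ⟨a, b, ⟨w, Submodule.mem_sup_left hw⟩, ⟨w', Submodule.mem_sup_left hw'⟩,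
      herm_comm_zero (hf' w hw), herm_comm_zero (hf' w' hw'),
      ElM.mk _ y (Vh_mono le_sup_left hy), hy, ElM.ext e⟩
  · refine (ElM.val_cjm (nE u e) _).trans ?_
    change ι _ * ι (S q p p') * _ = ι (S q (p + 𝐡 p f • u).1 (p' + 𝐡 p' f • u).1)
    rw [← map_inv, ← map_mul, ← map_mul, S_conj (o p p'), act u p e, act u p' e]
  · refine (ElM.val_cjm (nE u e) _).trans ?_
    change ι _ * yy c p p' * _ = yy c (p + 𝐡 p f • u).1 (p' + 𝐡 p' f • u).1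
    rw [h.yy_eqv (o p p'), act u p e, act u p' e]
  · rw [ElM.val_cjm (nE u e), (h.el_Vh t1).comm (mE u e) (Vh_mono le_sup_left hy), mul_inv_cancel_right]
  · rw [ElM.val_cjm (nY u e), (h.el_Vh t1).comm (mY u e) (Vh_mono le_sup_left hy), mul_inv_cancel_right]
  · rw [ElM.val_cjm (nY x e), ElM.val_cjm (nE u e'), ElM.val_cjm (nE u e'), ElM.val_cjm (nY x e)]
    calc _ = yy c f x * ι (S q f u) * a.val * (yy c f x * ι (S q f u))⁻¹ := by group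
      _ = _ := by rw [(h.el_Vh t1).comm (mY x e) (mE u e')]; group
  · have e1 : 𝐡 (x + x').1 f = 0 := by
      rw [Submodule.coe_add, herm_add_left, show 𝐡 x f = 0 from e, show 𝐡 x' f = 0 from e', add_zero]
    rw [ElM.val_cjm (nY _ e1), ElM.val_cjm (nY x e), ElM.val_cjm (nY x' e'), Submodule.coe_add,
      h.add _ _ _ (of x e) (of x' e') (o x x')]
    group
  · exact (ElM.val_cjm (nY x e) a).trans (by rw [inv_eq_of_mul_eq_one_right (h.yy_sq (of x e))])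

end Cfsg.Agent.StdU
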