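import Cfsg.Agent.StdU.Hat
import Cfsg.Agent.StdL.UfA
import Cfsg.Agent.StdL.UfB
import Cfsg.Agent.StdL.Jr

/-! Field case: an involution `s` with `Su ι s` does not act on an image of `SL_m(q²)` as an inner,
field or graph automorphism. -/

set_option autoImplicit false
set_option linter.unusedSectionVars false

namespace Cfsg.Agent.StdU

open Subgroup Cfsg.Agent.Class.U Cfsg.Agent.KSG Cfsg.Agent.PLocal.Amb
open Cfsg.Agent.StdL (El Od Uq cjh)
open scoped commutatorElement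

variable {F : Type*} [Field F] {m q : ℕ} [UF F q] [CharP F 2]
  {G : Type*} [Group G] [Finite G] {ι r : SU m F q →* G} {t : G} {c : (Fin m → F) → G}

local notation "𝐡" => hermForm m F q

variable {θ : F} {ρ : Matrix.SpecialLinearGroup (Fin m) F →* G} {s : G}

omit [CharP F 2] in
theorem not_dvd_card_SU {N p : ℕ} (h : Misc.Zsig.IsPPD q N p) (hN : m < 2 * N) (hN' : Odd N) (h2 : p ≠ 2) :
    ¬ p ∣ q → ¬ p ∣ Nat.card (SU m F q) := fun hq hd => by
  have q2 := two_le_q F q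
  have key : ∀ i, p ∣ q ^ i - 1 → N ∣ i := fun i hi => by
    have h1 : p ∣ q ^ Nat.gcd N i - 1 := by
      rw [← Nat.pow_sub_one_gcd_pow_sub_one]; exact Nat.dvd_gcd h.2.1 hi
    have h3 := Nat.gcd_pos_of_pos_left i hN'.pos
    exact (Nat.le_antisymm (Nat.gcd_le_left i hN'.pos) (not_lt.1 fun c => h.2.2 _ h3 c h1)) ▸
      Nat.gcd_dvd_right N i
  rcases Nat.eq_zero_or_pos m with rfl | hm
  · have : Subsingleton (SU 0 F q) := ⟨fun a b => SU_ext fun v => Subsingleton.elim _ _⟩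
    rw [Nat.card_unique] at hd
    exact h.1.one_lt.ne' (Nat.dvd_one.1 hd)
  have h1 : p ∣ Nat.card (GU m F q) := card_SU_mul (F := F) (q := q) hm ▸ hd.mul_left _
  rw [card_GU] at h1
  rcases (Nat.Prime.dvd_mul h.1).1 h1 with h3 | h3
  · exact hq (h.1.dvd_of_dvd_pow h3)
  obtain ⟨i, hi, h4⟩ := (h.1.prime.dvd_finsetProd_iff _).1 h3
  rw [Finset.mem_range] at hi
  split_ifs at h4 with c
  · have h5 := key ((i + 1) * 2) (h4.trans ⟨q ^ (i + 1) - 1, by
      rw [pow_mul, ← Nat.sq_sub_sq, one_pow]⟩)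
    obtain ⟨d, hd⟩ := (Nat.coprime_two_right.2 hN').dvd_of_dvd_mul_right h5
    have h6 : p ∣ q ^ (i + 1) - 1 := h.2.1.trans (hd ▸ Nat.pow_sub_one_dvd_pow_sub_one _ ⟨d, rfl⟩)
    have h7 : 0 < q ^ (i + 1) := pow_pos (by omega) _
    refine h2 ((Nat.prime_dvd_prime_iff_eq h.1 Nat.prime_two).1 ((Nat.dvd_add_right h6).1 ?_))
    rwa [show q ^ (i + 1) - 1 + 2 = q ^ (i + 1) + 1 by omega]
  · have h5 := Nat.le_of_dvd (Nat.succ_pos i) ((Nat.coprime_two_left.2 hN').mul_dvd_of_dvd_of_dvd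
      (Nat.not_even_iff_odd.1 c).add_one.two_dvd (key _ h4))
    omega

variable [Finite F]

theorem Su.fa_big (h : Su ι s) {E : Subgroup G} (hE : El E) (hle : E ≤ centralizer {s}) :
    ¬ q ^ ((m / 2) ^ 2 + 2) ≤ Nat.card E := fun c => by
  have h1 := c.trans (h.J_le hE hle)
  have h2 := two_le_q F q
  rw [pow_add, mul_comm] at h1
  have := Nat.le_of_mul_le_mul_right h1 (pow_pos (by omega) _)
  nlinarith

open StdL in
theorem Su.not_lin (h : Su ι s) (hρ : StdL.Rp ρ) : ¬ StdL.AcI ρ s (RingEquiv.refl F) := fun hA => by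
  obtain ⟨y, y2, hy⟩ := hρ.inner hA (k := 1) fun y => by rw [pow_one, pow_two, h.tt, one_mul, mul_one]
  obtain ⟨M, M', f, hM⟩ := exists_fl_mem ((pow_two y).symm.trans y2)
  have hM' : y ∈ Rd M M := ⟨hM.1, fun x hx => hM.2 x (sup_le_sup_left f.le _ hx)⟩
  refine h.fa_big (UfA.el_map (ρ := ρ) (el_Rd M M)) ?_ ?_
  · rintro _ ⟨a, ha, rfl⟩
    rw [mem_centralizer_singleton_iff, eq_comm, ← mul_inv_eq_iff_eq_mul, hy, (el_Rd M M).comm hM' ha,
      mul_inv_cancel_right]
  · rw [hρ.card_map (UfA.El.two (el_Rd M M)), f.card.1, UF.card_eq (q := q), ← pow_mul,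
      Fintype.card_fin]
    refine Nat.pow_le_pow_right (by have := two_le_q F q; omega) ?_
    have h1 : 3 ≤ m / 2 := by have := h.m6; omega
    have h2 : (m / 2 * 2) ^ 2 ≤ m ^ 2 := Nat.pow_le_pow_left (by omega) 2
    have h3 : 3 ^ 2 ≤ (m / 2) ^ 2 := Nat.pow_le_pow_left h1 2
    rw [mul_pow] at h2
    omega

open StdL StdL.UB Matrix LnT in
theorem Su.not_field (h : Su ι s) (hρ : StdL.Rp ρ) {σ : F ≃+* F} (hσ : σ ≠ RingEquiv.refl F) :
    ¬ StdL.AcI ρ s σ := fun hA => by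
  obtain ⟨σσ, T, S, hS, hT, TT, -⟩ := AcI.nf hρ (by simp only [h.tt, one_mul, mul_one, forall_const]) hA
  obtain ⟨D, hD⟩ := exists_real σσ hσ hS.smT TT
  let ρ' := ρ.comp (cjE D)
  have act : ∀ x, s * ρ' x * s⁻¹ = ρ' (SpecialLinearGroup.map (σ : F →+* F) x) := fun x => by
    obtain ⟨y, e, e2, -⟩ := hT.conj hS (cjE D x)
    refine e.trans (congrArg ρ (slext fun u => ?_))
    obtain ⟨u, rfl⟩ := T.surjective u
    obtain ⟨u, rfl⟩ := D.surjective u
    rw [e2, cjE_mulVec, cjE_mulVec, hD, hD, D.symm_apply_apply, D.symm_apply_apply]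
    exact congrArg D (funext fun i => RingHom.map_mulVec (σ : F →+* F) _ _ i)
  let K := RingHom.eqLocusField (σ : F →+* F) (RingHom.id F)
  have q2 := two_le_q F q
  have m6 := h.m6
  have cK : Nat.card K = q := by
    have := card_fix (q := q) σ
    rw [orderOf_eq_prime (p := 2) (RingEquiv.ext σσ) hσ] at this
    exact Nat.pow_left_injective two_ne_zero this
  let r₁ := ρ'.comp (SpecialLinearGroup.map K.subtype)
  have ker : ∀ x, r₁ x = 1 → x ∈ center _ := fun x e => by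
    obtain ⟨a, -, a2⟩ := cjE_cen D (hρ.ker _ e)
    refine Subgroup.mem_center_iff.2 fun y => Subtype.ext (map_injective K.subtype_injective ?_)
    have e1 : x.1.map K.subtype = a • 1 := toLin'.injective (LinearMap.ext fun v => by
      rw [toLin'_apply, toLin'_apply, smul_mulVec, one_mulVec]; exact a2 v)
    change (y.1 * x.1).map K.subtype = (x.1 * y.1).map K.subtype
    rw [Matrix.map_mul, Matrix.map_mul, e1, Matrix.mul_smul, Matrix.smul_mul, mul_one, one_mul]
  have rp : StdL.Rp r₁ := ⟨hρ.three, .inr (by rw [Fintype.card_fin]; omega), ker⟩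
  have le : ι.range.comap r₁ = ⊤ := eq_top_of_tv _ fun u φ _ => h.o2 (j := 1)
    (Od_mono (by
      rintro _ ⟨x, rfl⟩
      refine mem_centralizer_singleton_iff.2 (mul_inv_eq_iff_eq_mul.1 ((act _).trans
        (congrArg ρ' (Subtype.ext ?_)))).symm
      ext a b
      exact (x.1 a b).2) (rp.range_le_Od ⟨_, rfl⟩)) (by rw [pow_one, pow_two, ← map_mul, tv_sq, map_one])
  obtain ⟨N, n1, n2, n3⟩ : ∃ N, Odd N ∧ N ≤ m ∧ m ≤ N + 1 := by
    rcases Nat.even_or_odd m with c | c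
    exacts [⟨m - 1, Nat.Even.sub_odd (by omega) c odd_one, by omega, by omega⟩, ⟨m, c, le_rfl, by omega⟩]
  obtain ⟨p, hp⟩ := Misc.Zsig.zsigmondy (a := q) (n := N) q2 (by omega)
    (fun c => by have := c.2; obtain ⟨k, hk⟩ := n1; omega) (by omega)
  have := Fact.mk hp.1
  have p1 : ¬ p ∣ q - 1 := by simpa using hp.2.2 1 one_pos (by omega)
  have : Nonempty (Fin m) := ⟨⟨0, by omega⟩⟩
  have := Fintype.ofFinite K
  have p2 : p ∣ Nat.card (SpecialLinearGroup (Fin m) K) := by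
    refine ((Nat.Prime.dvd_mul hp.1).1 ?_).resolve_left (by rwa [Nat.card_units, cK] :
      ¬ p ∣ Nat.card Kˣ)
    rw [Class.card_units_mul_card_SL, Matrix.card_GL_field, ← Nat.card_eq_fintype_card, cK]
    refine .trans ?_ (Finset.dvd_prod_of_mem _ (Finset.mem_univ (⟨m - N, by omega⟩ : Fin m)))
    refine hp.2.1.trans ⟨q ^ (m - N), ?_⟩
    rw [Nat.sub_mul, ← pow_add, one_mul, Nat.add_sub_cancel' n2]
  obtain ⟨g, hg⟩ := exists_prime_orderOf_dvd_card' p p2
  obtain ⟨x, hx⟩ : r₁ g ∈ ι.range := le.ge (mem_top g)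
  rcases (Nat.dvd_prime hp.1).1 (hg ▸ orderOf_map_dvd r₁ g) with e | e
  · have h1 := Subgroup.orderOf_dvd_natCard _ (ker _ (orderOf_eq_one_iff.1 e))
    rw [hg, Class.card_center_SL, cK] at h1
    exact p1 (h1.trans (Nat.gcd_dvd_right _ _))
  · have p3 := hp.lt (by omega) q2
    refine not_dvd_card_SU (m := m) (F := F) hp (by omega) n1 (by omega) (fun c => ?_)
      (dvd_trans ?_ (orderOf_dvd_natCard x))
    · have h3 : p ∣ q ^ N := c.trans (dvd_pow_self _ (by omega))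
      have h4 : 0 < q ^ N := pow_pos (by omega) _
      exact hp.1.one_lt.ne' (Nat.dvd_one.1 ((Nat.dvd_add_right hp.2.1).1 (by rwa [Nat.sub_add_cancel h4])))
    · rw [← e, ← hx]
      exact orderOf_map_dvd ι x

open StdL Matrix LnT in
theorem Su.not_sym (h : Su ι s) (hρ : StdL.Rp ρ) : ¬ StdL.AcII ρ s (RingEquiv.refl F) := fun hA => by
  obtain ⟨T, S, n, y⟩ := UfA.exists_sy hρ h.tt hA
  have ex : ∀ k ≤ m / 2, ∃ u : Fin k → Fin m → F, LinearIndependent F u ∧ ∀ i j, T (u i) ⬝ᵥ u j = 0 := by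
    intro k
    induction k with
    | zero => exact fun _ => ⟨finZeroElim, linearIndependent_empty_type, fun i => i.elim0⟩
    | succ k ih =>
      intro hk
      obtain ⟨u, u1, u2⟩ := ih (by omega)
      obtain ⟨v, v1, v2⟩ := exists_ker_notMem (a := k + 1) (b := k) (by rw [Fintype.card_fin]; omega)
        (Fin.cons (T n) fun i => T (u i)) u
      refine ⟨Fin.cons v u, linearIndependent_finCons.2 ⟨u1, v2⟩, fun i j => ?_⟩
      refine Fin.cases ?_ (fun i => ?_) i <;> refine Fin.cases ?_ (fun j => ?_) j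
      exacts [y.iso (v1 0), (y.sym _ _).trans (v1 j.succ), v1 i.succ, u2 i j]
  obtain ⟨u, u1, u2⟩ := ex _ le_rfl
  let P : Matrix (Fin m) (Fin (m / 2)) F := (of u)ᵀ
  let Q : Matrix (Fin (m / 2)) (Fin m) F := of fun j => T (u j)
  have QP : Q * P = 0 := ext fun i j => u2 i j
  have e0 : ∀ c, P *ᵥ c = ∑ i, c i • u i := fun c => by
    rw [mulVec_transpose, vecMul_eq_sum]; rfl
  have e1 : ∀ c, T (P *ᵥ c) = c ᵥ* Q := fun c => by
    rw [e0, map_sum, vecMul_eq_sum]
    exact Finset.sum_congr rfl fun i _ => y.smT _ _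
  have e2 : ∀ v, T v ᵥ* P = Q *ᵥ v := fun v => funext fun i => y.sym v (u i)
  have inj : ∀ a b, P *ᵥ a = P *ᵥ b → a = b := fun a b e =>
    (Fintype.linearIndependent_iffₛ.1 u1) a b (by rw [← e0, ← e0, e]) |> funext
  let A : (Sym2 (Fin (m / 2)) → F) → Matrix (Fin (m / 2)) (Fin (m / 2)) F := fun a => of fun i j => a s(i, j)
  have sy : ∀ a c, A a *ᵥ c = c ᵥ* A a := fun a c => by
    rw [← mulVec_transpose]; congr 1; ext i j; exact congrArg a Sym2.eq_swap
  let g : (Sym2 (Fin (m / 2)) → F) → SpecialLinearGroup (Fin m) F := fun a =>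
    ⟨1 + P * A a * Q, jr_det (by
      rw [Matrix.mul_assoc, ← Matrix.mul_assoc Q, ← Matrix.mul_assoc Q, QP, Matrix.zero_mul,
        Matrix.zero_mul, Matrix.mul_zero])⟩
  have gd : ∀ a x, dl (g a) *ᵥ x = P *ᵥ A a *ᵥ Q *ᵥ x := fun a x => by
    simp [g, dl, Matrix.mul_assoc]
  let U := LinearMap.range (mulVecLin P)
  have g1 : ∀ a, g a ∈ Rd U U := fun a => (jr_mem le_rfl).2 ⟨fun x => ⟨_, (gd a x).symm⟩, by
    rintro _ ⟨c, rfl⟩
    rw [gd, mulVecLin_apply, mulVec_mulVec _ Q, QP, zero_mulVec, mulVec_zero, mulVec_zero]⟩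
  have g2 : ∀ a, ρ (g a) ∈ centralizer {s} := fun a => by
    obtain ⟨z, z1, -, z2⟩ := y.ty.conj y.semi (g a)
    rw [mem_centralizer_singleton_iff, eq_comm, ← mul_inv_eq_iff_eq_mul, z1]
    congr 1
    refine Subtype.ext (vecMul_injective ?_)
    funext φ
    obtain ⟨v, rfl⟩ := T.surjective φ
    change T v ᵥ* z.1 = T v ᵥ* (1 + P * A a * Q)
    rw [z2, inv_eq_of_mul_eq_one_right (el_Rd U U _ (g1 a))]
    change T ((1 + P * A a * Q) *ᵥ v) = _
    rw [add_mulVec, one_mulVec, map_add, vecMul_add, vecMul_one, ← mulVec_mulVec, ← mulVec_mulVec, e1,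
      ← vecMul_vecMul, ← vecMul_vecMul, e2, sy]
  refine h.fa_big (E := (Rd U U).map ρ ⊓ centralizer {s})
    (fun a ha => UfA.el_map (el_Rd U U) a ha.1) inf_le_right (.trans ?_
      (Nat.card_le_card_of_injective (fun a => ⟨ρ (g a), mem_map_of_mem ρ (g1 a), g2 a⟩) fun a b e => ?_))
  · rw [Nat.card_fun, UF.card_eq (q := q), ← pow_mul, Nat.card_eq_fintype_card, Sym2.card,
      Fintype.card_fin, Nat.choose_two_right, Nat.add_sub_cancel, mul_comm (m / 2 + 1),
      Nat.two_mul_div_two_of_even (Nat.even_mul_succ_self _)]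
    refine Nat.pow_le_pow_right (by have := two_le_q F q; omega) ?_
    have h1 : 3 ≤ m / 2 := by have := h.m6; omega
    nlinarith
  · have e3 := hρ.eq_of_sq (el_Rd U U _ (g1 a)) (el_Rd U U _ (g1 b)) (congrArg Subtype.val e)
    have e4 : A a * Q = A b * Q := toLin'.injective (LinearMap.ext fun x => by
      rw [toLin'_apply, toLin'_apply, ← mulVec_mulVec, ← mulVec_mulVec]
      exact inj _ _ (by rw [← gd, ← gd, e3]))
    funext z
    induction z using Sym2.ind with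
    | _ i j => exact congrFun (inj (A a i) (A b i) (T.injective (by
        rw [e1, e1]; exact congrFun e4 i))) j

end Cfsg.Agent.StdU
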