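import Cfsg.Agent.StdU.FfA
import Cfsg.Agent.StdU.GlB
import Cfsg.Agent.StdL.InA

/-! Field case: `t` fixes a unique coset of `N(G0)`, `G0 = ρ.range`. -/

set_option autoImplicit false

namespace Cfsg.Agent.StdU

open Subgroup Cfsg.Agent.Class.U Cfsg.Agent.KSG Cfsg.Agent.PLocal.Amb
open Cfsg.Agent.StdL (El Od Uq cjh)
open Cfsg.Agent.StdL.UB (cjE cjE_mulVec cjE_surj cjE_cen)
open Cfsg.Agent.LnT (tv tv_mulVec slext tv_sq)
open scoped commutatorElement Matrix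

variable {F : Type*} [Field F] {m q : ℕ} [UF F q] [CharP F 2]
  {G : Type*} [Group G] [Finite G] {ι r : SU m F q →* G} {t : G} {c : (Fin m → F) → G}

local notation "𝐡" => hermForm m F q

/-- `x ↦ x + a h(x, v) v` -/
noncomputable def fX (q : ℕ) (v : Fin m → F) (a : F) : Matrix.SpecialLinearGroup (Fin m) F :=
  tv (a • v) fun i => v i ^ q

variable {v : Fin m → F} {a b : F}

omit [UF F q] [CharP F 2] in
theorem isX_fX (hv : 𝐡 v v = 0) (a : F) : IsX (q := q) v (a • v) (fX q v a) := fun x => by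
  rw [fX, tv_mulVec (by rw [dotProduct_comm, ← herm_eq_dotProduct, herm_smul_left, hv, mul_zero]),
    dotProduct_comm, ← herm_eq_dotProduct]

theorem fX_adj (hv : 𝐡 v v = 0) (a : F) : Adj (q := q) (fX q v a) (fX q v (a ^ q)) := fun x y => by
  rw [isX_fX hv, isX_fX hv]
  simp only [herm_add_left, herm_add_right, herm_smul_left, herm_smul_r, hv, herm_pow, lA_pow_pow]
  linear_combination (𝐡 x v * a * 𝐡 v y) * CharTwo.two_eq_zero (R := F)

omit [UF F q] [CharP F 2] in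
theorem fX_mul (hv : 𝐡 v v = 0) (a b : F) : fX q v a * fX q v b = fX q v (a + b) := slext fun x => by
  rw [LnT.mul_mulVec', isX_fX hv, isX_fX hv, isX_fX hv]
  simp only [herm_add_left, herm_smul_left, hv, mul_zero, add_zero]
  module

theorem fX_T (hv : 𝐡 v v = 0) (ha : a ^ q = a) : fX q v a = T q v a := slext fun x => by
  rw [isX_fX hv, smul_smul, mul_comm]; exact (T_smul hv ha x).symm

omit [UF F q] [CharP F 2] in
theorem fX_comm (hv : 𝐡 v v = 0) (a : F) {k : SU m F q} (hk : k • v = v) : fX q v a * k = k * fX q v a :=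
  slext fun x => by
    rw [LnT.mul_mulVec', LnT.mul_mulVec', isX_fX hv, isX_fX hv, Matrix.mulVec_add, Matrix.mulVec_smul,
      Matrix.mulVec_smul, ← SU_herm k x v, hk, show k.1.1 *ᵥ v = v from hk]
    rfl

theorem exists_iso0 (hm : 2 ≤ m) : ∃ v : Fin m → F, v ≠ 0 ∧ 𝐡 v v = 0 :=
  let ⟨v, _, h1, h2⟩ := exists_iso_perp (q := q) (W := (⊥ : Submodule F (Fin m → F)))
    (fun u hu w _ => by rw [(Submodule.mem_bot F).1 hu, herm_zero_left]) (by rw [finrank_bot]; omega)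
  ⟨v, fun e => h1 (e ▸ zero_mem _), h2⟩

variable [Finite F] {θ : F} {ρ : Matrix.SpecialLinearGroup (Fin m) F →* G}

omit [UF F q] [CharP F 2] [Finite G] [Finite F] in
theorem Fld.le (h : Fld ι t c θ ρ) : ι.range ≤ ρ.range := by
  rintro _ ⟨x, rfl⟩
  exact ⟨x, h.ext x⟩

omit [UF F q] [CharP F 2] [Finite G] [Finite F] in
theorem Fld.c_eq (h : Fld ι t c θ ρ) (hv : 𝐡 v v = 0) : ρ (fX q v θ) = c v := h.cv v _ hv (isX_fX hv θ)

theorem Fl2.of_uni (h : Fl2 ι t c θ ρ) {g : G} {σ : F ≃+* F} (hσ : σ ≠ RingEquiv.refl F)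
    (hA : StdL.AcII ρ (g * t * g⁻¹) σ) : g ∈ 𝐍[ρ.range] := by
  have hs := h.toSu.cj g
  have hF := h.toFam.cj g
  generalize g * t * g⁻¹ = s at hA hs hF
  obtain ⟨σσ, T', S', hS, hT, -, sym⟩ := StdL.AcII.nf h.rp (by simp [hs.tt]) hA
  have hσq : ∀ a, σ a = a ^ q := (aut_sq (RingEquiv.ext σσ)).resolve_left hσ
  let B : (Fin m → F) →ₛₗ[(σ : F →+* F)] (Fin m → F) →ₗ[F] F := LinearMap.mk₂'ₛₗ _ (RingHom.id F)
    (fun u v => T' u ⬝ᵥ v) (by simp) (by simp [hS.smT]) (by simp) (by simp)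
  obtain ⟨b, hb⟩ := Class.exists_orthonormal_basis (σ := σ) (B := B)
    (fun e => hσ (RingEquiv.ext fun a => DFunLike.congr_fun e a)) σσ ⟨fun x y => (sym _ _).symm⟩
    fun x hx => T'.injective (LnT.dext fun y => (hx y).trans (by simp))
  have hn := Module.finrank_fin_fun F (n := m)
  generalize Module.finrank F (Fin m → F) = n at b hb hn
  subst hn
  have hD : ∀ a c, T' (b.equivFun.symm a) ⬝ᵥ b.equivFun.symm c = hermForm n F q c a := fun a c => by
    change B _ _ = _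
    simp [hb, hermForm, hσq, LinearMap.sum_apply, mul_comm]
  generalize b.equivFun.symm = D at hD
  let ρ' := ρ.comp (cjE D)
  have act x x' (e : Adj (q := q) x x') : s * ρ' x * s⁻¹ = ρ' x' := by
    obtain ⟨y, e1, -, e2⟩ := hT.conj hS (cjE D x)
    refine e1.trans (congrArg ρ (slext fun w => LnT.dext' fun φ => ?_))
    obtain ⟨u, rfl⟩ := T'.surjective φ
    obtain ⟨u, rfl⟩ := D.surjective u
    obtain ⟨w, rfl⟩ := D.surjective w
    rw [← LnT.vecMul_dot, e2, ← map_inv, cjE_mulVec, cjE_mulVec, LinearEquiv.symm_apply_apply,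
      LinearEquiv.symm_apply_apply, hD, hD, ← herm_pow, ← e, LnT.mulVec_inv_mulVec, herm_pow]
  let ι₁ := ρ'.comp (SU n F q).subtype
  have rp : Rp ι₁ := ⟨h.m6, h.q2, fun x e =>
    let ⟨_, _, ha⟩ := cjE_cen _ (h.rp.ker _ e); mem_center_of_scalar ha⟩
  have eq := hs.range_eq rp fun x => mul_inv_eq_iff_eq_mul.1 (act x x x.2)
  have h1 : (cjh g ι).range ≤ cj(g, ρ.range) := StdL.range_cjh g ι ▸ cj_mono g h.le
  have k := h.gen ((cj(g, ρ.range).comap ρ').map ρ) (by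
    rintro _ ⟨x, rfl⟩
    exact ⟨x, h1 (eq.le ⟨x, rfl⟩), h.ext x⟩) fun v hv => ⟨_, by
      by_cases v0 : v = 0
      · rw [v0, fX, smul_zero, (LnT.tv_eq_one (by simp)).2 (.inl rfl)]; exact one_mem _
      refine hF.mem_gen rp eq h1 (fun w hw => conj_mem_cj g ⟨_, h.c_eq hw⟩) hv v0 (one_pow q) one_ne_zero
        (by rw [← map_mul, fX, tv_sq, map_one])
        (fun k hk => (map_mul ρ' _ _).symm.trans ((congrArg ρ' (fX_comm hv θ hk)).trans (map_mul ρ' _ _))) ?_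
      change _ = s * ρ' (T q v 1)
      rw [← fX_T hv (one_pow q), show (1 : F) = θ ^ q + θ by
        rw [h.θq, add_right_comm, CharTwo.add_self_eq_zero, zero_add], ← fX_mul hv, map_mul, ← act _ _ (fX_adj hv θ),
        inv_eq_of_mul_eq_one_right hs.tt, ← mul_assoc, ← mul_assoc, ← mul_assoc, hs.tt, one_mul], h.c_eq hv⟩
  refine mem_normalizer_of_cj_le (eq_of_le_of_card_ge ?_ (card_cj _ _).le).ge
  rintro _ ⟨x, rfl⟩
  obtain ⟨x, rfl⟩ := cjE_surj D x
  obtain ⟨y, hy, e⟩ := k ⟨x, rfl⟩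
  have e1 : ρ (y⁻¹ * x) = 1 := by rw [map_mul, map_inv, e, inv_mul_cancel]
  obtain ⟨a, ha⟩ := LnT.mem_center_iff'.1 (h.rp.ker _ e1)
  have e2 : cjE D (y⁻¹ * x) = y⁻¹ * x := slext fun u => by rw [cjE_mulVec, ha, ha, map_smul, D.apply_symm_apply]
  rw [← e2, map_mul, map_mul, map_inv, map_inv, inv_mul_eq_one] at e1
  exact e1 ▸ hy

theorem Fl2.odd_cent (h : Fl2 ι t c θ ρ) : Odd (Nat.card 𝐂[ρ.range]) := by
  have ht := normalizer_le_normalizer_centralizer _ (h.cn t rfl)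
  obtain ⟨S, hS, h1⟩ := exists_isSyl_ge (StdL.isPGroup_zp h.tt) (le_sup_right (a := 𝐂[ρ.range]))
  have h2 := hS.inf_of_le le_sup_left (sup_le le_normalizer (zpowers_le.2 ht))
  refine Nat.not_even_iff_odd.1 fun c => h2.eq_bot_iff.not.2 (not_not.2 c.two_dvd) ?_
  by_contra h3
  obtain ⟨⟨x, hx, hx'⟩, h4⟩ := ne_bot_iff_exists_ne_one.1 (inf_centralizer_ne_bot
    (StdL.isPGroup_zp h.tt) h2.pgrp (le_normalizer_inf (h1.trans le_normalizer) (zpowers_le.2 ht)) h3)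
  obtain ⟨k, hk⟩ := isPGroup_iff.1 hS.pgrp x hx.1
  obtain rfl := (h.toSu.inv_pow h.nsq (mem_K0.2 ⟨(hx' t (mem_zpowers t)).symm,
    fun g => (hx.2 _ (h.le ⟨g, rfl⟩)).symm⟩) hk).resolve_left fun c => h4 (Subtype.ext c)
  obtain ⟨v, v0, hv⟩ := exists_iso0 (F := F) (q := q) (m := m) (by have := h.m6; omega)
  exact h.toFam.hat_ne hv v0 (one_pow q) one_ne_zero (h.sq v hv) (h.tr v hv) (hx.2 _ ⟨_, h.c_eq hv⟩)

theorem Fl2.uq (h : Fl2 ι t c θ ρ) : Uq 𝐍[ρ.range] t := by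
  refine ⟨h.cn t rfl, h.tt, fun g hg => ?_⟩
  have h1 := h.toSu.cj g
  obtain ⟨σ, hA | hA⟩ := h.rp.exists_ac hg <;> by_cases c : σ = RingEquiv.refl F
  · exact absurd (c ▸ hA) (h1.not_lin h.rp)
  · exact absurd hA (h1.not_field h.rp c)
  · exact absurd (c ▸ hA) (h1.not_sym h.rp)
  · exact h.of_uni c hA

end Cfsg.Agent.StdU
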