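import Cfsg.Agent.StdU.LinB

/-! The groups `VW W` and `Fx {p}`. `mem_VW'`: `h(g x + x, y) = h(x, g⁻¹ y + y)` and `perp_perp`.
`mem_VW_sup`: if `v ∈ W` trivial; else `dual` gives isotropic `y ⊥ W`, `h v y = 1`; `g y + y = a v + w`,
`a^q = a` as `g y` is isotropic, and `g (T v a S v w)⁻¹` fixes `y` and `perp (W + v)`, which span `perp W`.
`card_VW`, `VW_eq_closure`: induction on the dimension with `mem_VW_sup`, `VW_sup_uniq`
(`q · q^(2d) · q^(d²)`); `T v a = T (b v) 1`, `S u w = T (u + w) 1 T u 1 T w 1`. `exists_im`: `U` = range of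
`g + 1`. `of_comm_T`: `T_conj`, `T_eq_T`. `VW_of_cent`: if `b = g z + z ∉ U` then `b ∉ U ⊔ X`, `dual` gives an
isotropic `y ⊥ U, X` with `h b y = 1`; `g y = l y`, `l² = 1`, so `g y = y` and `h b y = 0`. `cent_Q`: `Ok.conj`,
`Ok.inj`: `g y = y + b(y) p` with `b(y)^q = b(y)` for all `y ⊥ p`, `b` is linear so `0`. `Fx_one`: `p*` a
partner, `X = perp2 ⊤ p p*`; `exists_siegel_move` moves `g p*` back to `p*`, `Split.mem_SW`; so it suffices to
get the `sg u w a` with `u = p` or `u, w ∈ X`; for isotropic `w` use `O2.sg_eq`, `T_add_vec`; in general `w` is a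
sum of isotropic vectors of `u^⊥` (`finrank X ≥ 4`: modulo `u` the space `X ⊓ u^⊥` is nondegenerate of dimension
`≥ 2`, spanned by isotropic vectors), `Ok.mul`. -/

set_option autoImplicit false
set_option linter.unusedSectionVars false
set_option linter.unusedVariables false
set_option linter.unusedSimpArgs false

namespace Cfsg.Agent.StdU

open Subgroup Cfsg.Agent.Class.U Cfsg.Agent.KSG Cfsg.Agent.PLocal.Amb
open Cfsg.Agent.StdL (El Od Uq cjh)
open scoped commutatorElement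

variable {F : Type*} [Field F] {m q : ℕ} [UF F q] [CharP F 2]

local notation "𝐡" => hermForm m F q

variable {U W W' X : Submodule F (Fin m → F)} {u v w p : Fin m → F} {a : F} {s : F ≃+* F}
  {γ : Equiv.Perm (Fin m → F)} {g g' : SU m F q}

theorem mem_VW' : g ∈ VW q W ↔ ∀ x, g • x + x ∈ W := by
  constructor
  · intro h x
    rw [← perp_perp (q := q) W]
    intro y hy
    rw [herm_add_left, ← SU_herm g x y, h y hy, CharTwo.add_self_eq_zero]
  · intro h y hy
    rw [← lA_add_eq_zero]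
    refine eq_zero_of_herm_right (q := q) fun x => ?_
    obtain ⟨x, rfl⟩ := MulAction.surjective g x
    have := herm_comm_zero (hy _ (h x))
    rw [herm_add_left] at this
    simp only
    rw [herm_add_right, SU_herm, add_comm, this]

theorem TI.el (h : TI q W) : El (VW q W) := fun g hg => SU_ext fun x => by
  have h1 := hg _ (h.le_perp (mem_VW'.1 hg x))
  rw [smul_add, add_comm (g • x), ← lA_add_eq_zero, add_add_add_comm, lA_add_self, add_zero,
    lA_add_eq_zero] at h1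
  rw [mul_smul, h1, one_smul]

theorem T_mem_VW (hv : 𝐡 v v = 0) (ha : a ^ q = a) (h : v ∈ W) : T q v a ∈ VW q W := fun x hx => by
  rw [T_smul hv ha, hx v h, mul_zero, zero_smul, add_zero]

theorem S_mem_VW (h : O2 q u w) (hu : u ∈ W) (hw : w ∈ W) : S q u w ∈ VW q W := fun x hx => by
  rw [S_smul h, hx u hu, hx w hw, zero_smul, zero_smul, add_zero, add_zero]

theorem VW_mono (h : U ≤ W) : VW q U ≤ VW q W := fun _ hg x hx => hg x (perp_anti h hx)

theorem VW_inf : VW q (U ⊓ W) = VW q U ⊓ VW q W := by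
  ext g
  simp only [mem_inf, mem_VW', Submodule.mem_inf, forall_and]

theorem VW_bot : VW q (⊥ : Submodule F (Fin m → F)) = ⊥ := by
  ext g
  simp only [mem_VW', Submodule.mem_bot, mem_bot, lA_add_eq_zero]
  exact ⟨fun h => SU_ext fun x => by rw [h, one_smul], fun h x => by rw [h, one_smul]⟩

theorem VW_le_Fx {Y : Set (Fin m → F)} (h : ∀ y ∈ Y, y ∈ perp q W) : VW q W ≤ Fx q Y := fun _ hg y hy => hg y (h y hy)

theorem Fx_span {Y : Set (Fin m → F)} : Fx q (Submodule.span F Y : Set (Fin m → F)) = Fx q Y := by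
  refine le_antisymm (fun g hg y hy => hg y (Submodule.subset_span hy)) fun g hg y hy => ?_
  induction hy using Submodule.span_induction with
  | mem y hy => exact hg y hy
  | zero => exact smul_zero g
  | add _ _ _ _ h1 h2 => rw [smul_add, h1, h2]
  | smul _ _ _ h1 => rw [SU_smul_comm, h1]

theorem lV_mem_v : v ∈ W ⊔ Submodule.span F {v} :=
  Submodule.mem_sup_right (Submodule.mem_span_singleton_self v)

theorem lV_partner (h : TI q (W ⊔ Submodule.span F {v})) (hv : v ∉ W) :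
    ∃ y ∈ perp q W, 𝐡 y y = 0 ∧ 𝐡 y v = 1 ∧ ∀ a : F, a ^ q = a → ∀ w ∈ W,
      (T q v a * S q v w) • y = y + (w + a • v) := by
  obtain ⟨y, hy, y0, e⟩ := dual (h v lV_mem_v v lV_mem_v)
    (perp_anti le_sup_left (h.le_perp lV_mem_v)) hv
  have e' := herm_comm_one e
  refine ⟨y, hy, y0, e', fun a ha w hw => ?_⟩
  have o := h.o2 lV_mem_v (Submodule.mem_sup_left hw)
  rw [mul_smul, S_smul o, e', hy w hw, one_smul, zero_smul, add_zero, T_smul o.l ha, herm_add_left, e',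
    o.rl, add_zero, mul_one, add_assoc]

theorem mem_VW_sup (h : TI q (W ⊔ Submodule.span F {v})) : g ∈ VW q (W ⊔ Submodule.span F {v}) ↔
    ∃ a : F, a ^ q = a ∧ ∃ w ∈ W, ∃ k ∈ VW q W, g = T q v a * S q v w * k := by
  have v0 := h v lV_mem_v v lV_mem_v
  have key : ∀ a : F, a ^ q = a → ∀ w ∈ W, T q v a * S q v w ∈ VW q (W ⊔ Submodule.span F {v}) :=
    fun a ha w hw => mul_mem (T_mem_VW v0 ha lV_mem_v)
      (S_mem_VW (h.o2 lV_mem_v (Submodule.mem_sup_left hw)) lV_mem_v (Submodule.mem_sup_left hw))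
  refine ⟨fun hg => ?_, ?_⟩
  swap
  · rintro ⟨a, ha, w, hw, k, hk, rfl⟩
    exact mul_mem (key a ha w hw) (VW_mono le_sup_left hk)
  by_cases hv : v ∈ W
  · refine ⟨0, lA_zero_pow, 0, zero_mem _, g, ?_, by rw [T_zero v0, S_zero v0, one_mul, one_mul]⟩
    rwa [sup_eq_left.2 ((Submodule.span_singleton_le_iff_mem _ _).2 hv)] at hg
  obtain ⟨y, hy, y0, e, e1⟩ := lV_partner h hv
  obtain ⟨w, hw, _, hc, e2⟩ := Submodule.mem_sup.1 (mem_VW'.1 hg y)
  obtain ⟨a, rfl⟩ := Submodule.mem_span_singleton.1 hc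
  have e3 : g • y = y + (w + a • v) := by rw [e2, add_comm (g • y), ← add_assoc, lA_add_self, zero_add]
  have o := h.o2 lV_mem_v (Submodule.mem_sup_left hw)
  have ha : a ^ q = a := by
    have := SU_herm g y y
    simp only [e3, herm_add_left, herm_add_right, herm_smul_left, herm_smul_r, y0, e, herm_comm_one e,
      hy w hw, herm_comm_zero (hy w hw), o.l, o.r, o.lr, o.rl] at this
    grind
  refine ⟨a, ha, w, hw, (T q v a * S q v w)⁻¹ * g, fun x hx => ?_, by group⟩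
  have h1 : x + 𝐡 x v • y ∈ perp q (W ⊔ Submodule.span F {v}) :=
    lB_mem_perp_sup.2 ⟨add_mem hx (Submodule.smul_mem _ _ hy), by
      rw [herm_add_left, herm_smul_left, e, mul_one, CharTwo.add_self_eq_zero]⟩
  have h2 := (hg _ h1).trans (key a ha w hw _ h1).symm
  rw [smul_add, smul_add, SU_smul_comm, SU_smul_comm, e3, e1 a ha w hw, add_left_inj] at h2
  rw [mul_smul, h2, inv_smul_smul]

theorem VW_sup_uniq (h : TI q (W ⊔ Submodule.span F {v})) (hv : v ∉ W) (ha : a ^ q = a) (hw : w ∈ W)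
    (e : T q v a * S q v w ∈ VW q W) : a = 0 ∧ w = 0 := by
  obtain ⟨y, hy, -, -, e1⟩ := lV_partner h hv
  have h1 := e y hy
  rw [e1 a ha w hw, add_eq_left] at h1
  have a0 : a = 0 := by
    by_contra a0
    exact hv ((W.smul_mem_iff a0).1 ((add_mem_cancel_left hw).1 (h1 ▸ zero_mem _)))
  exact ⟨a0, by simpa [a0] using h1⟩

theorem mem_VW_one (hp : 𝐡 p p = 0) :
    g ∈ VW q (Submodule.span F {p}) ↔ ∃ a : F, a ^ q = a ∧ g = T q p a := by
  have h : TI q (⊥ ⊔ Submodule.span F {p}) := by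
    rw [bot_sup_eq]; exact ti_span (by rintro _ rfl _ rfl; exact hp)
  rw [← bot_sup_eq (Submodule.span F {p}), mem_VW_sup h]
  simp [VW_bot, S_zero hp]

theorem mem_VW_two (h : O2 q u w) : g ∈ VW q (Submodule.span F {u, w}) ↔
    ∃ a b d : F, a ^ q = a ∧ b ^ q = b ∧ g = T q u a * T q w b * S q u (d • w) := by
  have e : Submodule.span F {u, w} = Submodule.span F {w} ⊔ Submodule.span F {u} := by
    rw [Submodule.span_insert, sup_comm]
  have hu : u ∈ Submodule.span F {u, w} := Submodule.subset_span (by simp)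
  have hw : w ∈ Submodule.span F {u, w} := Submodule.subset_span (by simp)
  have o : ∀ d : F, O2 q u (d • w) := fun d => by simpa using h.smul 1 d
  constructor
  · intro hg
    rw [e, mem_VW_sup (e ▸ h.ti)] at hg
    obtain ⟨a, ha, _, hc, k, hk, rfl⟩ := hg
    obtain ⟨d, rfl⟩ := Submodule.mem_span_singleton.1 hc
    obtain ⟨b, hb, rfl⟩ := (mem_VW_one h.r).1 hk
    refine ⟨a, b, d, ha, hb, ?_⟩
    rw [mul_assoc, mul_assoc, h.ti.el.comm (T_mem_VW h.r hb hw)
      (S_mem_VW (o d) hu (Submodule.smul_mem _ d hw))]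
  · rintro ⟨a, b, d, ha, hb, rfl⟩
    exact mul_mem (mul_mem (T_mem_VW h.l ha hu) (T_mem_VW h.r hb hw))
      (S_mem_VW (o d) hu (Submodule.smul_mem _ d hw))

theorem lV_ind {Q : Submodule F (Fin m → F) → Prop} (h0 : Q ⊥)
    (hs : ∀ U v, U ≤ W → v ∈ W → v ∉ U → Q U → Q (U ⊔ Submodule.span F {v})) : Q W := by
  suffices ∀ n U, U ≤ W → Module.finrank F W ≤ Module.finrank F U + n → Q U → Q W from
    this _ ⊥ bot_le (Nat.le_add_left _ _) h0
  intro n
  induction n with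
  | zero => exact fun U h1 h2 h3 => Submodule.eq_of_le_of_finrank_le h1 h2 ▸ h3
  | succ n ih =>
    intro U h1 h2 h3
    by_cases e : W ≤ U
    · exact le_antisymm h1 e ▸ h3
    obtain ⟨v, hv, hv'⟩ := SetLike.not_le_iff_exists.1 e
    have := Submodule.finrank_lt_finrank_of_lt (lB_lt_sup hv')
    exact ih _ (sup_le h1 ((Submodule.span_singleton_le_iff_mem _ _).2 hv)) (by omega)
      (hs U v h1 hv hv' h3)

theorem card_VW (h : TI q W) : Nat.card (VW q W) = q ^ Module.finrank F W ^ 2 := by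
  refine lV_ind (Q := fun U => Nat.card (VW q U) = q ^ Module.finrank F U ^ 2)
    (by rw [VW_bot, finrank_bot]; simp) fun U v hU hv hv' ih => ?_
  have h1 : TI q (U ⊔ Submodule.span F {v}) :=
    h.mono (sup_le hU ((Submodule.span_singleton_le_iff_mem _ _).2 hv))
  have v0 := h v hv v hv
  have h2 : Module.finrank F ↥(U ⊔ Submodule.span F {v}) = Module.finrank F U + 1 :=
    le_antisymm (lB_finrank_sup U v) (Submodule.finrank_lt_finrank_of_lt (lB_lt_sup hv'))
  have h3 := Nat.card_eq_of_bijective (fun x : {a : F // conj F q a = a} × U × VW q U =>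
    (⟨T q v x.1 * S q v x.2.1 * x.2.2, (mem_VW_sup h1).2 ⟨_, x.1.2, _, x.2.1.2, _, x.2.2.2, rfl⟩⟩ :
      VW q (U ⊔ Submodule.span F {v}))) ⟨?_, ?_⟩
  · rw [← h3, Nat.card_prod, Nat.card_prod, card_fixed, ih, h2,
      Module.natCard_eq_pow_finrank (K := F) (V := U), UF.card_eq (q := q)]
    ring
  · rintro ⟨⟨a, ha⟩, ⟨w, hw⟩, ⟨k, hk⟩⟩ ⟨⟨a', ha'⟩, ⟨w', hw'⟩, ⟨k', hk'⟩⟩ e
    have e1 : T q v a * S q v w * k = T q v a' * S q v w' * k' := congrArg Subtype.val e
    have o := h.o2 hv (hU hw)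
    have o' := h.o2 hv (hU hw')
    obtain ⟨y, hy, -, -, e2⟩ := lV_partner h1 hv'
    have e3 : (T q v a * S q v w * k) • y = (T q v a' * S q v w' * k') • y := by rw [e1]
    rw [mul_smul, mul_smul _ k', hk y hy, hk' y hy, e2 a ha w hw, e2 a' ha' w' hw', add_right_inj] at e3
    obtain rfl : a = a' := by
      by_contra a0
      refine hv' ((U.smul_mem_iff (sub_ne_zero.2 a0)).1 ?_)
      rw [sub_smul, show a • v - a' • v = w' - w by rw [sub_eq_sub_iff_add_eq_add, add_comm, e3]]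
      exact sub_mem hw' hw
    obtain rfl : w = w' := add_right_cancel e3
    obtain rfl : k = k' := mul_left_cancel e1
    rfl
  · rintro ⟨g, hg⟩
    obtain ⟨a, ha, w, hw, k, hk, rfl⟩ := (mem_VW_sup h1).1 hg
    exact ⟨⟨⟨a, ha⟩, ⟨w, hw⟩, ⟨k, hk⟩⟩, rfl⟩

theorem lV_T_mem {H : Subgroup (SU m F q)} (h : ∀ v ∈ X, 𝐡 v v = 0 → T q v 1 ∈ H) (hv : v ∈ X)
    (v0 : 𝐡 v v = 0) (ha : a ^ q = a) : T q v a ∈ H := by
  obtain ⟨b, rfl⟩ := exists_norm ha
  rw [← mul_one (b * b ^ q), ← T_smul_vec v0 (one_pow q)]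
  exact h _ (X.smul_mem b hv) ((O2.self v0).smul b b).l

theorem lV_S_mem {H : Subgroup (SU m F q)} (h : ∀ v ∈ X, 𝐡 v v = 0 → T q v 1 ∈ H) (hu : u ∈ X)
    (hw : w ∈ X) (o : O2 q u w) : S q u w ∈ H := by
  have := h _ (add_mem hu hw) (by simpa using o.iso 1 1)
  rwa [T_add_vec o, mul_mem_cancel_left (mul_mem (h u hu o.l) (h w hw o.r))] at this

theorem VW_eq_closure (h : TI q W) : VW q W = closure {g | ∃ v ∈ W, g = T q v 1} := by
  refine le_antisymm ?_ ((closure_le _).2 ?_)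
  · have h1 : ∀ v ∈ W, 𝐡 v v = 0 → T q v 1 ∈ closure {g | ∃ v ∈ W, g = T q v 1} :=
      fun v hv _ => subset_closure ⟨v, hv, rfl⟩
    refine lV_ind (Q := fun U => VW q U ≤ closure {g | ∃ v ∈ W, g = T q v 1})
      (by rw [VW_bot]; exact bot_le) fun U v hU hv hv' ih g hg => ?_
    obtain ⟨a, ha, w, hw, k, hk, rfl⟩ := (mem_VW_sup
      (h.mono (sup_le hU ((Submodule.span_singleton_le_iff_mem _ _).2 hv)))).1 hg
    exact mul_mem (mul_mem (lV_T_mem h1 hv (h v hv v hv) ha) (lV_S_mem h1 hv (hU hw) (h.o2 hv (hU hw))))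
      (ih hk)
  · rintro _ ⟨v, hv, rfl⟩
    exact T_mem_VW (h v hv v hv) (one_pow q) hv

theorem le_of_VW_le (h : TI q U) (e : VW q U ≤ VW q W) : U ≤ W := fun u hu => by
  rcases eq_or_ne u 0 with rfl | u0
  · exact zero_mem _
  have v0 := h u hu u hu
  obtain ⟨y, -, hy⟩ := exists_partner u0 v0
  have := mem_VW'.1 (e (T_mem_VW v0 (one_pow q) hu)) y
  rwa [T_smul v0 (one_pow q), herm_comm_one hy, mul_one, one_smul, add_right_comm, lA_add_self,
    zero_add] at this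

theorem Rel.mem_VW (h : SI q s γ) (e : Mv γ W W') (hg : Rel γ g g') : g' ∈ VW q W' ↔ g ∈ VW q W := by
  rw [mem_VW', mem_VW', γ.surjective.forall]
  exact forall_congr' fun x => by rw [hg, ← h.semi.add, e]

theorem conj_mem_VW {k : SU m F q} (e : Mv (k • ·) W W') : k * g * k⁻¹ ∈ VW q W' ↔ g ∈ VW q W := (rel_su k g).mem_VW (si_su k) e

/-- the image of `g + 1` for an involution `g` -/
theorem exists_im (h : g * g = 1) : ∃ U, TI q U ∧ g ∈ VW q U ∧ ∀ u ∈ U, ∃ x, g • x + x = u := by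
  have h1 : ∀ x y, 𝐡 (g • x) y = 𝐡 x (g • y) := fun x y => by
    rw [← SU_herm g (g • x), ← mul_smul, h, one_smul]
  refine ⟨LinearMap.range (lB_lin g + LinearMap.id), ?_, mem_VW'.2 fun x => ⟨x, rfl⟩, fun u ⟨x, hx⟩ => ⟨x, hx⟩⟩
  rintro _ ⟨x, rfl⟩ _ ⟨y, rfl⟩
  change 𝐡 (g • x + x) (g • y + y) = 0
  rw [herm_add_left, herm_add_right, herm_add_right, SU_herm, h1]
  grind

theorem exists_VW (h : g * g = 1) : ∃ W, MTI q W ∧ g ∈ VW q W := by
  obtain ⟨U, h1, h2, -⟩ := exists_im h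
  obtain ⟨W, h3, h4⟩ := h1.exists_MTI
  exact ⟨W, h3, VW_mono h4 h2⟩

theorem of_comm_T (hv : 𝐡 v v = 0) (ha : a ^ q = a) (h0 : a ≠ 0) (h : Commute g (T q v a)) :
    ∃ l : F, l * l ^ q = 1 ∧ g • v = l • v := by
  rcases eq_or_ne v 0 with rfl | v0
  · exact ⟨1, by simp, by simp⟩
  have e := T_conj hv ha g
  rw [h.eq, mul_inv_cancel_right] at e
  obtain ⟨l, h1, h2⟩ := T_eq_T hv (by rw [SU_herm, hv]) v0 ha h0 ha e
  exact ⟨l, mul_right_cancel₀ h0 (h2.trans (one_mul a).symm), h1⟩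

theorem comm_T (hv : 𝐡 v v = 0) (ha : a ^ q = a) (h : g • v = v) : Commute g (T q v a) := by
  have e := T_conj hv ha g
  rw [h, mul_inv_eq_iff_eq_mul] at e
  exact e

theorem lV_fix (hg : g * g = 1) (hv : 𝐡 v v = 0) (h : Commute g (T q v 1)) : g • v = v := by
  rcases eq_or_ne v 0 with rfl | v0
  · exact smul_zero g
  obtain ⟨l, -, e⟩ := of_comm_T hv (one_pow q) one_ne_zero h
  have h1 : (g * g) • v = (l * l) • v := by rw [mul_smul, e, SU_smul_comm, e, smul_smul]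
  rw [hg, one_smul] at h1
  have h2 : l * l = 1 := smul_left_injective F v0 (h1.symm.trans (one_smul F v).symm)
  have h3 : (l - 1) ^ 2 = 0 := by grind
  rw [e, sub_eq_zero.1 (pow_eq_zero_iff two_ne_zero |>.1 h3), one_smul]

theorem VW_of_cent (h : TI q W) (hU : U ≤ W) (hX : X ≤ perp q W) (hX' : X ⊓ W = ⊥) (hg : g ∈ VW q W)
    (e : ∀ y ∈ perp q U, y ∈ perp q X → 𝐡 y y = 0 → Commute g (T q y 1)) : g ∈ VW q U := by
  refine mem_VW'.2 fun z => ?_
  have hb := mem_VW'.1 hg z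
  by_contra hb'
  obtain ⟨y, hy, y0, e1⟩ := dual (U := U ⊔ X) (h _ hb _ hb) (by
    rw [perp_sup]
    exact ⟨perp_anti hU (h.le_perp hb), fun x hx => herm_comm_zero (hX hx _ hb)⟩) (fun e => by
    obtain ⟨u, hu, x, hx, e⟩ := Submodule.mem_sup.1 e
    have x0 : x ∈ X ⊓ W := ⟨hx, (add_mem_cancel_left (hU hu)).1 (e ▸ hb)⟩
    rw [hX', Submodule.mem_bot] at x0
    rw [x0, add_zero] at e
    exact hb' (e ▸ hu))
  rw [perp_sup] at hy
  rw [herm_add_left, ← SU_herm g z y, lV_fix (h.el g hg) y0 (e y hy.1 hy.2 y0),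
    CharTwo.add_self_eq_zero] at e1
  exact zero_ne_one e1

/-- an involution commuting with `VW W`, `W` maximal, lies in it -/
theorem MTI.mem_VW (h : MTI q W) (hg : g * g = 1) (e : ∀ k ∈ VW q W, Commute g k) : g ∈ VW q W := by
  obtain ⟨U, h1, h2, -⟩ := exists_im hg
  refine mem_VW'.2 fun x => h.mem (h1 _ (mem_VW'.1 h2 x) _ (mem_VW'.1 h2 x)) fun v hv => ?_
  have v0 := h.1 v hv v hv
  rw [herm_add_left, ← SU_herm g x v, lV_fix hg v0 (e _ (T_mem_VW v0 (one_pow q) hv)),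
    CharTwo.add_self_eq_zero]

theorem cent_Q (hp : 𝐡 p p = 0) (h0 : p ≠ 0) (hg : g • p = p)
    (e : ∀ y a, Ok q p y a → Commute g (sg q p y a)) : ∃ a : F, a ^ q = a ∧ g = T q p a := by
  have key : ∀ y, 𝐡 y p = 0 → ∃ b : F, g • y = y + b • p ∧ b ^ q = b := fun y hy => by
    obtain ⟨a, ha⟩ := exists_ok hp hy
    obtain ⟨h1, h2⟩ := ha.conj g
    rw [hg] at h1 h2
    rw [(e y a ha).eq, mul_inv_cancel_right] at h2
    obtain ⟨b, h3, h4⟩ := ha.inj h1 h0 h2
    exact ⟨b, h3, by grind⟩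
  refine (mem_VW_one hp).1 fun y hy => ?_
  have hy' := hy p (Submodule.mem_span_singleton_self p)
  obtain ⟨c, hc⟩ := exists_conj_ne F q
  obtain ⟨b, h1, h2⟩ := key y hy'
  obtain ⟨b', h3, h4⟩ := key (c • y) (by rw [herm_smul_left, hy', mul_zero])
  rw [SU_smul_comm, h1, smul_add, add_right_inj, smul_smul] at h3
  rw [← smul_left_injective F h0 h3, mul_pow, h2] at h4
  rw [h1, (mul_eq_mul_right_iff.1 h4).resolve_left hc, zero_smul, add_zero]

theorem lV_move (hp : 𝐡 p p = 0) (h0 : p ≠ 0) (hg : g • p = p) {z : Fin m → F} (hz : 𝐡 p z = 1) :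
    ∃ w a, Ok q p w a ∧ sg q p w a • z = g • z ∧ sg q p w a • p = p := by
  have e1 : 𝐡 z p = 𝐡 (g • z) p := by rw [← SU_herm g z p, hg]
  obtain ⟨a, k, h1, h2, h3⟩ := exists_siegel_move hp e1 (herm_comm_one hz ▸ one_ne_zero)
    (SU_herm g z z).symm
  have e2 : 𝐡 ((𝐡 z p)⁻¹ • (g • z - z)) p = 0 := by
    rw [herm_smul_left, herm_sub_left, ← e1, sub_self, mul_zero]
  exact ⟨_, a, ⟨hp, e2, h1.cond h0 hp e2⟩, by rw [lA_sg_eq h1, h2], by rw [lA_sg_eq h1, h3]⟩

/-- elements acting trivially on `p^⊥ / p` -/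
theorem exists_sg (hp : 𝐡 p p = 0) (h0 : p ≠ 0) (hg : g • p = p)
    (e : ∀ y, 𝐡 y p = 0 → ∃ l : F, g • y = y + l • p) : ∃ w a, Ok q p w a ∧ g = sg q p w a := by
  obtain ⟨z, -, hz⟩ := exists_partner h0 hp
  obtain ⟨w, a, h1, h2, h3⟩ := lV_move hp h0 hg hz
  refine ⟨w, a, h1, SU_ext fun x => ?_⟩
  have key : ∀ y, 𝐡 y p = 0 → g • y = sg q p w a • y := fun y hy => by
    obtain ⟨l, hl⟩ := e y hy
    have e1 : sg q p w a • y = y + 𝐡 y w • p := by rw [sg_smul h1, hy]; simp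
    have e2 := (SU_herm g y z).trans (SU_herm (sg q p w a) y z).symm
    have e3 : 𝐡 p (g • z) = 1 := by rw [← hz, ← SU_herm g p z, hg]
    rw [h2, hl, e1, herm_add_left, herm_add_left, herm_smul_left, herm_smul_left, e3, mul_one, mul_one,
      add_right_inj] at e2
    rw [hl, e1, e2]
  have := key (x + 𝐡 x p • z) (by
    rw [herm_add_left, herm_smul_left, herm_comm_one hz, mul_one, CharTwo.add_self_eq_zero])
  rwa [smul_add, smul_add, SU_smul_comm, SU_smul_comm, h2, add_left_inj] at this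

theorem lV_sg_mem (hm : 6 ≤ m) {H : Subgroup (SU m F q)} (h : ∀ v, O2 q p v → T q v 1 ∈ H)
    (o : O2 q p u) (hw : 𝐡 w p = 0) (e : Ok q u w a) : sg q u w a ∈ H := by
  have h1 : ∀ v ∈ perp q (Submodule.span F {p}), 𝐡 v v = 0 → T q v 1 ∈ H := fun v hv v0 =>
    h v ⟨o.l, v0, herm_comm_zero (hv p (Submodule.mem_span_singleton_self p))⟩
  have mp : ∀ {x}, 𝐡 x p = 0 → x ∈ perp q (Submodule.span F {p}) := fun hx =>
    mem_perp_span.2 (by rintro _ rfl; exact hx)
  have k1 : ∀ w a, 𝐡 w p = 0 → 𝐡 w w = 0 → Ok q u w a → sg q u w a ∈ H := fun w a hw w0 e => by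
    have o' : O2 q u w := ⟨e.uu, w0, herm_comm_zero e.wu⟩
    have ha : a ^ q = a := by have := e.tr; grind
    rw [o'.sg_eq ha]
    exact mul_mem (lV_S_mem h1 (mp o.rl) (mp hw) o') (lV_T_mem h1 (mp o.rl) o.r ha)
  have k2 : ∀ w w', 𝐡 w u = 0 → 𝐡 w' u = 0 → (∀ a, Ok q u w a → sg q u w a ∈ H) →
      (∀ a, Ok q u w' a → sg q u w' a ∈ H) → ∀ a, Ok q u (w + w') a → sg q u (w + w') a ∈ H := by
    intro w w' hw hw' a1 a2 a e
    obtain ⟨b, hb⟩ := exists_ok o.r hw
    obtain ⟨b', hb'⟩ := exists_ok o.r hw'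
    obtain ⟨e1, e2⟩ := hb.mul hb'
    have e3 := e2 ▸ mul_mem (a1 b hb) (a2 b' hb')
    generalize b + b' + 𝐡 w' w = c at e1 e3
    have hc : (c + a) ^ q = c + a := by
      have := e.tr
      have := e1.tr
      rw [lA_add_pow]
      grind
    have := mul_mem e3 (lV_T_mem h1 (mp o.rl) o.r hc)
    rwa [T, (e1.mul (lA_ok_T o.r hc)).2, add_zero, herm_zero_left, add_zero, ← add_assoc,
      CharTwo.add_self_eq_zero, zero_add] at this
  have h2 : Module.finrank F (Submodule.span F {p, u}) ≤ 2 := by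
    classical
    exact (finrank_span_le_card _).trans (by simpa using Finset.card_le_two)
  obtain ⟨v, hv, hv', v0⟩ := exists_iso_perp o.ti (by omega)
  obtain ⟨y, hy, y0, e1⟩ := dual v0 hv hv'
  rw [mem_perp_span] at hv hy
  have vp := hv p (by simp)
  have vu := hv u (by simp)
  have yp := hy p (by simp)
  have yu := hy u (by simp)
  have k3 : ∀ w, 𝐡 w p = 0 → 𝐡 w u = 0 → 𝐡 v w ≠ 0 → ∀ a, Ok q u w a → sg q u w a ∈ H := by
    intro w wp wu hw
    obtain ⟨t, ht⟩ := exists_isotropic_sub v0 hw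
    have := k2 (w - t • v) (t • v) (by simp [herm_sub_left, herm_smul_left, wu, vu])
      (by simp [herm_smul_left, vu])
      (fun a => k1 _ a (by simp [herm_sub_left, herm_smul_left, wp, vp]) ht)
      (fun a => k1 _ a (by simp [herm_smul_left, vp]) ((O2.self v0).smul t t).l)
    rwa [sub_add_cancel] at this
  by_cases h3 : 𝐡 v w = 0
  · have := k2 (w + y) y (by rw [herm_add_left, e.wu, yu, add_zero]) yu
      (k3 _ (by rw [herm_add_left, hw, yp, add_zero]) (by rw [herm_add_left, e.wu, yu, add_zero])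
        (by rw [herm_add_right, h3, e1, zero_add]; exact one_ne_zero)) (fun a => k1 _ a yp y0)
    rw [add_assoc, lA_add_self, add_zero] at this
    exact this a e
  · exact k3 w hw e.wu h3 a e

theorem Fx_one (hm : 6 ≤ m) (hp : 𝐡 p p = 0) (h0 : p ≠ 0) :
    Fx q {p} = closure {g | ∃ v, O2 q p v ∧ g = T q v 1} := by
  refine le_antisymm (fun g hg => ?_) ((closure_le _).2 ?_)
  · rw [mem_Fx_one] at hg
    have h1 : ∀ v, O2 q p v → T q v 1 ∈ closure {g | ∃ v, O2 q p v ∧ g = T q v 1} :=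
      fun v hv => subset_closure ⟨v, hv, rfl⟩
    obtain ⟨z, z0, hz⟩ := exists_partner h0 hp
    obtain ⟨w, a, h2, h3, h4⟩ := lV_move hp h0 hg hz
    have h5 : (sg q p w a)⁻¹ * g ∈ SW q (perp2 q ⊤ p z) :=
      (split_top.perp2 trivial trivial hp z0 hz).mem_SW (split_top.fix_perp2 trivial trivial hp z0 hz
        (fun y hy => by rw [eq_zero_of_herm_left fun v => hy v trivial, smul_zero])
        (by rw [mul_smul, hg, inv_smul_eq_iff, h4]) (by rw [mul_smul, inv_smul_eq_iff, h3]))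
    refine (mul_mem_cancel_left (inv_mem (lV_sg_mem hm h1 (O2.self hp) h2.wu h2))).1
      ((closure_le _).2 ?_ h5)
    rintro k ⟨u, hu, w, hw, a, u0, wu, hk⟩
    rcases eq_or_ne u 0 with rfl | u1
    · rw [hk.eq_one_of_zero]; exact one_mem _
    · rw [← lA_sg_eq hk]
      exact lV_sg_mem hm h1 ⟨hp, u0, herm_comm_zero hu.2.1⟩ hw.2.1 ⟨u0, wu, hk.cond u1 u0 wu⟩
  · rintro _ ⟨v, hv, rfl⟩
    exact mem_Fx_one.2 (by rw [T_smul hv.r (one_pow q), hv.lr]; simp)

theorem closure_T (hm : 4 ≤ m) : closure {g : SU m F q | ∃ v, 𝐡 v v = 0 ∧ g = T q v 1} = ⊤ := by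
  rw [eq_top_iff, ← closure_transvections (by omega) (by omega), closure_le]
  rintro k ⟨u, a, u0, hk⟩
  rcases eq_or_ne u 0 with rfl | u1
  · rw [hk.eq_one_of_zero]; exact one_mem _
  · have := hk.cond u1 u0 (herm_zero_left _)
    rw [herm_zero_left, add_zero, conj_apply] at this
    rw [← lA_sg_eq hk]
    exact lV_T_mem (X := ⊤) (fun v _ v0 => subset_closure ⟨v, v0, rfl⟩) trivial u0 (by grind)

end Cfsg.Agent.StdU
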