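import Cfsg.Agent.StdU.FfB
import Cfsg.Agent.StdU.LinV
import Cfsg.Agent.StdL.Syl

/-! Field case, end: `G0 = ρ.range` contains a Sylow `2`-subgroup of every perfect normal subgroup `X ≥ L`. -/

set_option autoImplicit false

namespace Cfsg.Agent.StdU

open Subgroup Cfsg.Agent.Class.U Cfsg.Agent.KSG Cfsg.Agent.PLocal.Amb
open Cfsg.Agent.StdL (El Od Uq cjh rk Semi TyII pi_comm isPGroup_zp)
open Cfsg.Agent.LnT
open scoped commutatorElement Matrix

variable {F : Type*} [Field F] {m q : ℕ} [UF F q] [CharP F 2]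
  {G : Type*} [Group G] [Finite G] {ι r : SU m F q →* G} {t : G} {c : (Fin m → F) → G}

local notation "𝐡" => hermForm m F q

variable [Finite F] {θ : F} {ρ : Matrix.SpecialLinearGroup (Fin m) F →* G}

open Matrix in
theorem exists_uni {y : Matrix.SpecialLinearGroup (Fin m) F} (hy : y * y = 1) :
    ∃ x : SU m F q, IsConj (x : Matrix.SpecialLinearGroup (Fin m) F) y := by
  have h1 : dl y * dl y = 0 := mext fun x => by rw [← mulVec_mulVec, dl_dl hy, zero_mulVec]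
  have h2 := rank_add_rank_le_card_of_mul_eq_zero h1
  obtain ⟨f⟩ := Function.Embedding.nonempty_of_card_le (α := Fin (rk y) ⊕ Fin (rk y)) (β := Fin m)
    (by rw [Fintype.card_sum, Fintype.card_fin]; exact h2)
  let A : Matrix (Fin m) (Fin (rk y)) F := (1 : Matrix (Fin m) (Fin m) F).submatrix id (f ∘ Sum.inl) +
    (1 : Matrix (Fin m) (Fin m) F).submatrix id (f ∘ Sum.inr)
  have e : ∀ a : Fin (rk y) → Fin m, (1 : Matrix (Fin m) (Fin m) F).submatrix a id * A = A.submatrix a id := fun a => by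
    simpa using submatrix_mul_equiv (1 : Matrix (Fin m) (Fin m) F) A a (Equiv.refl _) id
  have e1 : (1 : Matrix (Fin m) (Fin m) F).submatrix (f ∘ Sum.inl) id * A = 1 := by
    rw [e]; ext a b; simp [A, one_apply]
  have h3 : Aᵀ * A = 0 := by
    change (_ + _)ᵀ * A = 0
    rw [transpose_add, transpose_submatrix, transpose_submatrix, transpose_one, Matrix.add_mul, e1, e]
    ext a b
    simp [A, one_apply, CharTwo.add_self_eq_zero]
  let x : SpecialLinearGroup (Fin m) F := ⟨1 + A * Aᵀ, by rw [det_one_add_mul_comm, h3]; simp⟩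
  have h4 : dl x = A * Aᵀ := add_sub_cancel_left _ _
  have x2 : x.1 * x.1 = 1 := by
    change (1 + A * Aᵀ) * (1 + A * Aᵀ) = 1
    rw [mul_add, mul_one, add_mul, one_mul, Matrix.mul_assoc, ← Matrix.mul_assoc Aᵀ, h3,
      Matrix.zero_mul, Matrix.mul_zero, add_zero, add_assoc]
    ext a b
    simp [CharTwo.add_self_eq_zero]
  have x3 : x.1ᵀ = x.1 := by simp [x]
  have x4 : x.1.map (conj F q) = x.1 := by
    have : A.map (conj F q) = A := by
      ext a b; simp [A, one_apply, apply_ite (conj F q)]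
    change (conj F q).mapMatrix (1 + A * Aᵀ) = 1 + A * Aᵀ
    rw [map_add, map_one, RingHom.mapMatrix_apply, Matrix.map_mul, transpose_map, this]
  refine ⟨⟨x, fun u v => ?_⟩, StdL.isConj_of_rk (Subtype.ext x2) hy (le_antisymm ?_ ?_)⟩
  · change x.1 *ᵥ u ⬝ᵥ (conj F q ∘ (x.1 *ᵥ v)) = u ⬝ᵥ (conj F q ∘ v)
    rw [show conj F q ∘ (x.1 *ᵥ v) = x.1.map (conj F q) *ᵥ (conj F q ∘ v) from
      funext fun i => RingHom.map_mulVec _ _ _ i, x4, dotProduct_mulVec, ← mulVec_transpose, x3, mulVec_mulVec, x2,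
      one_mulVec]
  · rw [rk, h4]
    simpa using (rank_mul_le_left A Aᵀ).trans (rank_le_card_width A)
  · have h5 : (1 : Matrix (Fin m) (Fin m) F).submatrix (f ∘ Sum.inl) id * (A * Aᵀ) *
        ((1 : Matrix (Fin m) (Fin m) F).submatrix (f ∘ Sum.inl) id)ᵀ = 1 := by
      rw [← Matrix.mul_assoc, e1, Matrix.one_mul, ← transpose_mul, e1, transpose_one]
    have h6 := congrArg Matrix.rank h5
    rw [rank_one, Fintype.card_fin, ← h4] at h6
    exact h6.ge.trans ((rank_mul_le_left _ _).trans (rank_mul_le_right _ _))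

omit [Finite G] in
theorem Fl2.le_X (h : Fl2 ι t c θ ρ) {X : Subgroup G} [X.Normal] (hL : ι.range ≤ X) :
    ρ.range ≤ X := by
  obtain ⟨v, v0, hv⟩ := exists_iso0 (F := F) (q := q) (m := m) (by have := h.m6; omega)
  have h1 : fX q v 1 ∈ X.comap ρ := by
    rw [fX_T hv (one_pow q), mem_comap, h.ext]; exact hL ⟨_, rfl⟩
  rw [fX, one_smul] at h1
  rw [MonoidHom.range_eq_map, map_le_iff_le_comap, StdL.eq_top_of_tv (X.comap ρ) fun u φ e => ?_]
  by_cases c : u = 0 ∨ φ = 0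
  · rw [(tv_eq_one e).2 c]; exact one_mem _
  rw [not_or] at c
  obtain ⟨x, rfl⟩ := h.rp.trans v0 c.1
  obtain ⟨y, -, hy⟩ := h.rp.trans_V (φ := (fun i => v i ^ q) ᵥ* (x⁻¹).1) c.1
    (by rw [dot_conj, dotProduct_comm]; exact hv) e (fun e => v0 (funext fun i => by
      have := congrFun (vecMul_inv_of e) i
      rw [Matrix.zero_vecMul] at this
      exact by_contra fun n => lA_pow_ne (q := q) n this.symm)) c.2
  rw [← hy, ← tv_conj]
  exact Normal.conj_mem inferInstance _ (Normal.conj_mem inferInstance _ h1 x) y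

omit [Finite G] [Finite F] in
theorem Fl2.ty (h : Fl2 ι t c θ ρ) {τ : F ≃+* F} (hτ : ∀ a, τ a = a ^ q) :
    ∃ T : (Fin m → F) ≃+ (Fin m → F), Semi τ T T ∧ TyII ρ t T T ∧ ∀ i, T (Pi.single i 1) = Pi.single i 1 := by
  let T : (Fin m → F) ≃+ (Fin m → F) := AddEquiv.piCongrRight fun _ => τ.toAddEquiv
  have s : Semi τ T T := ⟨fun a u => funext fun i => map_mul τ _ _, fun a u => funext fun i => map_mul τ _ _,
    fun φ u => (RingHom.map_dotProduct (τ : F →+* F) φ u).symm⟩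
  have e1 u x : T u ⬝ᵥ x = 𝐡 x u := by
    rw [dotProduct_comm, herm_eq_dotProduct]; exact congrArg _ (funext fun i => hτ _)
  have e2 x φ : 𝐡 x (T φ) = φ ⬝ᵥ x := by
    rw [dotProduct_comm, herm_eq_dotProduct]
    exact congrArg _ (funext fun i => (congrArg (· ^ q) (hτ _)).trans (lA_pow_pow _))
  refine ⟨T, s, fun u φ e => ?_, fun i => funext fun k => by by_cases c : k = i <;> simp [c, T]⟩
  rw [inv_of_sq h.tt]
  refine h.act _ _ fun x y => ?_
  rw [tv_mulVec e, tv_mulVec (by rw [s.dot, dotProduct_comm, e, map_zero]), e1]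
  simp only [herm_add_left, herm_add_right, herm_smul_left, herm_smul_r, herm_pow, e2, e,
    dotProduct_add, dotProduct_smul, smul_zero]
  linear_combination ((φ ⬝ᵥ x) * 𝐡 u y) * CharTwo.two_eq_zero (R := F)

omit [UF F q] [CharP F 2] [Finite G] in
theorem Fl2.sy_mem (h : Fl2 ι t c θ ρ) (ho : Odd (Nat.card 𝐂[ρ.range])) [CharP F 2] {n : G} {k : ℕ}
    (h2 : n ^ 2 ^ k = 1) (hA : StdL.AcI ρ n (RingEquiv.refl F)) : n ∈ ρ.range := by
  obtain ⟨x, h3, h4⟩ := h.rp.inner hA (k := k) fun y => by rw [h2, one_mul, mul_one]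
  have h5 : Commute n (ρ x) := mul_inv_eq_iff_eq_mul.1 (by rw [h4, mul_inv_cancel_right])
  have h6 : (ρ x)⁻¹ * n ∈ 𝐂[ρ.range] := by
    rintro _ ⟨y, rfl⟩
    rw [mul_assoc, mul_inv_eq_iff_eq_mul.1 (h4 y)]
    simp [mul_assoc]
  exact ⟨x, inv_mul_eq_one.1 (StdL.eq_one_of_odd_two (k := k) (ho.of_dvd_nat (orderOf_dvd_natCard _ h6))
    (by rw [h5.symm.inv_left.mul_pow, h2, inv_pow, ← map_pow, h3]; simp))⟩

omit [Finite F] in
theorem ff_klein {τ : RingAut F} (h1 : τ * τ = 1) (hτ : ∀ a, τ a = a ^ q) {a b : RingAut F × Multiplicative (ZMod 2)}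
    (a2 : a * a = 1) (b2 : b * b = 1) (a1 : a ≠ 1) (b1 : b ≠ 1) (a3 : a ≠ (τ, .ofAdd 1)) (b3 : b ≠ (τ, .ofAdd 1))
    (e : a * b ≠ (τ, .ofAdd 1)) : a = b := by
  have k {a : RingAut F × Multiplicative (ZMod 2)} (a2 : a * a = 1) (a1 : a ≠ 1) (a3 : a ≠ (τ, .ofAdd 1)) :
      a = (τ, 1) ∨ a = (1, .ofAdd 1) := by
    obtain ⟨σ, z⟩ := a
    have := (aut_sq (q := q) (congrArg Prod.fst a2)).imp_right fun e => RingEquiv.ext fun x => (e x).trans (hτ x).symm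
    rcases this with rfl | rfl <;> rcases (by decide : ∀ z : Multiplicative (ZMod 2), z = 1 ∨ z = .ofAdd 1) z with
      rfl | rfl
    exacts [(a1 rfl).elim, .inr rfl, .inl rfl, (a3 rfl).elim]
  rcases k a2 a1 a3 with rfl | rfl <;> rcases k b2 b1 b3 with rfl | rfl
  exacts [rfl, (e (by simp)).elim, (e (by simp)).elim, rfl]

theorem Fl2.sylow (h : Fl2 ι t c θ ρ) {X : Subgroup G} [X.Normal] (hX : ⁅X, X⁆ = X)
    (hL : ι.range ≤ X) : ∃ P ≤ ρ.range, IsSyl 2 P X := by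
  classical
  obtain ⟨π, hπ⟩ := h.rp.exists_pi
  obtain ⟨τ, τ1, τ2, hτ⟩ := exists_conjAut (F := F) (q := q)
  obtain ⟨T₀, t1, t2, t3⟩ := h.ty hτ
  have hG := h.le_X hL
  let t' : 𝐍[ρ.range] := ⟨t, h.cn t rfl⟩
  have πt : π t' = (τ, .ofAdd 1) := (hπ t' τ).2.1 ⟨T₀, T₀, t1, t2⟩
  have tt : t' * t' = 1 := Subtype.ext h.tt
  have πtt : π t' * π t' = 1 := by rw [← map_mul, tt, map_one]
  have π1 : ∀ g : 𝐍[ρ.range], ∀ k : ℕ, g.1 ^ 2 ^ k = 1 → π g = 1 → g.1 ∈ ρ.range :=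
    fun g k e1 e2 => h.sy_mem h.odd_cent e1 ((hπ g _).1.2 e2)
  have π2 : ∀ g : 𝐍[ρ.range], g.1 ∈ ρ.range → π g = 1 := fun g ⟨x, e⟩ =>
    (hπ g _).1.1 (e ▸ StdL.acI_range x)
  have πc : ∀ a b : 𝐍[ρ.range], π (a * b * a⁻¹) = π b := fun a b => by
    rw [map_mul, map_mul, (pi_comm (π a) (π b)).eq, map_inv, mul_inv_cancel_right]
  obtain ⟨S, hS, h1⟩ := exists_isSyl_ge (isPGroup_zp h.tt) le_top
  have tS := h1 (mem_zpowers t)
  have h2 := h.uq.le hS.pgrp tS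
  have h3 := hS.inf_of_le (N := X) le_top (by rw [normalizer_eq_top])
  have h4 : Odd ((S ⊓ X).subgroupOf X).index :=
    Nat.not_even_iff_odd.1 fun c => h3.not_dvd_relIndex c.two_dvd
  have hp : Group.IsPerfect X := isPerfect_iff.2 hX
  have trf {x : G} (hx : x ∈ X) (x2 : x * x = 1) {a} (a2 : a * a = 1)
      (H : ∀ g, ∀ hs : g⁻¹ * x * g ∈ S ⊓ X, π ⟨_, h2 hs.1⟩ = a) : a = 1 := by
    let ι₀ : (S ⊓ X).subgroupOf X →* 𝐍[ρ.range] :=
      (X.subtype.comp ((S ⊓ X).subgroupOf X).subtype).codRestrict _ fun a => h2 a.2.1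
    let _ : CommGroup (RingAut F × Multiplicative (ZMod 2)) := { mul_comm := pi_comm }
    have x2' : (⟨x, hx⟩ : X) * ⟨x, hx⟩ = 1 := Subtype.ext x2
    have e1 := Transfer.transfer_eq_pow_of_forall (π.comp ι₀) ⟨x, hx⟩ a fun g k hk => by
      rcases Nat.even_or_odd' k with ⟨n, rfl | rfl⟩
      · simp only [pow_mul, pow_two, x2', a2, one_pow, mul_one, inv_mul_cancel]
        exact map_one (π.comp ι₀)
      · simp only [pow_succ, pow_mul, pow_zero, one_mul, x2', a2, one_pow] at hk ⊢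
        exact H g hk
    obtain ⟨n, hn⟩ := h4
    rw [hn, pow_succ, pow_mul, pow_two, a2, one_pow, one_mul] at e1
    exact e1.symm.trans (Abelianization.commutator_subset_ker _ Group.IsPerfect.mem_commutator)
  have tX : t ∉ X := fun c => τ1 (congrArg Prod.fst (πt.symm.trans (trf c h.tt πtt fun g hs =>
    (congrArg π (Subtype.ext (congrArg (_ * ·) (inv_inv g).symm))).trans (πc ⟨g⁻¹, h.uq.2.2 _ (by simpa using h2 hs.1)⟩ t'))))
  have noT : ∀ s : 𝐍[ρ.range], s.1 ∈ X → π s ≠ π t' := fun s hs e => by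
    obtain ⟨i, n, ⟨n, rfl⟩, e1⟩ := Nat.exists_eq_two_pow_mul_odd (orderOf_pos s.1).ne'
    obtain ⟨x, hx, e2⟩ := (h3.mono (le_inf le_rfl (inf_le_left.trans h2) |>.trans (inf_le_inf_right _ inf_le_right))
      inf_le_left).exists_cj_le (isPGroup_zpowers (x := s.1 ^ (2 * n + 1))
        ⟨i, by rw [← pow_mul, mul_comm, ← e1, pow_orderOf_eq_one]⟩) (zpowers_le.2 (pow_mem (mem_inf.2 ⟨hs, s.2⟩) _))
    have e3 := e2 (conj_mem_cj x (mem_zpowers _))
    obtain ⟨k, hk⟩ := isPGroup_iff.1 hS.pgrp _ (mul_mem e3.1 tS)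
    exact tX ((X.mul_mem_cancel_left e3.2).1 (hG (π1 (⟨x, hx.2⟩ * s ^ (2 * n + 1) * ⟨x, hx.2⟩⁻¹ * t') k hk (by
      rw [map_mul, πc, map_pow, e, pow_succ, pow_mul, pow_two, πtt, one_pow, one_mul, πtt]))))
  refine ⟨S ⊓ X, fun u hu => by_contra fun hu' => ?_, h3⟩
  obtain ⟨u, hu, u1, u2⟩ : ∃ u : 𝐍[ρ.range], u.1 ∈ S ⊓ X ∧ π u ≠ 1 ∧ π u * π u = 1 := by
    obtain ⟨k, hk⟩ := isPGroup_iff.1 hS.pgrp _ hu.1
    have u1 : π ⟨u, h2 hu.1⟩ ≠ 1 := fun e => hu' (π1 _ k hk e)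
    clear hu'
    induction k generalizing u with
    | zero => exact (u1 (by rw [← map_one π]; exact congrArg π (Subtype.ext (by simpa using hk)))).elim
    | succ k ih =>
      by_contra e
      exact e (ih _ (mul_mem hu hu) (by rw [← sq, ← pow_mul, ← pow_succ', hk]) fun e' =>
        e ⟨_, hu, u1, (map_mul π _ _).symm.trans e'⟩)
  have tD : t ∈ StdL.Sy.Dg ρ := fun i => .inr ⟨by
    rw [StdL.Sy.cj_of (r' := StdL.du ρ) t1 (fun u φ e => by rw [StdL.du_tv, t2 u φ e]), t3], by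
    rw [StdL.Sy.cj_of (r := StdL.du ρ) (r' := ρ) t1 (fun u φ e => by
      rw [StdL.du_tv, t2 φ u (by rwa [dotProduct_comm])]), t3]⟩
  obtain ⟨l, hl⟩ : ∃ l, ρ l * u ∈ StdL.Sy.Dg ρ := by
    have k (u : 𝐍[ρ.range]) (e : (π u).2 = .ofAdd 1) : ∃ l, ρ l * u ∈ StdL.Sy.Dg ρ := by
      obtain ⟨T, T', hT, hT'⟩ := (hπ u _).2.2 (Prod.ext rfl e)
      exact StdL.Sy.exists_Dg hT hT' ⟨0, by have := h.m6; omega⟩
    rcases (by decide : ∀ z : Multiplicative (ZMod 2), z = 1 ∨ z = .ofAdd 1) (π u).2 with e | e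
    · obtain ⟨l, hl⟩ := k (u * t') (by rw [map_mul, Prod.snd_mul, e, one_mul, πt])
      exact ⟨l, (mul_mem_cancel_right tD).1 (by rwa [mul_assoc])⟩
    · exact k u e
  let v : 𝐍[ρ.range] := ⟨ρ l, le_normalizer ⟨l, rfl⟩⟩ * u
  have πv : π v = π u := by rw [map_mul, π2 _ ⟨l, rfl⟩, one_mul]
  let R : Subgroup 𝐍[ρ.range] :=
    { carrier := {a | a.1 ∈ StdL.Sy.Dg ρ ∧ π a * π a = 1 ∧ (a.1 ∈ X ∨ a.1 * t ∈ X)}
      one_mem' := ⟨one_mem _, by rw [map_one, mul_one], .inl (one_mem _)⟩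
      mul_mem' := fun {a b} ha hb => ⟨mul_mem ha.1 hb.1, by
        rw [map_mul, (pi_comm _ _).mul_mul_mul_comm, ha.2.1, hb.2.1, mul_one], by
        have n : ∀ x : G, x * t ∈ X → t * x ∈ X := fun x e => Normal.mem_comm inferInstance e
        rcases ha.2.2 with a1 | a1 <;> rcases hb.2.2 with b1 | b1
        · exact .inl (mul_mem a1 b1)
        · exact .inr ((mul_assoc a.1 b.1 t).symm ▸ mul_mem a1 b1)
        · exact .inr (Normal.mem_comm inferInstance (mul_assoc t a.1 b.1 ▸ mul_mem (n _ a1) b1))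
        · refine .inl ?_
          have := mul_mem a1 (n _ b1)
          rwa [mul_assoc, ← mul_assoc t, h.tt, one_mul] at this⟩
      inv_mem' := fun {a} ha => ⟨inv_mem ha.1, by
        rw [map_inv, ← _root_.mul_inv_rev, ha.2.1, inv_one], ha.2.2.imp inv_mem fun e => by
          have := inv_mem e
          rw [_root_.mul_inv_rev, inv_of_sq h.tt] at this
          exact Normal.mem_comm inferInstance this⟩ }
  have tR : t' ∈ R := ⟨tD, πtt, .inr (h.tt ▸ one_mem _)⟩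
  have vR : v ∈ R := ⟨hl, πv ▸ u2, .inl (mul_mem (hG ⟨l, rfl⟩) hu.2)⟩
  obtain ⟨P, hP, p1⟩ := exists_isSyl_ge (isPGroup_zp tt) (zpowers_le.2 tR)
  have p2 : ∀ a ∈ P, π a = 1 → a = 1 := fun a ha e => by
    obtain ⟨k, hk⟩ := isPGroup_iff.1 hP.pgrp a ha
    obtain ⟨x, hx⟩ := π1 a k (congrArg Subtype.val hk) e
    obtain ⟨y, y1, y2⟩ := h.rp.lift (x := x) (k := k) (hx ▸ congrArg Subtype.val hk)
    have := StdL.Sy.eq_one_of_Dg h.rp y2 (by rw [y1, hx]; exact (hP.le ha).1)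
    exact Subtype.ext (by rw [← hx, ← y1, this, map_one]; rfl)
  obtain ⟨w, w1, w2⟩ := (hP.map π).max _ (pgrp_of_sq (by rintro _ ⟨a, ha, rfl⟩; exact ha.2.1))
    (map_mono hP.le) le_rfl ⟨v, vR, rfl⟩
  rw [πv] at w2
  have w3 : w.1 ∈ X := (hP.le w1).2.2.resolve_right fun c =>
    noT (u * (w * t')) (mul_mem hu.2 c) (by rw [map_mul, map_mul, w2, ← mul_assoc, u2, one_mul])
  have w4 : w * w = 1 := p2 _ (mul_mem w1 w1) (by rw [map_mul]; exact (hP.le w1).2.1)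
  have w5 : t' * w * t'⁻¹ * w⁻¹ = 1 := p2 _ (mul_mem (mul_mem (mul_mem (p1 (mem_zpowers _)) w1)
    (inv_mem (p1 (mem_zpowers _)))) (inv_mem w1)) (by rw [map_mul, πc, map_inv, mul_inv_cancel])
  have w4' : (w : G) * w = 1 := congrArg Subtype.val w4
  have w5' : t * w * t⁻¹ * (w : G)⁻¹ = 1 := congrArg Subtype.val w5
  refine u1 (trf w3 w4' u2 fun g hs => ?_)
  have s2 : g⁻¹ * w * g * (g⁻¹ * w * g) = 1 := by simpa using sq_conj w4' g⁻¹
  refine ff_klein τ2 hτ ((map_mul π _ _).symm.trans ((congrArg π (Subtype.ext s2)).trans (map_one π))) u2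
    (fun e => ?_) u1 (πt ▸ noT _ hs.2) (πt ▸ noT _ hu.2) (by rw [← map_mul, ← πt]; exact noT _ (mul_mem hs.2 hu.2))
  obtain ⟨y, hy⟩ := π1 _ 1 (by rw [pow_one, pow_two]; exact s2) e
  replace hy : ρ y = g⁻¹ * w * g⁻¹⁻¹ := by rw [hy, inv_inv]
  obtain ⟨y, y1, y2⟩ := h.rp.lift_sq (x := y) (hy ▸ sq_conj w4' _)
  obtain ⟨y₀, y3⟩ := exists_uni (q := q) y2
  obtain ⟨k, rfl⟩ := isConj_iff.1 y3
  obtain ⟨n, hn, e⟩ := h.uq.fus (h.uq.conj (le_normalizer ⟨k, rfl⟩)) (v := w.1) (g := g⁻¹)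
    (mul_inv_eq_iff_eq_mul.1 (mul_inv_eq_one.1 w5')) (by
      rw [← hy, ← y1, map_mul, map_mul, map_inv, conj_mul, conj_mul, h.ext, h.tc])
  exact u1 (by rw [← w2, ← πc ⟨n, hn⟩, π2 _ ⟨_, (y1.trans hy).trans e.symm⟩])

end Cfsg.Agent.StdU
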