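import Cfsg.Agent.StdU.Bas

/-! The doubled groups. `yy_real`: `yy u (a u) = yy u (a^q u)` (`lin`, symmetry) and
`yy u (b b^q u) = yy (b u) (b u) = 1`. `c_eq`: `c (ω^q v) = c (ω v)` by `nm1`. `Vh_fix`, `mem_Vh`: `cent_Fx`
(`cent_c`), `k = o` or `o t` with `o` of odd order (`nsq`) commuting with everything (`cO`); square. For `mem_Vh`
pick `y' ∈ Vh W` with the same translation (`Vh_sur`), `n = y y' ∈ C(t)`, `y = ι g' k y'`, `1 = y² = o² ⁅t, y'⁆^ε`.
`card_Vh`: `y ↦ y t y t` is a homomorphism of `Vh W` onto `ι VW` with kernel `ι VW`. `mem_Vh_sup`: the right sides form a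
subgroup containing the generators (`c (a v + w) = c (a v) c w yy v (a^q w)`, `c (a v) = yy v (ω a a^q v)`,
`mem_VW_sup`); uniqueness: translate `t`, `VW_sup_uniq` twice. `Vh_of_cent`: the translation `g ∈ VW W` of `y`
lies in `VW U` (`VW_of_cent`, `Rp.comm`); divide by an element of `Vh U` with the same translation, `Vh_fix`,
`VW_of_cent` again. `cj_Vh`: `mem_Vh` for `n c v n⁻¹` and the point `γ v`, orders. `mem_gen`: `exists_ind` with
`n = 1` gives `r g = ι g'` for `Rel γ g g'`; `mem_Vh` for the point `γ v`. -/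

set_option autoImplicit false
set_option linter.unusedSectionVars false
set_option linter.unusedVariables false
set_option linter.unusedSimpArgs false

namespace Cfsg.Agent.StdU

open Subgroup Cfsg.Agent.Class.U Cfsg.Agent.KSG Cfsg.Agent.PLocal.Amb
open Cfsg.Agent.StdL (El Od Uq cjh)
open scoped commutatorElement

variable {F : Type*} [Field F] {m q : ℕ} [UF F q] [CharP F 2]
  {G : Type*} [Group G] [Finite G] {ι r : SU m F q →* G} {t : G} {c : (Fin m → F) → G}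

local notation "𝐡" => hermForm m F q

variable {u v w x f : Fin m → F} {a b : F} {U W W' X : Submodule F (Fin m → F)} {g : SU m F q} {y n : G}
  {s : F ≃+* F} {γ : Equiv.Perm (Fin m → F)}

theorem hat_mm {A : Subgroup G} (hA : El A) {a b c d : G} (hb : b ∈ A) (hc : c ∈ A) :
    a * b * (c * d) = a * c * (b * d) := Commute.mul_mul_mul_comm (hA.comm hb hc) a d

theorem hat_el {X : Set G} (h1 : ∀ x ∈ X, x * x = 1) (h2 : ∀ x ∈ X, ∀ y ∈ X, x * y = y * x) :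
    El (closure X) := by
  have h3 : ∀ x ∈ closure X, ∀ y ∈ closure X, x * y = y * x := fun x hx y hy => by
    induction hx, hy using closure_induction₂ with
    | mem x y hx hy => exact h2 x hx y hy
    | one_left => simp
    | one_right => simp
    | mul_left _ _ _ _ _ _ a b => exact Commute.mul_left a b
    | mul_right _ _ _ _ _ _ a b => exact Commute.mul_right a b
    | inv_left _ _ _ _ a => exact Commute.inv_left a
    | inv_right _ _ _ _ a => exact Commute.inv_right a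
  intro x hx
  induction hx using closure_induction with
  | mem x hx => exact h1 x hx
  | one => simp
  | mul x y hx hy a b => rw [Commute.mul_mul_mul_comm (h3 y hy x hx), a, b, one_mul]
  | inv x _ a => rw [← mul_inv_rev, a, inv_one]

theorem hat_Vh_eq : Vh ι c W = closure (ι '' VW q W ∪ c '' W) := by
  rw [Subgroup.closure_union, ← coe_map, closure_eq, Vh]

theorem hat_l : u ∈ Submodule.span F {u, w} := Submodule.subset_span (by simp)

theorem hat_r : w ∈ Submodule.span F {u, w} := Submodule.subset_span (by simp)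

theorem hat_ti (hv : 𝐡 v v = 0) : TI q (Submodule.span F {v}) :=
  ti_span (by rintro _ rfl _ rfl; exact hv)

theorem hat_comm (hW : TI q W) {k : SU m F q} (hk : k ∈ VW q W) (hg : ∀ v ∈ W, g • v = v) :
    g * k = k * g := by
  rw [VW_eq_closure hW] at hk
  refine (closure_le (centralizer {g})).2 ?_ hk g rfl
  rintro _ ⟨v, hv, rfl⟩ _ rfl
  exact comm_T (hW v hv v hv) (one_pow q) (hg v hv)

theorem hat_fix (hW : TI q W) (hg : g ∈ VW q W) : ∀ v ∈ W, g • v = v := fun _ hv => hg _ (hW.le_perp hv)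

theorem Fam.cen (h : Fam ι t c) (hv : 𝐡 v v = 0) (hg : g • v = v) : ι g * c v = c v * ι g := by
  rw [← mul_inv_eq_iff_eq_mul, h.eqv g v hv, hg]

theorem c_mem_Vh (hv : v ∈ W) : c v ∈ Vh ι c W := mem_sup_right (subset_closure ⟨v, hv, rfl⟩)

theorem yy_mem_Vh (hu : u ∈ W) (hw : w ∈ W) : yy c u w ∈ Vh ι c W :=
  mul_mem (mul_mem (c_mem_Vh (add_mem hu hw)) (c_mem_Vh hu)) (c_mem_Vh hw)

theorem map_mem_Vh (hg : g ∈ VW q W) : ι g ∈ Vh ι c W := mem_sup_left ⟨g, hg, rfl⟩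

theorem xh_mem_Vh (e : O2 q u w) (hu : u ∈ W) (hw : w ∈ W) : xh ι c u w a b ∈ Vh ι c W :=
  mul_mem (map_mem_Vh (S_mem_VW (by simpa using e.smul 1 a) hu (W.smul_mem a hw)))
    (yy_mem_Vh hu (W.smul_mem b hw))

theorem Vh_mono (e : U ≤ W) : Vh ι c U ≤ Vh ι c W := sup_le_sup (map_mono (VW_mono e)) (closure_mono (Set.image_mono e))

theorem Fam.el_Vh (h : Fam ι t c) (hW : TI q W) : El (Vh ι c W) := by
  rw [hat_Vh_eq]
  refine hat_el ?_ ?_
  · rintro _ (⟨g, hg, rfl⟩ | ⟨v, hv, rfl⟩)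
    · rw [← map_mul, hW.el g hg, map_one]
    · exact h.sq v (hW v hv v hv)
  · rintro _ (⟨g, hg, rfl⟩ | ⟨v, hv, rfl⟩) _ (⟨k, hk, rfl⟩ | ⟨w, hw, rfl⟩)
    · rw [← map_mul, hW.el.comm hg hk, map_mul]
    · exact h.cen (hW w hw w hw) (hat_fix hW hg w hw)
    · exact (h.cen (hW v hv v hv) (hat_fix hW hk v hv)).symm
    · exact h.com v w (hW.o2 hv hw)

theorem Fam.hat_ind (h : Fam ι t c) (hW : TI q W) {P : G → Prop}
    (hm : ∀ x ∈ Vh ι c W, ∀ y ∈ Vh ι c W, P x → P y → P (x * y)) (h1 : ∀ g ∈ VW q W, P (ι g))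
    (h2 : ∀ v ∈ W, P (c v)) (hy : y ∈ Vh ι c W) : P y := by
  have e := h.el_Vh hW
  rw [hat_Vh_eq] at hy hm e
  induction hy using closure_induction with
  | mem x hx =>
    rcases hx with ⟨g, hg, rfl⟩ | ⟨v, hv, rfl⟩
    exacts [h1 g hg, h2 v hv]
  | one => simpa using h1 1 (one_mem _)
  | mul x y hx hy a b => exact hm x hx y hy a b
  | inv x hx a => rwa [inv_eq_of_mul_eq_one_right (e x hx)]

theorem Fam.hat_tr (h : Fam ι t c) (hW : TI q W) {y' : G} {g' : SU m F q} (hy : y ∈ Vh ι c W)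
    (hy' : y' ∈ Vh ι c W) (hg' : g' ∈ VW q W) (e : y * t * y = t * ι g) (e' : y' * t * y' = t * ι g') :
    y * y' * t * (y * y') = t * ι (g * g') := by
  have A := h.el_Vh hW
  rw [show y * y' * t * (y * y') = y * (y' * t * (y * y')) by group, A.comm hy hy', ← mul_assoc (y' * t),
    e', mul_assoc t, A.comm (map_mem_Vh hg') hy, ← mul_assoc, ← mul_assoc, e, map_mul, mul_assoc]

theorem Fam.hat_tr1 (h : Fam ι t c) (hg : g * g = 1) : ι g * t * ι g = t * ι 1 := by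
  rw [← h.tc, mul_assoc, ← map_mul, hg]

theorem yy_symm (h : Fam ι t c) (e : O2 q u w) : yy c u w = yy c w u := by
  rw [yy, yy, add_comm, mul_assoc, h.com u w e, mul_assoc]

theorem Fam.yy_sq (h : Fam ι t c) (e : O2 q u w) : yy c u w * yy c u w = 1 := h.el_Vh e.ti _ (yy_mem_Vh hat_l hat_r)

theorem Fam.yy_eqv (h : Fam ι t c) (e : O2 q u w) (g : SU m F q) :
    ι g * yy c u w * (ι g)⁻¹ = yy c (g • u) (g • w) := by
  rw [yy, yy, ← smul_add, ← h.eqv g _ e.l, ← h.eqv g _ e.r, ← h.eqv g _ (by simpa using e.iso 1 1)]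
  group

theorem Fam.yy_cen (h : Fam ι t c) (e : O2 q u w) (h1 : g • u = u) (h2 : g • w = w) :
    ι g * yy c u w = yy c u w * ι g := by
  rw [← mul_inv_eq_iff_eq_mul, h.yy_eqv e, h1, h2]

theorem Fam.yy_tr (h : Fam ι t c) (e : O2 q u w) : yy c u w * t * yy c u w = t * ι (S q u w) := by
  have h1 := h.hat_tr e.ti (c_mem_Vh (add_mem hat_l hat_r)) (c_mem_Vh hat_l)
    (T_mem_VW e.l (one_pow q) hat_l) (h.tr _ (by simpa using e.iso 1 1)) (h.tr _ e.l)
  have h2 := h.hat_tr e.ti (mul_mem (c_mem_Vh (add_mem hat_l hat_r)) (c_mem_Vh hat_l)) (c_mem_Vh hat_r)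
    (T_mem_VW e.r (one_pow q) hat_r) h1 (h.tr _ e.r)
  have a := mul_mem (T_mem_VW e.l (one_pow q) hat_l) (T_mem_VW e.r (one_pow q) (hat_r (u := u)))
  rw [yy, h2, T_add_vec e, mul_assoc _ (T q u 1), e.ti.el.comm a (S_mem_VW e hat_l hat_r), mul_assoc,
    e.ti.el _ a, mul_one]

theorem Fam.yy_zero (h : Fam ι t c) (hu : 𝐡 u u = 0) : yy c u 0 = 1 := by
  rw [yy, add_zero, h.sq u hu, h.c0, one_mul]

theorem Fam.yy_add_left (h : Fam ι t c) (e : O2 q u v) (e' : O2 q u w) (e'' : O2 q v w) :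
    yy c (u + v) w = yy c u w * yy c v w := by
  rw [← yy_symm h (e'.symm.add e''.symm e), h.add _ _ _ e'.symm e''.symm e, yy_symm h e', yy_symm h e'']

theorem Fam.yy_real (h : Fam ι t c) (hu : 𝐡 u u = 0) (ha : a ^ q = a) : yy c u (a • u) = 1 := by
  obtain ⟨b, rfl⟩ := exists_norm ha
  have o := (O2.self hu).smul b b
  rw [mul_comm, mul_smul, ← h.lin u _ b (by simpa using (O2.self hu).smul 1 b), yy, lA_add_self, h.c0,
    one_mul, h.sq _ o.l]

theorem Fam.hat_om (h : Fam ι t c) (hv : 𝐡 v v = 0) {ω : F} (hω : ω + ω ^ q = 1) :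
    c (ω ^ q • v) = c (ω • v) := by
  have h0 : ω ≠ 0 := fun e => by simp [e, lA_zero_pow] at hω
  have h1 := lA_pow_ne (q := q) h0
  rw [← h.nm1 _ (ω ^ q / ω) ((O2.self hv).smul ω ω).l (by rw [div_pow, lA_pow_pow]; field_simp),
    smul_smul, div_mul_cancel₀ _ h0]

theorem Fam.c_eq (h : Fam ι t c) (hv : 𝐡 v v = 0) {ω : F} (hω : ω + ω ^ q = 1) :
    c v = yy c v (ω • v) := by
  have e : v + ω • v = ω ^ q • v := by
    rw [show ω ^ q = 1 + ω by grind, add_smul, one_smul]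
  have o : O2 q (ω • v) v := by simpa using (O2.self hv).smul ω 1
  rw [yy, e, h.hat_om hv hω, h.com _ _ o, mul_assoc, h.sq _ o.l, mul_one]

theorem Fam.c_add (h : Fam ι t c) (e : O2 q u w) : c (u + w) = c u * c w * yy c u w := by
  have A := h.el_Vh e.ti
  have a : c u * c w ∈ Vh ι c (Submodule.span F {u, w}) := mul_mem (c_mem_Vh hat_l) (c_mem_Vh hat_r)
  rw [yy, mul_assoc (c (u + w)), A.comm (c_mem_Vh (add_mem hat_l hat_r)) a, ← mul_assoc, A _ a, one_mul]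

theorem Fam.c_five (h : Fam ι t c) (e : O2 q u w) {ω : F} (hω : ω + ω ^ q = 1) :
    c u * c w * c (u + w) * c (u + ω • w) * c (u + ω ^ q • w) = 1 := by
  have A := h.el_Vh e.ti
  have o : ∀ a : F, O2 q u (a • w) := fun a => by simpa using e.smul 1 a
  have m1 : ∀ a : F, a • w ∈ Submodule.span F {u, w} := fun a => Submodule.smul_mem _ a hat_r
  have e1 : c u * c w * c (u + w) = yy c u w := by
    rw [h.c_add e, ← mul_assoc, A _ (mul_mem (c_mem_Vh hat_l) (c_mem_Vh hat_r)), one_mul]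
  rw [e1, mul_assoc, h.c_add (o ω), h.c_add (o (ω ^ q)), h.hat_om e.r hω,
    hat_mm A (yy_mem_Vh hat_l (m1 ω)) (mul_mem (c_mem_Vh hat_l) (c_mem_Vh (m1 ω))),
    A _ (mul_mem (c_mem_Vh hat_l) (c_mem_Vh (m1 ω))), one_mul,
    ← h.add _ _ _ (o _) (o _) ((O2.self e.r).smul _ _), ← add_smul, hω, one_smul, h.yy_sq e]

theorem Fam.Vh_cen (h : Fam ι t c) (hW : TI q W) (hy : y ∈ Vh ι c W) (hg : ∀ v ∈ W, g • v = v) :
    ι g * y = y * ι g :=
  h.hat_ind hW (P := fun y => ι g * y = y * ι g) (fun _ _ _ _ a b => Commute.mul_right a b)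
    (fun k hk => by rw [← map_mul, hat_comm hW hk hg, map_mul])
    (fun v hv => h.cen (hW v hv v hv) (hg v hv)) hy

theorem Fam.Vh_cO (h : Fam ι t c) (hW : TI q W) (hy : y ∈ Vh ι c W) {k : G} (hk : k ∈ K0 ι t)
    (ho : Odd (orderOf k)) : y * k = k * y :=
  h.hat_ind hW (P := fun y => y * k = k * y) (fun _ _ _ _ a b => Commute.mul_left a b)
    (fun g _ => ((mem_K0.1 hk).2 g).symm) (fun v hv => h.cO v (hW v hv v hv) k hk ho) hy

theorem Fam.Vh_tr (h : Fam ι t c) (hW : TI q W) (hy : y ∈ Vh ι c W) :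
    ∃ g ∈ VW q W, y * t * y = t * ι g :=
  h.hat_ind hW (P := fun y => ∃ g ∈ VW q W, y * t * y = t * ι g)
    (fun _ hx _ hy ⟨_, a, a'⟩ ⟨_, b, b'⟩ => ⟨_, mul_mem a b, h.hat_tr hW hx hy b a' b'⟩)
    (fun g hg => ⟨1, one_mem _, h.hat_tr1 (hW.el g hg)⟩)
    (fun v hv => ⟨_, T_mem_VW (hW v hv v hv) (one_pow q) hv, h.tr v (hW v hv v hv)⟩) hy

theorem Fam.Vh_sur (h : Fam ι t c) (hW : TI q W) (hg : g ∈ VW q W) :
    ∃ y ∈ Vh ι c W, y * t * y = t * ι g := by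
  have e := VW_eq_closure hW
  rw [e] at hg
  induction hg using closure_induction with
  | mem x hx =>
    obtain ⟨v, hv, rfl⟩ := hx
    exact ⟨_, c_mem_Vh hv, h.tr v (hW v hv v hv)⟩
  | one => exact ⟨1, one_mem _, by simp⟩
  | mul x y _ hy a b =>
    obtain ⟨_, a, a'⟩ := a
    obtain ⟨_, b, b'⟩ := b
    exact ⟨_, mul_mem a b, h.hat_tr hW a b (e ▸ hy) a' b'⟩
  | inv x hx a => rwa [inv_eq_of_mul_eq_one_right (hW.el x (e ▸ hx))]

theorem Fam.hat_ne (h : Fam ι t c) (hv : 𝐡 v v = 0) (h0 : v ≠ 0) (ha : a ^ q = a) (ha0 : a ≠ 0)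
    (h2 : y * y = 1) (e : y * t * y = t * ι (T q v a)) : y * t ≠ t * y := fun e1 => by
  rw [e1, mul_assoc, h2, mul_right_inj, ← map_one ι] at e
  exact T_ne_one hv h0 ha ha0 (h.eq_of_sq (mul_one 1) (T_sq hv ha) e).symm

theorem Fam.hat_bot (h : Fam ι t c) : Vh ι c (⊥ : Submodule F (Fin m → F)) = ⊥ := by
  rw [Vh, VW_bot, Subgroup.map_bot, bot_sup_eq, closure_eq_bot_iff]
  rintro _ ⟨v, hv, rfl⟩
  rw [(Submodule.mem_bot F).1 hv, h.c0]
  rfl

theorem Fam.Vh_fix (h : Fam ι t c) (hW : TI q W) (hy : y ∈ Vh ι c W) (e : y * t = t * y) :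
    y ∈ (VW q W).map ι := by
  rcases eq_or_ne W ⊥ with rfl | h0
  · rw [h.hat_bot] at hy
    exact bot_le (a := (VW q ⊥).map ι) hy
  obtain ⟨g, hg, k, hk, rfl⟩ := h.cent_Fx hW h0 e fun g hg => (h.Vh_cen hW hy hg).symm
  have h1 := (mul_mem_cancel_left (map_mem_Vh hg)).1 hy
  rcases h.inv hk (h.el_Vh hW k h1) with rfl | rfl
  · exact ⟨g, hg, (mul_one _).symm⟩
  · obtain ⟨v, hv, v0⟩ := (Submodule.ne_bot_iff W).1 h0
    have := hW v hv v hv
    exact absurd ((h.el_Vh hW).comm (c_mem_Vh hv) h1)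
      (h.hat_ne this v0 (one_pow q) one_ne_zero (h.sq v this) (h.tr v this))

theorem Fam.norm_t (h : Fam ι t c) (hW : TI q W) : t ∈ 𝐍[Vh ι c W] := by
  refine mem_normalizer_of_cj_le (cj_le_iff_forall.2 fun y hy => ?_)
  obtain ⟨g, hg, e⟩ := h.Vh_tr hW hy
  have : t * y * t⁻¹ = ι g * y := by
    rw [inv_eq_of_mul_eq_one_right h.tt, show t * y * t = t * (y * t * y) * y⁻¹ by group, e,
      ← mul_assoc, h.tt, one_mul, inv_eq_of_mul_eq_one_right (h.el_Vh hW y hy)]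
  rw [this]
  exact mul_mem (map_mem_Vh hg) hy

theorem Fam.card_Vh (h : Fam ι t c) (hW : TI q W) :
    Nat.card (Vh ι c W) = q ^ (2 * Module.finrank F W ^ 2) := by
  have key : ∀ {y g}, y * t * y = t * ι g → t * (y * t * y) = ι g := fun e => by
    rw [e, ← mul_assoc, h.tt, one_mul]
  let φ : Vh ι c W →* G := MonoidHom.mk' (fun y => t * (y * t * y)) fun x y => by
    obtain ⟨g, hg, e⟩ := h.Vh_tr hW x.2
    obtain ⟨k, hk, e'⟩ := h.Vh_tr hW y.2
    simp only [coe_mul]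
    rw [key e, key e', key (h.hat_tr hW x.2 y.2 hk e e'), map_mul]
  have h1 : φ.range = (VW q W).map ι := by
    ext z
    constructor
    · rintro ⟨y, rfl⟩
      obtain ⟨g, hg, e⟩ := h.Vh_tr hW y.2
      exact ⟨g, hg, (key e).symm⟩
    · rintro ⟨g, hg, rfl⟩
      obtain ⟨y, hy, e⟩ := h.Vh_sur hW hg
      exact ⟨⟨y, hy⟩, key e⟩
  have h2 : φ.ker = ((VW q W).map ι).subgroupOf (Vh ι c W) := by
    ext y
    constructor
    · intro e
      have e : t * (y * t * y) = 1 := e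
      refine h.Vh_fix hW y.2 ?_
      rw [← mul_assoc, mul_eq_one_iff_eq_inv, inv_eq_of_mul_eq_one_right (h.el_Vh hW y y.2)] at e
      change (y : G) * t = t * y
      nth_rewrite 2 [← e]
      rw [← mul_assoc, h.tt, one_mul]
    · rintro ⟨g, hg, e⟩
      change t * (y * t * y) = 1
      rw [← show ι g = y from e, key (h.hat_tr1 (hW.el g hg)), map_one]
  rw [← φ.ker.card_mul_index, index_ker, h1, h2,
    Nat.card_congr (subgroupOfEquivOfLe (H := (VW q W).map ι) (K := Vh ι c W) le_sup_left).toEquiv, h.card_VW hW, two_mul,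
    pow_add]

theorem Fam.le_of_Vh_le (h : Fam ι t c) (hU : TI q U) (hW : TI q W) (e : Vh ι c U ≤ Vh ι c W) :
    U ≤ W := by
  refine le_of_VW_le hU fun g hg => ?_
  obtain ⟨y, hy, e1⟩ := h.Vh_sur hU hg
  obtain ⟨k, hk, e2⟩ := h.Vh_tr hW (e hy)
  rwa [h.eq_of_sq (hU.el g hg) (hW.el k hk) (mul_left_cancel (e1.symm.trans e2))]

theorem Fam.hat_core (h : Fam ι t c) (hW : TI q W) (h2 : y * y = 1)
    (hc : ∀ k ∈ VW q W, y * ι k = ι k * y) (hg : g ∈ VW q W) (e : y * t * y = t * ι g)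
    (dec : ∀ y' ∈ Vh ι c W, y * y' * t = t * (y * y') → ∃ g' ∈ VW q W, ∃ k ∈ K0 ι t, y * y' = ι g' * k) :
    y ∈ Vh ι c W ∨ y * t ∈ (VW q W).map ι := by
  have A := h.el_Vh hW
  obtain ⟨y', hy', e'⟩ := h.Vh_sur hW hg
  have y2 := A y' hy'
  have g2 := A _ (map_mem_Vh hg)
  obtain ⟨g', hg', k, hk, e1⟩ := dec y' hy' (by
    have : y * y' * t * (y' * y) = t := by
      rw [show y * y' * t * (y' * y) = y * (y' * t * y') * y by group, e', ← mul_assoc y, mul_assoc _ (ι g),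
        ← hc g hg, ← mul_assoc, e, mul_assoc, g2, mul_one]
    nth_rewrite 2 [← this]
    rw [mul_assoc (y * y' * t), mul_assoc y' y, ← mul_assoc y y, h2, one_mul, y2, mul_one])
  have e2 : y = ι g' * k * y' := by rw [← e1, mul_assoc, y2, mul_one]
  have odd : ∀ o : G, Odd (orderOf o) → o ^ 2 ^ 2 = 1 → o = 1 := fun o ho h4 =>
    eq_one_of_isPGroup_of_coprime (p := 2) (isPGroup_zpowers ⟨2, h4⟩) (mem_zpowers o)
      (Nat.coprime_two_right.2 ho)
  have m1 := mul_mem (map_mem_Vh (c := c) hg') hy'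
  rcases h.nsq k hk with ho | ho
  · have c1 : Commute (ι g' * y') k := h.Vh_cO hW m1 hk ho
    rw [mul_assoc, ← h.Vh_cO hW hy' hk ho, ← mul_assoc] at e2
    rw [e2, ← pow_two, c1.mul_pow, pow_two, A _ m1, one_mul] at h2
    rw [e2, odd k ho (by rw [show 2 ^ 2 = 2 * 2 from rfl, pow_mul, h2, one_pow]), mul_one]
    exact Or.inl m1
  · have hk' := mul_mem hk h.t_mem
    obtain ⟨o, rfl⟩ : ∃ o, k = o * t := ⟨k * t, by rw [mul_assoc, h.tt, mul_one]⟩
    rw [mul_assoc, h.tt, mul_one] at ho hk'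
    have c0 : Commute t o := (mem_K0.1 hk').1.symm
    have c1 : Commute (ι g') o := ((mem_K0.1 hk').2 g').symm
    have c2 : Commute y' o := h.Vh_cO hW hy' hk' ho
    have c3 : Commute (ι g') (t * y') := Commute.mul_right (h.tc g').symm (A.comm (map_mem_Vh hg') hy')
    have e3 : y = ι g' * (t * y') * o := by
      rw [e2, mul_assoc, mul_assoc o, ← (c0.mul_left c2).eq, ← mul_assoc (ι g')]
    rw [e3, ← pow_two, (c1.mul_left (c0.mul_left c2)).mul_pow, c3.mul_pow, pow_two, A _ (map_mem_Vh hg'), one_mul,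
      pow_two, show t * y' * (t * y') = t * (y' * t * y') by group, e', ← mul_assoc, h.tt, one_mul] at h2
    have e4 := eq_inv_of_mul_eq_one_right h2
    obtain rfl := odd o ho (by
      rw [show 2 ^ 2 = 2 * 2 from rfl, pow_mul, e4, pow_two, ← mul_inv_rev, g2, inv_one])
    rw [one_pow, mul_one] at h2
    rw [h2, mul_one, ← eq_mul_inv_iff_mul_eq, inv_eq_of_mul_eq_one_right y2] at e'
    right
    rw [e3, mul_one, mul_assoc, mul_assoc, e', ← mul_assoc t, h.tt, one_mul]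
    exact mul_mem ⟨g', hg', rfl⟩ (h.Vh_fix hW hy' e')

theorem Fam.mem_Vh (h : Fam ι t c) (hW : TI q W) (h0 : W ≠ ⊥) (h2 : y * y = 1)
    (hc : ∀ k ∈ Fx q (W : Set (Fin m → F)), y * ι k = ι k * y) (hg : g ∈ VW q W)
    (e : y * t * y = t * ι g) : y ∈ Vh ι c W ∨ y * t ∈ (VW q W).map ι :=
  h.hat_core hW h2 (fun k hk => hc k (hat_fix hW hk)) hg e fun y' hy' e' =>
    h.cent_Fx hW h0 e' fun k hk => Commute.mul_left (hc k hk) (h.Vh_cen hW hy' hk).symm

theorem Fam.mem_Vh_c (h : Fam ι t c) (hW : MTI q W) (hf : 𝐡 f f = 0) (hf' : f ∉ W) (h2 : y * y = 1)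
    (hc : ∀ k ∈ VW q W, y * ι k = ι k * y)
    (hc' : ∀ k ∈ Fx q (insert f (W : Set (Fin m → F))), y * ι k = ι k * y) (hg : g ∈ VW q W)
    (e : y * t * y = t * ι g) : y ∈ Vh ι c W ∨ y * t ∈ (VW q W).map ι :=
  h.hat_core hW.1 h2 hc hg e fun y' hy' e' => h.cent_c hW hf hf' e'
    (fun k hk => Commute.mul_left (hc k hk) (h.Vh_cen hW.1 hy' (hat_fix hW.1 hk)).symm)
    fun k hk => Commute.mul_left (hc' k hk)
      (h.Vh_cen hW.1 hy' fun v hv => hk v (Set.mem_insert_of_mem _ hv)).symm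

theorem Fam.hat_xh (h : Fam ι t c) (hW : TI q W) (hv : v ∈ W) (hw : w ∈ W) {w' : Fin m → F}
    (hw' : w' ∈ W) : xh ι c v v a b * ι (S q v w) * yy c v w' =
      ι (S q v (a • v + w)) * yy c v (b • v + w') := by
  have ha := W.smul_mem a hv
  have hb := W.smul_mem b hv
  rw [xh, mul_assoc, hat_mm (h.el_Vh hW) (yy_mem_Vh hv hb) (map_mem_Vh (S_mem_VW (hW.o2 hv hw) hv hw)),
    S_add (hW.o2 hv ha) (hW.o2 hv hw) (hW.o2 ha hw), map_mul,
    h.add _ _ _ (hW.o2 hv hb) (hW.o2 hv hw') (hW.o2 hb hw')]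

theorem Fam.mem_Vh_sup (h : Fam ι t c) (hW : TI q (W ⊔ Submodule.span F {v})) :
    y ∈ Vh ι c (W ⊔ Submodule.span F {v}) ↔ ∃ a b : F, ∃ w ∈ W, ∃ w' ∈ W, ∃ y₀ ∈ Vh ι c W,
      y = xh ι c v v a b * ι (S q v w) * yy c v w' * y₀ := by
  have A := h.el_Vh hW
  have hv : v ∈ W ⊔ Submodule.span F {v} := lV_mem_v
  have mS : ∀ {z}, z ∈ W ⊔ Submodule.span F {v} → ι (S q v z) ∈ Vh ι c (W ⊔ Submodule.span F {v}) :=
    fun hz => map_mem_Vh (S_mem_VW (hW.o2 hv hz) hv hz)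
  have v0 := hW v hv v hv
  have le : W ≤ W ⊔ Submodule.span F {v} := le_sup_left
  constructor
  · intro hy
    obtain ⟨ω, hω⟩ := exists_om (F := F) (q := q)
    suffices key : ∃ z ∈ W ⊔ Submodule.span F {v}, ∃ z' ∈ W ⊔ Submodule.span F {v}, ∃ y₀ ∈ Vh ι c W,
        y = ι (S q v z) * yy c v z' * y₀ by
      obtain ⟨z, hz, z', hz', y₀, h0, rfl⟩ := key
      obtain ⟨w, hw, _, h1, rfl⟩ := Submodule.mem_sup.1 hz
      obtain ⟨a, rfl⟩ := Submodule.mem_span_singleton.1 h1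
      obtain ⟨w', hw', _, h1, rfl⟩ := Submodule.mem_sup.1 hz'
      obtain ⟨b, rfl⟩ := Submodule.mem_span_singleton.1 h1
      exact ⟨a, b, w, hw, w', hw', y₀, h0, by rw [h.hat_xh hW hv (le hw) (le hw'), add_comm w, add_comm w']⟩
    refine h.hat_ind hW (P := fun y =>
      ∃ z ∈ W ⊔ Submodule.span F {v}, ∃ z' ∈ W ⊔ Submodule.span F {v}, ∃ y₀ ∈ Vh ι c W,
        y = ι (S q v z) * yy c v z' * y₀) ?_ ?_ ?_ hy
    · rintro _ - _ - ⟨z, hz, z', hz', y₀, h0, rfl⟩ ⟨x, hx, x', hx', y₁, h1, rfl⟩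
      refine ⟨_, add_mem hz hx, _, add_mem hz' hx', _, mul_mem h0 h1, ?_⟩
      rw [hat_mm A (Vh_mono le h0) (mul_mem (mS hx) (yy_mem_Vh hv hx')), hat_mm A (yy_mem_Vh hv hz') (mS hx),
        S_add (hW.o2 hv hz) (hW.o2 hv hx) (hW.o2 hz hx), map_mul,
        h.add _ _ _ (hW.o2 hv hz') (hW.o2 hv hx') (hW.o2 hz' hx')]
    · intro g hg
      obtain ⟨a, ha, w, hw, k, hk, rfl⟩ := (mem_VW_sup hW).1 hg
      have h1 := Submodule.smul_mem _ (a * ω) hv
      refine ⟨_, add_mem h1 (le hw), 0, zero_mem _, _, map_mem_Vh hk, ?_⟩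
      rw [h.yy_zero v0, mul_one, S_add (hW.o2 hv h1) (hW.o2 hv (le hw)) (hW.o2 h1 (le hw)), S_self v0,
        mul_pow, ha, ← mul_add, hω, mul_one, map_mul]
    · intro z hz
      obtain ⟨w, hw, _, h1, rfl⟩ := Submodule.mem_sup.1 hz
      obtain ⟨a, rfl⟩ := Submodule.mem_span_singleton.1 h1
      have h1 := Submodule.smul_mem _ a hv
      have h2 := Submodule.smul_mem _ ω h1
      have h3 := Submodule.smul_mem _ (a ^ q) h2
      have h4 := Submodule.smul_mem _ (a ^ q) (le hw)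
      refine ⟨0, zero_mem _, _, add_mem h3 h4, _, c_mem_Vh hw, ?_⟩
      rw [S_zero v0, map_one, one_mul, add_comm w, h.c_add (hW.o2 h1 (le hw)), h.c_eq (hW _ h1 _ h1) hω,
        h.lin _ _ _ (hW.o2 hv h2), h.lin _ _ _ (hW.o2 hv (le hw)),
        h.add _ _ _ (hW.o2 hv h3) (hW.o2 hv h4) (hW.o2 h3 h4), mul_assoc, mul_assoc,
        A.comm (c_mem_Vh (le hw)) (yy_mem_Vh hv h4)]
  · rintro ⟨a, b, w, hw, w', hw', y₀, h0, rfl⟩
    exact mul_mem (mul_mem (mul_mem (xh_mem_Vh (hW.o2 hv hv) hv hv) (mS (le hw))) (yy_mem_Vh hv (le hw')))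
      (Vh_mono le h0)

theorem Fam.Vh_sup_uniq (h : Fam ι t c) (hW : TI q (W ⊔ Submodule.span F {v})) (hv : v ∉ W)
    {w' : Fin m → F} (hw : w ∈ W) (hw' : w' ∈ W)
    (e : xh ι c v v a b * ι (S q v w) * yy c v w' ∈ Vh ι c W) :
    a ^ q = a ∧ b ^ q = b ∧ w = 0 ∧ w' = 0 := by
  have hv' : v ∈ W ⊔ Submodule.span F {v} := lV_mem_v
  have le : W ≤ W ⊔ Submodule.span F {v} := le_sup_left
  have v0 := hW v hv' v hv'
  have hW0 := hW.mono le
  have key : ∀ (a : F), ∀ w ∈ W, ∀ g ∈ VW q W, ι g = ι (S q v (a • v + w)) → a ^ q = a ∧ w = 0 := by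
    intro a w hw g hg e
    have h1 := Submodule.smul_mem _ a hv'
    rw [h.eq_of_sq (hW0.el g hg) (S_sq (hW.o2 hv' (add_mem h1 (le hw)))) e,
      S_add (hW.o2 hv' h1) (hW.o2 hv' (le hw)) (hW.o2 h1 (le hw)), S_self v0] at hg
    obtain ⟨h2, h3⟩ := VW_sup_uniq hW hv (by rw [lA_add_pow, lA_pow_pow, add_comm]) hw hg
    exact ⟨by grind, h3⟩
  rw [h.hat_xh hW hv' (le hw) (le hw')] at e
  have hz := add_mem (Submodule.smul_mem _ a hv') (le hw)
  have hz' := add_mem (Submodule.smul_mem _ b hv') (le hw')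
  obtain ⟨g, hg, e1⟩ := h.Vh_tr hW0 e
  rw [h.hat_tr hW (map_mem_Vh (S_mem_VW (hW.o2 hv' hz) hv' hz)) (yy_mem_Vh hv' hz')
    (S_mem_VW (hW.o2 hv' hz') hv' hz') (h.hat_tr1 (S_sq (hW.o2 hv' hz))) (h.yy_tr (hW.o2 hv' hz')),
    one_mul] at e1
  obtain ⟨hb, rfl⟩ := key b w' hw' g hg (mul_left_cancel e1).symm
  rw [add_zero, h.yy_real v0 hb, mul_one] at e
  obtain ⟨k, hk, e2⟩ := h.Vh_fix hW0 e (h.tc _).symm
  obtain ⟨ha, rfl⟩ := key a w hw k hk e2
  exact ⟨ha, hb, rfl, rfl⟩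

theorem Fam.mem_Vh_one (h : Fam ι t c) (hv : 𝐡 v v = 0) :
    y ∈ Vh ι c (Submodule.span F {v}) ↔ ∃ a b : F, y = xh ι c v v a b := by
  rw [← bot_sup_eq (Submodule.span F {v}), h.mem_Vh_sup (by rw [bot_sup_eq]; exact hat_ti hv)]
  simp [h.hat_bot, S_zero hv, h.yy_zero hv]

/-- `ι (S u w) * yy u w' = 1` forces both factors to be trivial -/
theorem Fam.sy_eq_one (h : Fam ι t c) {w' : Fin m → F} (e : O2 q u w) (e' : O2 q u w') (e'' : O2 q w w')
    (h1 : ι (S q u w) * yy c u w' = 1) : S q u w = 1 ∧ S q u w' = 1 := by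
  have h2 : S q u w' = 1 := by
    have h3 := h.yy_tr e'
    rw [eq_inv_of_mul_eq_one_right h1, ← map_inv, h.hat_tr1 (by rw [← mul_inv_rev, S_sq e, inv_one]),
      mul_right_inj] at h3
    exact (h.eq_of_sq (mul_one 1) (S_sq e') h3).symm
  refine ⟨?_, h2⟩
  rcases eq_or_ne u 0 with rfl | u0
  · rw [S_symm e, S_zero e.r]
  obtain ⟨b, hb, rfl⟩ := (S_eq_one e' u0).1 h2
  rw [h.yy_real e.l hb, mul_one, ← map_one ι] at h1
  exact h.eq_of_sq (S_sq e) (mul_one 1) h1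

theorem Fam.Vh_of_cent (h : Fam ι t c) (hW : TI q W) (hU : U ≤ W) (hX : X ≤ perp q W)
    (hX' : X ⊓ W = ⊥) (hy : y ∈ Vh ι c W)
    (e : ∀ z ∈ perp q U, z ∈ perp q X → 𝐡 z z = 0 → Commute y (ι (T q z 1))) : y ∈ Vh ι c U := by
  have hU' := hW.mono hU
  obtain ⟨g, hg, e1⟩ := h.Vh_tr hW hy
  have h1 : g ∈ VW q U := VW_of_cent hW hU hX hX' hg fun z hz hz' z0 => h.comm (au_T_sq z0) (by
    have a : Commute t (ι (T q z 1)) := h.tc _
    have b := (a.inv_left.mul_left (((e z hz hz' z0).mul_left a).mul_left (e z hz hz' z0)))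
    rwa [e1, inv_mul_cancel_left] at b)
  obtain ⟨y', hy', e2⟩ := h.Vh_sur hU' h1
  have hy'' := Vh_mono hU hy'
  have e3 := h.hat_tr hW hy hy'' hg e1 e2
  rw [hW.el g hg, map_one, mul_one, ← eq_mul_inv_iff_mul_eq,
    inv_eq_of_mul_eq_one_right (h.el_Vh hW _ (mul_mem hy hy''))] at e3
  obtain ⟨k, hk, e4⟩ := h.Vh_fix hW (mul_mem hy hy'') e3
  have h2 : k ∈ VW q U := VW_of_cent hW hU hX hX' hk fun z hz hz' z0 => h.comm (au_T_sq z0) (by
    rw [e4]
    exact (e z hz hz' z0).mul_left (h.Vh_cen hU' hy' fun v hv => by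
      rw [T_smul z0 (one_pow q), herm_comm_zero (hz v hv), mul_zero, zero_smul, add_zero]).symm)
  exact (mul_mem_cancel_right hy').1 (e4 ▸ map_mem_Vh h2)

theorem Fam.hat_pt (h : Fam ι t c) (hv : 𝐡 v v = 0) (h0 : v ≠ 0) (ha : a ^ q = a) (ha0 : a ≠ 0)
    (hy : y * y = 1) (hc : ∀ k : SU m F q, k • v = v → y * ι k = ι k * y)
    (ht : y * t * y = t * ι (T q v a)) : y ∈ Vh ι c (Submodule.span F {v}) := by
  have hm := Submodule.mem_span_singleton_self (R := F) v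
  refine (h.mem_Vh (hat_ti hv) (by simpa using h0) hy (fun k hk => hc k (hk v hm))
    (T_mem_VW hv ha hm) ht).resolve_right ?_
  rintro ⟨k, -, e⟩
  refine h.hat_ne hv h0 ha ha0 hy ht ?_
  have := h.tc k
  rw [e, ← mul_assoc] at this
  exact (mul_right_cancel this).symm

theorem Fam.cj_Vh (h : Fam ι t c) (hn : n * t = t * n) (hγ : SI q s γ) (hi : IndOn ⊤ ι n γ)
    (hW : TI q W) (e : Mv γ W W') : cj(n, Vh ι c W) = Vh ι c W' := by
  obtain ⟨W₁, a1, a2, a3, -⟩ := hγ.exists_mv W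
  obtain rfl := e.uniq a1
  refine eq_of_le_of_card_ge (cj_le_iff_forall.2 fun y hy => h.hat_ind hW
    (P := fun y => n * y * n⁻¹ ∈ Vh ι c W') (fun x _ y _ a b => ?_) (fun g hg => ?_) (fun v hv => ?_) hy)
    (by rw [card_cj, h.card_Vh hW, h.card_Vh (a3 hW), a2])
  · have := mul_mem a b
    rwa [conj_mul] at this
  · obtain ⟨g', hg'⟩ := hγ.rel g
    rw [hi g trivial g' hg']
    exact map_mem_Vh ((hg'.mem_VW hγ e).2 hg)
  · rcases eq_or_ne v 0 with rfl | v0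
    · rw [h.c0, mul_one, mul_inv_cancel]; exact one_mem _
    have v1 := hW v hv v hv
    refine Vh_mono ((Submodule.span_singleton_le_iff_mem _ _).2 ((e v).2 hv))
      (h.hat_pt (hγ.o2 (O2.self v1)).l (fun e => v0 (γ.injective (e.trans hγ.semi.zero.symm)))
        (one_pow q) one_ne_zero (by rw [conj_mul, h.sq v v1]; simp) (fun k hk => ?_) ?_)
    · obtain ⟨k', hk'⟩ := hγ.inv.rel k
      have b : Rel γ k' k := by simpa using hk'.symm
      rw [← hi k' trivial k b, conj_mul, conj_mul, h.cen v1 (γ.injective (by rw [← b, hk]))]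
    · have b := hγ.rel_T v1 (one_pow q)
      rw [map_one] at b
      rw [← hi _ trivial _ b, show t = n * t * n⁻¹ by rw [hn, mul_inv_cancel_right], conj_mul, conj_mul,
        conj_mul, h.tr v v1]

theorem Fam.cj_Vh' (h : Fam ι t c) (hW : TI q W) (e : Mv (g • ·) W W') :
    cj(ι g, Vh ι c W) = Vh ι c W' := h.cj_Vh (h.tc g).symm (si_su g) (au_ind_su g) hW e

theorem Fam.mem_gen (h : Fam ι t c) (hr : Rp r) (e : r.range = ι.range) {H : Subgroup G}
    (h1 : ι.range ≤ H) (h2 : ∀ v, 𝐡 v v = 0 → c v ∈ H) (hv : 𝐡 v v = 0) (h0 : v ≠ 0) (ha : a ^ q = a)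
    (ha0 : a ≠ 0) (hy : y * y = 1) (hc : ∀ k : SU m F q, k • v = v → y * r k = r k * y)
    (ht : y * t * y = t * r (T q v a)) : y ∈ H := by
  obtain ⟨s, γ, hγ, hi⟩ := hr.same h.toRp e
  have v1 := (hγ.o2 (O2.self hv)).l
  have := h.hat_pt v1 (fun e => h0 (γ.injective (e.trans hγ.semi.zero.symm))) (a := s a)
    (by rw [← map_pow, ha]) ((map_ne_zero s).2 ha0) hy (fun k hk => by
      obtain ⟨k', hk'⟩ := hγ.inv.rel k
      have b : Rel γ k' k := by simpa using hk'.symm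
      rw [← hi k' k b, hc k' (γ.injective (by rw [← b, hk]))]) (by rw [ht, hi _ _ (hγ.rel_T hv ha)])
  exact h.hat_ind (hat_ti v1) (P := (· ∈ H)) (fun _ _ _ _ => mul_mem) (fun g _ => h1 ⟨g, rfl⟩)
    (fun w hw => h2 w (hat_ti v1 w hw w hw)) this

end Cfsg.Agent.StdU
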