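import Cfsg.Agent.StdU.Defs
import Cfsg.Agent.U3S.Fld

/-! Formulas for `sg`, `T`, `S`, semilinear isometries. All by `SU_ext` and the three `_smul`
formulas (`exists_siegel`, `Classical.choose_spec`, char `2`), or the `IsSiegel.*` API. `a ^ q = conj F q a`.
`five`: `T (u + a • w) 1 = T u 1 * T w (a a^q) * S u (a • w)`, everything commutes, `1 + ω + ω^q = 0`,
`ω ω^q = ω^q (ω^q)^q`. `SI.rel`: `exists_semiPerm`, `semiPerm_rel_iff`, `pres_conj_of_sim`, determinant
(`su_norms`). `odd_center`: a central element is a scalar `e` with `e e^q = 1`, `q + 1` is odd. -/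

set_option autoImplicit false
set_option linter.unusedSectionVars false
set_option linter.unusedVariables false
set_option linter.unusedSimpArgs false

namespace Cfsg.Agent.StdU

open Subgroup Cfsg.Agent.Class.U Cfsg.Agent.KSG Cfsg.Agent.PLocal.Amb
open Cfsg.Agent.StdL (El Od Uq cjh)
open scoped commutatorElement

variable {F : Type*} [Field F] {m q : ℕ} [UF F q] [CharP F 2]

local notation "𝐡" => hermForm m F q

variable {u v w x w' : Fin m → F} {a a' b : F} {s s' : F ≃+* F} {γ γ' : Equiv.Perm (Fin m → F)}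
  {g g' k k' : SU m F q}

theorem even_q (F : Type*) [Field F] [UF F q] [CharP F 2] : 2 ∣ q := by
  obtain ⟨p, k, -, h1, h2, h3⟩ := exists_prime_pow F q
  rw [h2, CharP.eq F h1 ‹CharP F 2›]
  exact dvd_pow_self 2 h3.ne'

omit [CharP F 2] in
theorem lA_add_pow (a b : F) : (a + b) ^ q = a ^ q + b ^ q := add_pow_q a b

omit [CharP F 2] in
theorem lA_pow_pow (a : F) : (a ^ q) ^ q = a := conj_conj a

omit [CharP F 2] in
theorem lA_zero_pow : (0 : F) ^ q = 0 := map_zero (conj F q)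

omit [CharP F 2] in
theorem lA_pow_ne (h : a ≠ 0) : a ^ q ≠ 0 := pow_ne_zero _ h

omit [UF F q] in
theorem lA_neg (x : Fin m → F) : -x = x := funext fun _ => CharTwo.neg_eq _

omit [UF F q] in
theorem lA_sub (x y : Fin m → F) : x - y = x + y := by rw [sub_eq_add_neg, lA_neg]

omit [UF F q] in
theorem lA_add_self (x : Fin m → F) : x + x = 0 := funext fun _ => CharTwo.add_self_eq_zero _

omit [UF F q] in
theorem lA_add_eq_zero {x y : Fin m → F} : x + y = 0 ↔ x = y := by rw [← lA_sub, sub_eq_zero]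

omit [UF F q] [CharP F 2] in
theorem lA_sg_eq (h : IsSiegel u w a g) : sg q u w a = g := by
  rw [sg, dif_pos ⟨g, h⟩]
  exact (Exists.choose_spec (⟨g, h⟩ : ∃ g : SU m F q, IsSiegel u w a g)).unique h

omit [CharP F 2] in
theorem lA_ti_span {X : Set (Fin m → F)} (h : ∀ u ∈ X, ∀ w ∈ X, 𝐡 u w = 0) :
    TI q (Submodule.span F X) := fun u hu w hw => by
  induction hu, hw using Submodule.span_induction₂ with
  | mem_mem x y hx hy => exact h x hx y hy
  | zero_left => exact herm_zero_left _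
  | zero_right => exact herm_zero_right _
  | add_left _ _ _ _ _ _ h1 h2 => rw [herm_add_left, h1, h2, add_zero]
  | add_right _ _ _ _ _ _ h1 h2 => rw [herm_add_right, h1, h2, add_zero]
  | smul_left _ _ _ _ _ h1 => rw [herm_smul_left, h1, mul_zero]
  | smul_right _ _ _ _ _ h1 => rw [herm_smul_right, h1, mul_zero]

theorem exists_om : ∃ ω : F, ω + ω ^ q = 1 := exists_trace_eq (map_one _)

/-- square roots stay in the fixed field -/
theorem exists_sqrt (h : a ^ q = a) : ∃ b : F, b ^ q = b ∧ b * b = a := by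
  obtain ⟨k, hk⟩ := even_q (q := q) F
  refine ⟨a ^ k, by rw [← pow_mul, mul_comm, pow_mul, h], ?_⟩
  rw [← pow_add, ← two_mul, ← hk, h]

theorem exists_norm (h : a ^ q = a) : ∃ b : F, b * b ^ q = a := exists_norm_eq h

theorem herm_pow (u v : Fin m → F) : 𝐡 u v ^ q = 𝐡 v u := herm_conj u v

theorem herm_smul_r (a : F) (u v : Fin m → F) : 𝐡 u (a • v) = a ^ q * 𝐡 u v := herm_smul_right a u v

theorem O2.symm (h : O2 q u w) : O2 q w u := ⟨h.r, h.l, herm_comm_zero h.lr⟩

theorem O2.rl (h : O2 q u w) : 𝐡 w u = 0 := herm_comm_zero h.lr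

theorem O2.self (h : 𝐡 u u = 0) : O2 q u u := ⟨h, h, h⟩

theorem O2.zero (h : 𝐡 u u = 0) : O2 q u 0 := ⟨h, herm_zero_left _, herm_zero_right _⟩

theorem O2.smul (h : O2 q u w) (a b : F) : O2 q (a • u) (b • w) :=
  ⟨by simp [herm_smul_left, herm_smul_right, h.l], by simp [herm_smul_left, herm_smul_right, h.r],
    by simp [herm_smul_left, herm_smul_right, h.lr]⟩

theorem O2.add (h : O2 q u v) (h' : O2 q u w) (h'' : O2 q v w) : O2 q u (v + w) :=
  ⟨h.l, by simp [herm_add_left, herm_add_right, h''.l, h''.r, h''.lr, h''.rl],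
    by simp [herm_add_right, h.lr, h'.lr]⟩

theorem O2.iso (h : O2 q u w) (a b : F) : 𝐡 (a • u + b • w) (a • u + b • w) = 0 := by
  simp [herm_add_left, herm_add_right, herm_smul_left, herm_smul_right, h.l, h.r, h.lr, h.rl]

theorem O2.act (h : O2 q u w) (g : SU m F q) : O2 q (g • u) (g • w) :=
  ⟨by rw [SU_herm, h.l], by rw [SU_herm, h.r], by rw [SU_herm, h.lr]⟩

theorem O2.ti (h : O2 q u w) : TI q (Submodule.span F {u, w}) := lA_ti_span <| by
  rintro x (rfl | rfl) y (rfl | rfl)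
  exacts [h.l, h.lr, h.rl, h.r]

theorem TI.o2 {W : Submodule F (Fin m → F)} (h : TI q W) (hu : u ∈ W) (hw : w ∈ W) : O2 q u w := ⟨h _ hu _ hu, h _ hw _ hw, h _ hu _ hw⟩

theorem TI.mono {W W' : Submodule F (Fin m → F)} (h : TI q W) (e : W' ≤ W) : TI q W' := fun u hu w hw => h u (e hu) w (e hw)

theorem ti_span {X : Set (Fin m → F)} (h : ∀ u ∈ X, ∀ w ∈ X, 𝐡 u w = 0) :
    TI q (Submodule.span F X) := lA_ti_span h

theorem Ok.isSiegel (h : Ok q u w a) : IsSiegel u w a (sg q u w a) := by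
  obtain ⟨g, hg⟩ := exists_siegel h.uu h.wu h.tr
  rwa [lA_sg_eq hg]

theorem sg_smul (h : Ok q u w a) (x : Fin m → F) :
    sg q u w a • x = x + 𝐡 x u • w + 𝐡 x w • u + (a * 𝐡 x u) • u := by
  rw [h.isSiegel x, lA_sub]

theorem lA_ok_T (hv : 𝐡 v v = 0) (ha : a ^ q = a) : Ok q v 0 a :=
  ⟨hv, herm_zero_left _, by rw [ha, herm_zero_left, add_zero, CharTwo.add_self_eq_zero]⟩

omit [CharP F 2] in
theorem O2.ok (h : O2 q u w) : Ok q u w 0 := ⟨h.l, herm_comm_zero h.lr, by rw [lA_zero_pow, h.r]; simp⟩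

theorem T_smul (hv : 𝐡 v v = 0) (ha : a ^ q = a) (x : Fin m → F) :
    T q v a • x = x + (a * 𝐡 x v) • v := by
  rw [T, sg_smul (lA_ok_T hv ha), herm_zero_right]
  simp

theorem S_smul (h : O2 q u w) (x : Fin m → F) : S q u w • x = x + 𝐡 x u • w + 𝐡 x w • u := by
  rw [S, sg_smul h.ok]
  simp

theorem exists_ok (hu : 𝐡 u u = 0) (hw : 𝐡 w u = 0) : ∃ a, Ok q u w a := by
  obtain ⟨a, g, hg⟩ := exists_siegel' hu hw
  obtain ⟨t, ht⟩ := exists_trace_eq (q := q) (a := 𝐡 w w) (herm_conj w w)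
  exact ⟨t, hu, hw, by rw [← ht]; exact CharTwo.add_self_eq_zero _⟩

theorem Ok.mul (h : Ok q u w a) (h' : Ok q u w' a') : Ok q u (w + w') (a + a' + 𝐡 w' w) ∧
    sg q u w a * sg q u w' a' = sg q u (w + w') (a + a' + 𝐡 w' w) := by
  refine ⟨⟨h.uu, by rw [herm_add_left, h.wu, h'.wu, add_zero], ?_⟩, ?_⟩
  · have e := h.tr
    have e' := h'.tr
    rw [lA_add_pow, lA_add_pow, herm_pow, herm_add_left, herm_add_right, herm_add_right]
    grind
  · have := h.isSiegel.mul h'.isSiegel h.uu h.wu h'.wu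
    rw [CharTwo.sub_eq_add] at this
    exact (lA_sg_eq this).symm

theorem Ok.sq (h : Ok q u w a) : sg q u w a * sg q u w a = T q u (𝐡 w w) := by
  rw [(h.mul h).2, lA_add_self, CharTwo.add_self_eq_zero, zero_add, T]

theorem Ok.comm (h : Ok q u w a) (h' : Ok q u w' a') :
    ⁅sg q u w a, sg q u w' a'⁆ = T q u (𝐡 w w' + 𝐡 w' w) := by
  have e : (𝐡 w w' + 𝐡 w' w) ^ q = 𝐡 w w' + 𝐡 w' w := by rw [lA_add_pow, herm_pow, herm_pow, add_comm]
  rw [commutatorElement_def, mul_inv_eq_iff_eq_mul, mul_inv_eq_iff_eq_mul, (h.mul h').2, mul_assoc,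
    (h'.mul h).2, T, ((lA_ok_T h.uu e).mul (h'.mul h).1).2, zero_add, herm_zero_right, add_comm w]
  congr 1
  grind

theorem Ok.conj (h : Ok q u w a) (g : SU m F q) : Ok q (g • u) (g • w) a ∧
    g * sg q u w a * g⁻¹ = sg q (g • u) (g • w) a :=
  ⟨⟨by rw [SU_herm, h.uu], by rw [SU_herm, h.wu], by rw [SU_herm, h.tr]⟩,
    (lA_sg_eq (h.isSiegel.conj g)).symm⟩

theorem Ok.smul_left (h : Ok q (b • u) w a) (hu : 𝐡 u u = 0) (hw : 𝐡 w u = 0) :
    sg q (b • u) w a = sg q u (b ^ q • w) (b * b ^ q * a) := (lA_sg_eq h.isSiegel.of_smul).symm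

/-- the parameters are determined up to the obvious ambiguity -/
theorem Ok.inj (h : Ok q u w a) (h' : Ok q u w' a') (hu : u ≠ 0) (e : sg q u w a = sg q u w' a') :
    ∃ b : F, w' = w + b • u ∧ a' = a + b + b ^ q := by
  obtain ⟨y, -, hy⟩ := exists_partner hu h.uu
  have hy' := herm_comm_one hy
  have e1 : sg q u w a • y = sg q u w' a' • y := by rw [e]
  rw [sg_smul h, sg_smul h', hy', one_smul, one_smul, mul_one, mul_one] at e1
  have e2 : w' = w + (𝐡 y w + a + 𝐡 y w' + a') • u := by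
    ext i
    have := congrFun e1 i
    simp only [Pi.add_apply, Pi.smul_apply, smul_eq_mul] at this ⊢
    grind
  generalize hb : 𝐡 y w + a + 𝐡 y w' + a' = b at e2
  refine ⟨b, e2, ?_⟩
  rw [e2, herm_add_right, herm_smul_r, hy'] at hb
  grind

theorem O2.sg_eq (h : O2 q u w) (ha : a ^ q = a) : sg q u w a = S q u w * T q u a := by
  rw [S, T, (h.ok.mul (lA_ok_T h.l ha)).2, add_zero, zero_add, herm_zero_left, add_zero]

theorem T_add (hv : 𝐡 v v = 0) (ha : a ^ q = a) (hb : b ^ q = b) :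
    T q v a * T q v b = T q v (a + b) := by
  rw [T, T, ((lA_ok_T hv ha).mul (lA_ok_T hv hb)).2, add_zero, herm_zero_left, add_zero, T]

theorem T_sq (hv : 𝐡 v v = 0) (ha : a ^ q = a) : T q v a * T q v a = 1 := by
  rw [T_add hv ha ha, CharTwo.add_self_eq_zero, T, lA_sg_eq (isSiegel_one v)]

theorem T_zero (hv : 𝐡 v v = 0) : T q v 0 = 1 := lA_sg_eq (isSiegel_one v)

theorem T_zero_vec (a : F) : T q (0 : Fin m → F) a = 1 :=
  lA_sg_eq fun x => by simp

theorem T_smul_vec (hv : 𝐡 v v = 0) (ha : a ^ q = a) (b : F) :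
    T q (b • v) a = T q v (b * b ^ q * a) := by
  have := (lA_ok_T (v := b • v) ((O2.self hv).smul b b).l ha).smul_left hv (herm_zero_left _)
  rwa [smul_zero] at this

theorem T_inj (hv : 𝐡 v v = 0) (h0 : v ≠ 0) (ha : a ^ q = a) (hb : b ^ q = b)
    (e : T q v a = T q v b) : a = b := by
  obtain ⟨c, h1, h2⟩ := (lA_ok_T hv ha).inj (lA_ok_T hv hb) h0 e
  rw [zero_add, eq_comm, smul_eq_zero_iff_left h0] at h1
  rw [h2, h1, lA_zero_pow, add_zero, add_zero]

theorem T_ne_one (hv : 𝐡 v v = 0) (h0 : v ≠ 0) (ha : a ^ q = a) (ha0 : a ≠ 0) : T q v a ≠ 1 :=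
  fun e => ha0 (T_inj hv h0 ha lA_zero_pow (e.trans (T_zero hv).symm))

/-- the centre of a transvection -/
theorem T_eq_T (hv : 𝐡 v v = 0) (hw : 𝐡 w w = 0) (h0 : v ≠ 0) (ha : a ^ q = a) (ha0 : a ≠ 0)
    (hb : b ^ q = b) (e : T q v a = T q w b) : ∃ l : F, w = l • v ∧ l * l ^ q * b = a := by
  obtain ⟨y, -, hy⟩ := exists_partner h0 hv
  have e1 : T q v a • y = T q w b • y := by rw [e]
  rw [T_smul hv ha, T_smul hw hb, herm_comm_one hy, mul_one, add_right_inj] at e1
  have h1 : b * 𝐡 y w ≠ 0 := fun h => by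
    rw [h, zero_smul, smul_eq_zero_iff_left h0] at e1
    exact ha0 e1
  have e2 : w = ((b * 𝐡 y w)⁻¹ * a) • v := by rw [mul_smul, e1, inv_smul_smul₀ h1]
  generalize (b * 𝐡 y w)⁻¹ * a = l at e2
  subst e2
  rw [T_smul_vec hv hb] at e
  exact ⟨l, rfl, (T_inj hv h0 ha (by rw [mul_pow, mul_pow, lA_pow_pow, hb, mul_comm l]) e).symm⟩

theorem T_conj (hv : 𝐡 v v = 0) (ha : a ^ q = a) (g : SU m F q) :
    g * T q v a * g⁻¹ = T q (g • v) a := by
  rw [T, ((lA_ok_T hv ha).conj g).2, smul_zero, T]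

theorem T_comm (h : O2 q u w) (ha : a ^ q = a) (hb : b ^ q = b) : Commute (T q u a) (T q w b) := by
  refine SU_ext fun x => ?_
  simp only [mul_smul, T_smul h.l ha, T_smul h.r hb, herm_add_left, herm_smul_left, h.lr, h.rl]
  ext i; simp only [Pi.add_apply, Pi.smul_apply, Pi.zero_apply, smul_eq_mul]; grind

theorem T_add_vec (h : O2 q u w) : T q (u + w) 1 = T q u 1 * T q w 1 * S q u w := by
  refine SU_ext fun x => ?_
  have e : 𝐡 (u + w) (u + w) = 0 := by simpa using h.iso 1 1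
  simp only [mul_smul, T_smul h.l (one_pow q), T_smul h.r (one_pow q), T_smul e (one_pow q), S_smul h,
    herm_add_left, herm_add_right, herm_smul_left, h.lr, h.rl, h.l, h.r]
  ext i; simp only [Pi.add_apply, Pi.smul_apply, Pi.zero_apply, smul_eq_mul]; grind

theorem S_symm (h : O2 q u w) : S q u w = S q w u := by
  refine SU_ext fun x => ?_
  rw [S_smul h, S_smul h.symm, add_right_comm]

theorem S_zero (h : 𝐡 u u = 0) : S q u 0 = 1 := lA_sg_eq (isSiegel_one u)

theorem S_sq (h : O2 q u w) : S q u w * S q u w = 1 := by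
  rw [S, h.ok.sq, h.r, T_zero h.l]

theorem S_add (h : O2 q u v) (h' : O2 q u w) (h'' : O2 q v w) :
    S q u (v + w) = S q u v * S q u w := by
  rw [S, S, S, (h.ok.mul h'.ok).2, h''.rl, add_zero, add_zero]

theorem S_smul_left (h : O2 q u w) (a : F) : S q (a • u) w = S q u (a ^ q • w) := by
  have := (h.smul a 1).ok
  rw [one_smul] at this
  rw [S, this.smul_left h.l h.rl, mul_zero, S]

theorem S_self (h : 𝐡 u u = 0) (a : F) : S q u (a • u) = T q u (a + a ^ q) := by
  refine SU_ext fun x => ?_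
  have e : O2 q u (a • u) := by simpa using (O2.self h).smul 1 a
  rw [S_smul e, T_smul h (by rw [lA_add_pow, lA_pow_pow, add_comm]), herm_smul_r]
  ext i; simp only [Pi.add_apply, Pi.smul_apply, Pi.zero_apply, smul_eq_mul]; grind

theorem S_conj (h : O2 q u w) (g : SU m F q) : g * S q u w * g⁻¹ = S q (g • u) (g • w) := (h.ok.conj g).2

theorem S_eq_one (h : O2 q u w) (hu : u ≠ 0) : S q u w = 1 ↔ ∃ b : F, b ^ q = b ∧ w = b • u := by
  constructor
  · intro e
    obtain ⟨b, h1, h2⟩ := (O2.zero h.l).ok.inj h.ok hu ((S_zero h.l).trans e.symm)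
    exact ⟨b, by grind, by rw [h1, zero_add]⟩
  · rintro ⟨b, hb, rfl⟩
    rw [S_self h.l, hb, CharTwo.add_self_eq_zero, T_zero h.l]

/-- coordinates in the group of a totally isotropic line -/
theorem TTS_eq_one {d : F} (h : O2 q u w) (hi : LinearIndependent F ![u, w]) (ha : a ^ q = a)
    (hb : b ^ q = b) (e : T q u a * T q w b * S q u (d • w) = 1) : a = 0 ∧ b = 0 ∧ d = 0 := by
  have e' : O2 q u (d • w) := by simpa using h.smul 1 d
  have key : ∀ x, a * 𝐡 x u + d ^ q * 𝐡 x w = 0 ∧ b * 𝐡 x w + d * 𝐡 x u = 0 := fun x => by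
    refine LinearIndependent.pair_iff.1 hi _ _ ?_
    have e1 : (T q u a * T q w b * S q u (d • w)) • x = x := by rw [e, one_smul]
    simp only [mul_smul, T_smul h.l ha, T_smul h.r hb, S_smul e', herm_add_left, herm_smul_left,
      herm_smul_r, h.lr, h.rl, h.l, h.r] at e1
    ext i
    have := congrFun e1 i
    simp only [Pi.add_apply, Pi.smul_apply, Pi.zero_apply, smul_eq_mul] at this ⊢
    grind
  have h1 := LinearIndependent.pair_iff.1 hi (a ^ q) d (eq_zero_of_herm_right (q := q) fun x => by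
    rw [herm_add_right, herm_smul_r, herm_smul_r, lA_pow_pow, (key x).1])
  have h2 := LinearIndependent.pair_iff.1 hi (d ^ q) (b ^ q) (eq_zero_of_herm_right (q := q) fun x => by
    rw [herm_add_right, herm_smul_r, herm_smul_r, lA_pow_pow, lA_pow_pow, add_comm, (key x).2])
  exact ⟨ha ▸ h1.1, hb ▸ h2.2, h1.2⟩

/-- the five-term relation -/
theorem five (h : O2 q u w) {ω : F} (hω : ω + ω ^ q = 1) (ha : a ^ q = a) :
    T q u a * T q w a * T q (u + w) a * T q (u + ω • w) a * T q (u + ω ^ q • w) a = 1 := by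
  refine SU_ext fun x => ?_
  have e1 : 𝐡 (u + w) (u + w) = 0 := by simpa using h.iso 1 1
  have e2 : 𝐡 (u + ω • w) (u + ω • w) = 0 := by simpa using h.iso 1 ω
  have e3 : 𝐡 (u + ω ^ q • w) (u + ω ^ q • w) = 0 := by simpa using h.iso 1 (ω ^ q)
  simp only [mul_smul, T_smul h.l ha, T_smul h.r ha, T_smul e1 ha, T_smul e2 ha, T_smul e3 ha,
    herm_add_left, herm_add_right, herm_smul_left, herm_smul_r, h.lr, h.rl, h.l, h.r, lA_pow_pow,
    one_smul]
  generalize ω ^ q = ω' at hω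
  ext i; simp only [Pi.add_apply, Pi.smul_apply, Pi.zero_apply, smul_eq_mul]; grind

theorem odd_center (hm : 2 ≤ m) (h : g ∈ center (SU m F q)) : Odd (orderOf g) := by
  obtain ⟨e, he⟩ := (Class.U.mem_center_iff hm).1 h
  have h1 : e * e ^ q = 1 := by
    have := SU_herm g (Pi.single ⟨0, by omega⟩ 1) (Pi.single ⟨0, by omega⟩ 1)
    rw [he, herm_smul_left, herm_smul_r, herm_single_single, if_pos rfl, mul_one] at this
    exact this
  have h2 : ∀ (n : ℕ) (x : Fin m → F), g ^ n • x = e ^ n • x := fun n x => by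
    induction n with
    | zero => simp
    | succ n ih => rw [pow_succ', mul_smul, ih, he, smul_smul, ← pow_succ']
  have h3 : g ^ (q + 1) = 1 := SU_ext fun x => by rw [h2, pow_succ', h1, one_smul, one_smul]
  exact Odd.of_dvd_nat (even_iff_two_dvd.2 (even_q F)).add_one (orderOf_dvd_of_pow_eq_one h3)

theorem SI.one : SI q (1 : F ≃+* F) (1 : Equiv.Perm (Fin m → F)) := ⟨⟨fun _ _ => rfl, fun _ _ => rfl⟩, fun _ _ => rfl⟩

theorem SI.mul (h : SI q s γ) (h' : SI q s' γ') : SI q (s * s') (γ * γ') :=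
  ⟨h.semi.comp h'.semi, fun u v => by
    rw [Equiv.Perm.mul_apply, Equiv.Perm.mul_apply, h.herm, h'.herm]; rfl⟩

theorem SI.inv (h : SI q s γ) : SI q s⁻¹ γ⁻¹ :=
  ⟨h.semi.inv, fun u v => s.injective (by
    rw [← h.herm, Equiv.Perm.coe_inv, Equiv.apply_symm_apply, Equiv.apply_symm_apply]
    exact (s.apply_symm_apply _).symm)⟩

theorem SI.pow (h : SI q s γ) (n : ℕ) : SI q (s ^ n) (γ ^ n) := by
  induction n with
  | zero => exact SI.one
  | succ n ih => rw [pow_succ, pow_succ]; exact ih.mul h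

theorem si_su (g : SU m F q) : SI q (1 : F ≃+* F) (MulAction.toPerm g : Equiv.Perm (Fin m → F)) :=
  ⟨⟨fun x y => smul_add g x y, fun c x => SU_smul_comm g c x⟩, fun u v => SU_herm g u v⟩

/-- rescaling by an element of norm one -/
theorem SI.scal (h : SI q s γ) (ha : a * a ^ q = 1) : ∃ γ', SI q s γ' ∧ (∀ v, γ' v = a • γ v) ∧
    ∀ g g' : SU m F q, Rel γ' g g' ↔ Rel γ g g' := by
  have a0 : a ≠ 0 := left_ne_zero_of_mul_eq_one ha
  refine ⟨MulAction.toPerm (Units.mk0 a a0) * γ, ⟨⟨fun x y => ?_, fun c x => ?_⟩, fun u v => ?_⟩,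
    fun v => rfl, fun g g' => forall_congr' fun v => ?_⟩
  · change a • γ _ = a • γ _ + a • γ _
    rw [h.semi.add, smul_add]
  · change a • γ _ = _ • a • γ _
    rw [h.semi.smul, smul_comm]
  · change 𝐡 (a • γ _) (a • γ _) = _
    rw [herm_smul_left, herm_smul_r, ← mul_assoc, ha, one_mul, h.herm]
  · change g' • a • γ _ = a • γ _ ↔ _
    rw [SU_smul_comm, smul_right_inj a0]

theorem SI.rel (h : SI q s γ) (g : SU m F q) : ∃ g', Rel γ g g' := by
  obtain ⟨k, rfl⟩ := exists_semiPerm h.semi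
  obtain ⟨g', hg'⟩ := exists_su (g := ⟨_, pres_conj_of_sim (μ := 1)
    (fun u v => by rw [h.herm, one_mul]) (toGU g).2⟩)
    ((det_conj_gl k _).trans ((det_glAct s _).trans (by rw [det_toGU, map_one])))
  refine ⟨g', fun v => ?_⟩
  rw [← toGU_smul, hg']
  exact (semiPerm_rel_iff k s _ _).2 rfl v

theorem SI.o2 (h : SI q s γ) (e : O2 q u w) : O2 q (γ u) (γ w) :=
  ⟨by rw [h.herm, e.l, map_zero], by rw [h.herm, e.r, map_zero], by rw [h.herm, e.lr, map_zero]⟩

theorem Rel.uniq (h : Rel γ g g') (h' : Rel γ g k') : g' = k' := SU_ext fun v => by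
  obtain ⟨v, rfl⟩ := γ.surjective v
  rw [h, h']

theorem Rel.mul (h : Rel γ g g') (h' : Rel γ k k') : Rel γ (g * k) (g' * k') := fun v => by rw [mul_smul, h', h, mul_smul]

theorem Rel.inv (h : Rel γ g g') : Rel γ g⁻¹ g'⁻¹ := fun v => by rw [inv_smul_eq_iff, h, smul_inv_smul]

theorem Rel.symm (h : Rel γ g g') : Rel γ⁻¹ g' g := fun v => by
  obtain ⟨v, rfl⟩ := γ.surjective v
  rw [h, Equiv.Perm.coe_inv, Equiv.symm_apply_apply, Equiv.symm_apply_apply]

theorem Rel.comp (h : Rel γ g g') (h' : Rel γ' g' k) : Rel (γ' * γ) g k := fun v => by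
  rw [Equiv.Perm.mul_apply, Equiv.Perm.mul_apply, h', h]

theorem rel_one (γ : Equiv.Perm (Fin m → F)) : Rel γ (1 : SU m F q) 1 := fun v => by rw [one_smul, one_smul]

theorem rel_refl (g : SU m F q) : Rel (1 : Equiv.Perm (Fin m → F)) g g := fun _ => rfl

theorem rel_su (k g : SU m F q) : Rel (MulAction.toPerm k : Equiv.Perm (Fin m → F)) g (k * g * k⁻¹) := fun v => by
  simp [mul_smul]

/-- conjugation by `γ` as an automorphism of `SU` -/
theorem SI.exists_aut (h : SI q s γ) : ∃ α : MulAut (SU m F q), ∀ g, Rel γ g (α g) := by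
  choose f hf using h.rel
  choose f' hf' using h.inv.rel
  exact ⟨{ toFun := f
           invFun := f'
           left_inv := fun g => (hf' _).uniq (hf g).symm
           right_inv := fun g => (hf _).uniq (hf' g).symm
           map_mul' := fun g k => (hf _).uniq ((hf g).mul (hf k)) }, hf⟩

theorem SI.rel_sg (h : SI q s γ) (e : Ok q u w a) : Ok q (γ u) (γ w) (s a) ∧
    Rel γ (sg q u w a) (sg q (γ u) (γ w) (s a)) := by
  have e' : Ok q (γ u) (γ w) (s a) := ⟨by rw [h.herm, e.uu, map_zero], by rw [h.herm, e.wu, map_zero],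
    by rw [h.herm, ← map_pow, ← map_add, ← map_add, e.tr, map_zero]⟩
  refine ⟨e', fun v => ?_⟩
  simp only [sg_smul e, sg_smul e', h.semi.add, h.semi.smul, h.herm, map_mul]

theorem SI.rel_T (h : SI q s γ) (hv : 𝐡 v v = 0) (ha : a ^ q = a) :
    Rel γ (T q v a) (T q (γ v) (s a)) := by
  have := (h.rel_sg (lA_ok_T hv ha)).2
  rwa [h.semi.zero] at this

theorem SI.rel_S (h : SI q s γ) (e : O2 q u w) : Rel γ (S q u w) (S q (γ u) (γ w)) := by
  have := (h.rel_sg e.ok).2
  rwa [map_zero] at this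

/-- the field automorphisms of order at most two -/
theorem aut_sq (h : s * s = 1) : s = 1 ∨ ∀ a, s a = a ^ q :=
  (U3S.aut_of_sq (q := q) s fun x => RingEquiv.congr_fun h x).imp_left RingEquiv.ext

theorem exists_conjAut : ∃ s : F ≃+* F, s ≠ 1 ∧ s * s = 1 ∧ ∀ a, s a = a ^ q := by
  let s : F ≃+* F := { conj F q with invFun := conj F q, left_inv := conj_conj, right_inv := conj_conj }
  refine ⟨s, fun e => ?_, RingEquiv.ext conj_conj, fun _ => rfl⟩
  obtain ⟨x, hx⟩ := exists_conj_ne F q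
  exact hx (RingEquiv.congr_fun e x)

end Cfsg.Agent.StdU
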