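import Cfsg.Agent.StdU.LinA

/-! Geometry of totally isotropic subspaces. `finrank_perp`, `perp_perp`: `hermSesq` is
nondegenerate (`v ↦ h(·, v)` is a semilinear bijection onto the dual; or count with `Nat.card`). `dual`: `dual'`
and `exists_isotropic_sub`. `exists_iso_perp`: `perp W` contains `a, b` independent mod `W`; if both are
anisotropic make them orthogonal and use `exists_isotropic_of_orth`. `iInf_MTI`: if `x ∉ U`, `dual` gives `y`,
a maximal `W ≥ U + y` misses `x`. `tuple_in`: induction on `n` (do `j` last); by `dual` inside `X` (project with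
`Split`) take isotropic partners `y` of `v i`, `y'` of `v' i` orthogonal to the other vectors,
`Split.exists_SW_pair` (`finrank X ≥ 3`), continue in `perp2 X (v' i) y'`; in a hyperbolic plane use
`Split.exists_SW_line`, `exists_SW_scale` with `1/√(l l^q)`. `exists_H0`: if `x' ∉ F x`, `w = x + x'`, `dual` for
`b = x`, `U = X ⊔ F w` gives `y`, `g = S y w`; else go through a third vector. `exists_MTI_inv`: enlarge an
invariant `U`; `P` acts on the `2`-group `perp U / U` and fixes `x ≠ 0`; if `x` is anisotropic it fixes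
`y ≠ 0` orthogonal to `x`, and `x + c y`, `c = √(h x x / h y y)` (fixed by the field automorphisms) is isotropic.
`MTI.eq_of_T`: `T v 1` stabilises `W'`, so `v ∈ W'` or `v ∈ perp W'`. -/

set_option autoImplicit false
set_option linter.unusedSectionVars false
set_option linter.unusedVariables false
set_option linter.unusedSimpArgs false

namespace Cfsg.Agent.StdU

open Subgroup Cfsg.Agent.Class.U Cfsg.Agent.KSG Cfsg.Agent.PLocal.Amb
open Cfsg.Agent.StdL (El Od Uq cjh)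
open scoped commutatorElement

variable {F : Type*} [Field F] {m q : ℕ} [UF F q] [CharP F 2]

local notation "𝐡" => hermForm m F q

variable {U W W' X : Submodule F (Fin m → F)} {u w u' w' b x x' p : Fin m → F} {s : F ≃+* F}
  {γ : Equiv.Perm (Fin m → F)}

/-- `f` maps `W` onto `W'` -/
def Mv (f : (Fin m → F) → Fin m → F) (W W' : Submodule F (Fin m → F)) : Prop := ∀ v, f v ∈ W' ↔ v ∈ W

theorem lB_finrank_eq [Finite F] {f : Equiv.Perm (Fin m → F)} (h : Mv f W W') :
    Module.finrank F W' = Module.finrank F W := by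
  have e : Nat.card W = Nat.card W' := Nat.card_congr (f.subtypeEquiv fun v => (h v).symm)
  rw [Module.natCard_eq_pow_finrank (K := F) (V := W),
    Module.natCard_eq_pow_finrank (K := F) (V := W')] at e
  exact (Nat.pow_right_injective Finite.one_lt_card e).symm

/-- the image of a subspace under a semilinear bijection -/
def lB_img (h : IsSemi s γ) (W : Submodule F (Fin m → F)) : Submodule F (Fin m → F) where
  carrier := {v | γ⁻¹ v ∈ W}
  add_mem' {a b} ha hb := by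
    change γ⁻¹ (a + b) ∈ W
    rw [h.inv.add]; exact W.add_mem ha hb
  zero_mem' := by
    change γ⁻¹ 0 ∈ W
    rw [h.inv.zero]; exact W.zero_mem
  smul_mem' c a ha := by
    change γ⁻¹ (c • a) ∈ W
    rw [h.inv.smul]; exact W.smul_mem _ ha

theorem lB_mv_img (h : IsSemi s γ) (W : Submodule F (Fin m → F)) : Mv γ W (lB_img h W) := fun v => by
  change γ⁻¹ (γ v) ∈ W ↔ _
  rw [Equiv.Perm.coe_inv, Equiv.symm_apply_apply]

theorem finrank_perp (U : Submodule F (Fin m → F)) :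
    Module.finrank F U + Module.finrank F (perp q U) = m := by
  obtain ⟨σ, -, -, hσ⟩ := exists_conjAut (F := F) (q := q)
  have := UF.finite (F := F) q
  have h1 := lB_mv_img (isSemi_semiPerm (1 : GL (Fin m) F) σ) U
  have h2 := LinearMap.BilinForm.finrank_orthogonal
    (LinearMap.BilinForm.nondegenerate_toBilin'_of_det_ne_zero' (1 : Matrix (Fin m) (Fin m) F)
      (by simp)) (lB_img (isSemi_semiPerm (1 : GL (Fin m) F) σ) U)
  have h3 := Submodule.finrank_le U
  rw [lB_finrank_eq h1] at h2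
  have key : ∀ x w : Fin m → F, Matrix.toBilin' (1 : Matrix (Fin m) (Fin m) F)
      (semiPerm (1 : GL (Fin m) F) σ w) x = 𝐡 x w := fun x w => by
    rw [Matrix.toBilin'_apply', semiPerm_apply, Units.val_one, Matrix.one_mulVec, Matrix.one_mulVec,
      herm_eq_dotProduct, dotProduct_comm]
    simp only [hσ]
  have e : perp q U = (Matrix.toBilin' (1 : Matrix (Fin m) (Fin m) F)).orthogonal
      (lB_img (isSemi_semiPerm (1 : GL (Fin m) F) σ) U) := by
    ext x
    rw [mem_perp, LinearMap.BilinForm.mem_orthogonal_iff]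
    constructor
    · intro h w hw
      obtain ⟨w, rfl⟩ := (semiPerm (1 : GL (Fin m) F) σ).surjective w
      rw [key, h w ((h1 w).1 hw)]
    · intro h w hw
      rw [← key, h _ ((h1 w).2 hw)]
  rw [Module.finrank_fin_fun] at h2 h3
  rw [e, h2]
  omega

theorem perp_perp (U : Submodule F (Fin m → F)) : perp q (perp q U) = U := by
  have h1 := finrank_perp (q := q) U
  have h2 := finrank_perp (q := q) (perp q U)
  have h3 : U ≤ perp q (perp q U) := fun u hu w hw => herm_comm_zero (hw u hu)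
  exact (Submodule.eq_of_le_of_finrank_eq h3 (by omega)).symm

theorem perp_anti (h : U ≤ W) : perp q W ≤ perp q U := fun _ hx w hw => hx w (h hw)

theorem perp_sup : perp q (U ⊔ W) = perp q U ⊓ perp q W := by
  refine le_antisymm (le_inf (perp_anti le_sup_left) (perp_anti le_sup_right)) fun x hx w hw => ?_
  obtain ⟨a, ha, b, hb, rfl⟩ := Submodule.mem_sup.1 hw
  rw [herm_add_right, hx.1 a ha, hx.2 b hb, add_zero]

theorem mem_perp_span {Y : Set (Fin m → F)} :
    x ∈ perp q (Submodule.span F Y) ↔ ∀ y ∈ Y, 𝐡 x y = 0 := by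
  refine ⟨fun h y hy => h y (Submodule.subset_span hy), fun h w hw => ?_⟩
  induction hw using Submodule.span_induction with
  | mem y hy => exact h y hy
  | zero => exact herm_zero_right _
  | add _ _ _ _ h1 h2 => rw [herm_add_right, h1, h2, add_zero]
  | smul _ _ _ h1 => rw [herm_smul_right, h1, mul_zero]

theorem lB_mem_perp_sup : b ∈ perp q (U ⊔ Submodule.span F {x}) ↔ b ∈ perp q U ∧ 𝐡 b x = 0 := by
  rw [perp_sup, Submodule.mem_inf, mem_perp_span]
  simp

theorem TI.le_perp (h : TI q W) : W ≤ perp q W := fun u hu => h u hu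

theorem dual' (h : b ∉ U) : ∃ y ∈ perp q U, 𝐡 b y = 1 := by
  rw [← perp_perp (q := q) U, mem_perp] at h
  push Not at h
  obtain ⟨y, hy, h⟩ := h
  refine ⟨(𝐡 b y)⁻¹ ^ q • y, Submodule.smul_mem _ _ hy, ?_⟩
  rw [herm_smul_r, lA_pow_pow, inv_mul_cancel₀ h]

theorem dual (hb : 𝐡 b b = 0) (h1 : b ∈ perp q U) (h : b ∉ U) :
    ∃ y ∈ perp q U, 𝐡 y y = 0 ∧ 𝐡 b y = 1 := by
  obtain ⟨y, hy, e⟩ := dual' (q := q) h
  obtain ⟨t, ht⟩ := exists_isotropic_sub hb (e ▸ one_ne_zero : 𝐡 b y ≠ 0)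
  refine ⟨_, sub_mem hy (Submodule.smul_mem _ t h1), ht, ?_⟩
  rw [herm_sub_right, herm_smul_r, hb, e, mul_zero, sub_zero]

theorem TI.finrank_le (h : TI q W) : Module.finrank F W ≤ m / 2 := by
  have h1 := finrank_perp (q := q) W
  have h2 := Submodule.finrank_mono h.le_perp
  omega

theorem TI.sup (h : TI q W) (hx : 𝐡 x x = 0) (h1 : x ∈ perp q W) :
    TI q (W ⊔ Submodule.span F {x}) := by
  change W ⊔ Submodule.span F {x} ≤ perp q (W ⊔ Submodule.span F {x})
  refine sup_le (fun w hw => lB_mem_perp_sup.2 ⟨h.le_perp hw, herm_comm_zero (h1 w hw)⟩) ?_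
  rw [Submodule.span_singleton_le_iff_mem]
  exact lB_mem_perp_sup.2 ⟨h1, hx⟩

theorem lB_finrank_sup (U : Submodule F (Fin m → F)) (x : Fin m → F) :
    Module.finrank F ↥(U ⊔ Submodule.span F {x}) ≤ Module.finrank F U + 1 :=
  (Submodule.finrank_add_le_finrank_add_finrank _ _).trans
    (Nat.add_le_add_left ((finrank_span_le_card _).trans (by simp)) _)

theorem lB_lt_sup (h : x ∉ U) : U < U ⊔ Submodule.span F {x} :=
  lt_of_le_of_ne le_sup_left fun e => h (e ▸ Submodule.mem_sup_right (Submodule.mem_span_singleton_self x))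

/-- a vector of `W` outside a smaller subspace -/
theorem exists_notMem (h : Module.finrank F U < Module.finrank F W) : ∃ v ∈ W, v ∉ U := by
  by_contra h1
  push Not at h1
  exact absurd (Submodule.finrank_mono h1) (by omega)

theorem exists_iso_perp (h : TI q W) (h1 : Module.finrank F W < m / 2) :
    ∃ v ∈ perp q W, v ∉ W ∧ 𝐡 v v = 0 := by
  have h2 := finrank_perp (q := q) W
  obtain ⟨a, ha, ha'⟩ := exists_notMem (U := W) (W := perp q W) (by omega)
  by_cases a0 : 𝐡 a a = 0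
  · exact ⟨a, ha, ha', a0⟩
  have h3 := finrank_perp (q := q) (W ⊔ Submodule.span F {a})
  have h4 := lB_finrank_sup W a
  obtain ⟨b, hb, hb'⟩ := exists_notMem (U := W) (W := perp q (W ⊔ Submodule.span F {a})) (by omega)
  rw [lB_mem_perp_sup] at hb
  by_cases b0 : 𝐡 b b = 0
  · exact ⟨b, hb.1, hb', b0⟩
  obtain ⟨c, hc⟩ := exists_isotropic_of_orth a0 hb.2
  refine ⟨_, add_mem hb.1 (Submodule.smul_mem _ c ha), fun e => b0 ?_, hc⟩
  have := hb.1 _ e
  rwa [herm_add_right, herm_smul_r, hb.2, mul_zero, add_zero] at this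

theorem lB_grow {Q : Submodule F (Fin m → F) → Prop}
    (step : ∀ U, TI q U → Q U → Module.finrank F U < m / 2 → ∃ U', TI q U' ∧ Q U' ∧ U < U')
    (h : TI q U) (h' : Q U) : ∃ W, MTI q W ∧ U ≤ W ∧ Q W := by
  obtain ⟨n, hn⟩ : ∃ n, m / 2 = Module.finrank F U + n := ⟨_, (Nat.add_sub_cancel' h.finrank_le).symm⟩
  induction n using Nat.strong_induction_on generalizing U with
  | _ n ih =>
    rcases Nat.eq_zero_or_pos n with rfl | h0
    · exact ⟨U, ⟨h, hn.symm⟩, le_rfl, h'⟩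
    obtain ⟨U', h1, h2, h3⟩ := step U h h' (by omega)
    have h4 := Submodule.finrank_lt_finrank_of_lt h3
    have h5 := h1.finrank_le
    obtain ⟨W, h6, h7, h8⟩ := ih (m / 2 - Module.finrank F U') (by omega) h1 h2 (by omega)
    exact ⟨W, h6, h3.le.trans h7, h8⟩

theorem TI.exists_MTI (h : TI q U) : ∃ W, MTI q W ∧ U ≤ W := by
  obtain ⟨W, h1, h2, -⟩ := lB_grow (Q := fun _ => True) (fun U hU _ h1 => by
    obtain ⟨v, h2, h3, h4⟩ := exists_iso_perp hU h1
    exact ⟨_, hU.sup h4 h2, trivial, lB_lt_sup h3⟩) h trivial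
  exact ⟨W, h1, h2⟩

theorem MTI.eq_of_le (h : MTI q W) (h' : TI q W') (e : W ≤ W') : W = W' :=
  Submodule.eq_of_le_of_finrank_le e (h.2 ▸ h'.finrank_le)

theorem MTI.mem (h : MTI q W) (hx : 𝐡 x x = 0) (h1 : x ∈ perp q W) : x ∈ W := by
  rw [h.eq_of_le (h.1.sup hx h1) le_sup_left]
  exact Submodule.mem_sup_right (Submodule.mem_span_singleton_self x)

theorem iInf_MTI (h : TI q U) (hx : ∀ W, MTI q W → U ≤ W → x ∈ W) : x ∈ U := by
  obtain ⟨W, hW, e⟩ := h.exists_MTI
  have h1 := hx W hW e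
  by_contra h2
  obtain ⟨y, hy, y0, h3⟩ := dual (hW.1 x h1 x h1) (perp_anti e (hW.1.le_perp h1)) h2
  obtain ⟨W', hW', e'⟩ := (h.sup y0 hy).exists_MTI
  have := hW'.1 x (hx W' hW' (le_sup_left.trans e')) y
    (e' (Submodule.mem_sup_right (Submodule.mem_span_singleton_self y)))
  rw [h3] at this
  exact one_ne_zero this

/-- an element of `SU` as a linear map -/
def lB_lin (g : SU m F q) : (Fin m → F) →ₗ[F] (Fin m → F) where
  toFun v := g • v
  map_add' := smul_add g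
  map_smul' := SU_smul_comm g

theorem lB_indep {ι : Type*} {v : ι → Fin m → F} (hv : LinearIndependent F v) (g : SU m F q) :
    LinearIndependent F fun i => g • v i :=
  hv.map' (lB_lin g) (LinearMap.ker_eq_bot.2 (MulAction.injective g))

theorem lB_partner (hX : Split q X) {ι : Type*} {v : ι → Fin m → F} (hv : LinearIndependent F v)
    (h1 : ∀ i, v i ∈ X) (h2 : ∀ i j, 𝐡 (v i) (v j) = 0) (i : ι) :
    ∃ y ∈ X, 𝐡 y y = 0 ∧ 𝐡 (v i) y = 1 ∧ ∀ k, k ≠ i → 𝐡 (v k) y = 0 := by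
  have hs : Submodule.span F (v '' {i}ᶜ) ≤ X := Submodule.span_le.2 (by
    rintro _ ⟨k, -, rfl⟩; exact h1 k)
  obtain ⟨y, hy, y0, e⟩ := dual (U := Submodule.span F (v '' {i}ᶜ) ⊔ perp q X) (h2 i i)
    (by
      rw [perp_sup, perp_perp]
      exact ⟨mem_perp_span.2 (by rintro _ ⟨k, -, rfl⟩; exact h2 i k), h1 i⟩)
    (fun h => by
      obtain ⟨a, ha, z, hz, e⟩ := Submodule.mem_sup.1 h
      have hz' : z ∈ X := by
        rw [eq_sub_of_add_eq' e]
        exact sub_mem (h1 i) (hs ha)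
      rw [hX.eq_zero hz' fun w hw => herm_comm_zero (hz w hw), add_zero] at e
      exact hv.notMem_span_image (s := {i}ᶜ) (by simp) (e ▸ ha))
  rw [perp_sup, perp_perp] at hy
  exact ⟨y, hy.2, y0, e, fun k hk => herm_comm_zero (mem_perp_span.1 hy.1 _ ⟨k, hk, rfl⟩)⟩

/-- Witt's lemma for totally isotropic tuples, inside a nondegenerate subspace -/
theorem tuple_in (hX : Split q X) {n : ℕ} {v v' : Fin n → Fin m → F} (hv : LinearIndependent F v)
    (hv' : LinearIndependent F v') (h1 : ∀ i, v i ∈ X) (h1' : ∀ i, v' i ∈ X)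
    (h2 : ∀ i j, 𝐡 (v i) (v j) = 0) (h2' : ∀ i j, 𝐡 (v' i) (v' j) = 0) (j : Fin n) :
    ∃ g ∈ SW q X, ∃ l : F, l * l ^ q = 1 ∧ (2 * n < Module.finrank F X → l = 1) ∧
      ∀ i, g • v i = if i = j then l • v' i else v' i := by
  induction n generalizing X with
  | zero => exact j.elim0
  | succ n ih =>
    rcases Nat.eq_zero_or_pos n with rfl | hn
    · have hj : ∀ i : Fin (0 + 1), i = j := fun i => Subsingleton.elim (α := Fin 1) i j
      by_cases h3 : 3 ≤ Module.finrank F X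
      · obtain ⟨g, hg, e⟩ := hX.exists_SW_smul_eq h3 (h1 j) (h1' j) (hv.ne_zero j) (hv'.ne_zero j)
          (h2 j j) (h2' j j)
        exact ⟨g, hg, 1, by simp, fun _ => rfl, fun i => by rw [hj i, if_pos rfl, e, one_smul]⟩
      · obtain ⟨g, hg, l, l0, e⟩ := hX.exists_SW_line (h1 j) (h1' j) (hv.ne_zero j) (hv'.ne_zero j)
          (h2 j j) (h2' j j)
        obtain ⟨y, hy, y0, e1⟩ := hX.exists_partner (h1' j) (hv'.ne_zero j) (h2' j j)
        have n0 : l * l ^ q ≠ 0 := mul_ne_zero l0 (lA_pow_ne l0)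
        obtain ⟨c, hc, hc'⟩ := exists_sqrt (q := q) (a := (l * l ^ q)⁻¹)
          (by rw [inv_pow, mul_pow, lA_pow_pow, mul_comm])
        obtain ⟨k, hk, e2⟩ := exists_SW_scale (h1' j) hy (h2' j j) y0 e1 (l := c)
          (fun h => inv_ne_zero n0 (by rw [← hc', h, mul_zero])) hc
        refine ⟨k * g, mul_mem hk hg, l * c, ?_, fun h => by omega, fun i => ?_⟩
        · rw [mul_pow, hc, mul_mul_mul_comm, hc', mul_inv_cancel₀ n0]
        · rw [hj i, if_pos rfl, mul_smul, e, SU_smul_comm, e2, smul_smul]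
    · have : Nontrivial (Fin (n + 1)) := Fin.nontrivial_iff_two_le.2 (by omega)
      obtain ⟨i, hi⟩ := exists_ne j
      obtain ⟨j, rfl⟩ := Fin.exists_succAbove_eq hi.symm
      obtain ⟨y, hy, y0, e1, e2⟩ := lB_partner hX hv h1 h2 i
      obtain ⟨y', hy', y0', e1', e2'⟩ := lB_partner hX hv' h1' h2' i
      have h3 : 3 ≤ Module.finrank F X := by
        have hs : Submodule.span F (Set.range v) < X := by
          refine lt_of_le_of_ne (Submodule.span_le.2 (by rintro _ ⟨k, rfl⟩; exact h1 k)) fun e => ?_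
          have := ti_span (q := q) (X := Set.range v) (by rintro _ ⟨k, rfl⟩ _ ⟨k', rfl⟩; exact h2 k k')
            (v i) (Submodule.subset_span ⟨i, rfl⟩) y (e ▸ hy)
          rw [e1] at this
          exact one_ne_zero this
        have := Submodule.finrank_lt_finrank_of_lt hs
        rw [finrank_span_eq_card hv, Fintype.card_fin] at this
        omega
      obtain ⟨g, hg, e3, e4⟩ := hX.exists_SW_pair h3 (h1 i) hy (h1' i) hy' (h2 i i) y0 (h2' i i) y0'
        (e1.trans e1'.symm) (e1 ▸ one_ne_zero)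
      obtain ⟨k, hk, l, hl, hl', e5⟩ := ih (hX.perp2 (h1' i) hy' (h2' i i) y0' e1')
        (v := fun k => g • v (i.succAbove k)) (v' := fun k => v' (i.succAbove k))
        (lB_indep (hv.comp _ Fin.succAbove_right_injective) g)
        (hv'.comp _ Fin.succAbove_right_injective)
        (fun k => ⟨SW_smul_mem hg (h1 _), by rw [← e3, SU_herm, h2],
          by rw [← e4, SU_herm, e2 _ (Fin.succAbove_ne i k)]⟩)
        (fun k => ⟨h1' _, h2' _ _, e2' _ (Fin.succAbove_ne i k)⟩)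
        (fun k k' => by rw [SU_herm, h2]) (fun k k' => h2' _ _) j
      refine ⟨k * g, mul_mem (SW_mono (fun x hx => (mem_perp2.1 hx).1) hk) hg, l, hl, fun h => hl' ?_, fun t => ?_⟩
      · have := finrank_le_perp2 (q := q) X (v' i) y'
        omega
      · rcases Fin.eq_self_or_eq_succAbove i t with rfl | ⟨t, rfl⟩
        · rw [if_neg hi, mul_smul, e3, SW_smul_of_orth hk fun w hw => herm_comm_zero hw.2.1]
        · rw [mul_smul, e5]
          simp only [Fin.succAbove_right_inj]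

theorem exists_pair (hm : 5 ≤ m) (h : O2 q u w) (hi : LinearIndependent F ![u, w]) (h' : O2 q u' w')
    (hi' : LinearIndependent F ![u', w']) : ∃ g : SU m F q, g • u = u' ∧ g • w = w' := by
  obtain ⟨g, -, l, -, hl, e⟩ := tuple_in (q := q) split_top hi hi' (fun _ => trivial) (fun _ => trivial)
    (fun i j => by fin_cases i <;> fin_cases j <;> simp [h.l, h.r, h.lr, h.rl])
    (fun i j => by fin_cases i <;> fin_cases j <;> simp [h'.l, h'.r, h'.lr, h'.rl]) 0
  obtain rfl := hl (by rw [finrank_top, Module.finrank_fin_fun]; omega)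
  exact ⟨g, by simpa using e 0, by simpa using e 1⟩

theorem SI.exists_mv (h : SI q s γ) (W : Submodule F (Fin m → F)) : ∃ W', Mv γ W W' ∧
    Module.finrank F W' = Module.finrank F W ∧ (TI q W → TI q W') ∧ Mv γ (perp q W) (perp q W') := by
  have h1 := lB_mv_img h.semi W
  have := UF.finite (F := F) q
  refine ⟨_, h1, lB_finrank_eq h1, fun hW u hu w hw => ?_, fun v => ⟨fun e w hw => ?_,
    fun e w hw => ?_⟩⟩
  · obtain ⟨u, rfl⟩ := γ.surjective u
    obtain ⟨w, rfl⟩ := γ.surjective w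
    rw [h.herm, hW u ((h1 u).1 hu) w ((h1 w).1 hw), map_zero]
  · have := e _ ((h1 w).2 hw)
    rwa [h.herm, map_eq_zero] at this
  · obtain ⟨w, rfl⟩ := γ.surjective w
    rw [h.herm, e w ((h1 w).1 hw), map_zero]

theorem Mv.uniq {f : Equiv.Perm (Fin m → F)} (h : Mv f W U) (h' : Mv f W W') : U = W' := by
  ext v
  obtain ⟨v, rfl⟩ := f.surjective v
  rw [h, h']

theorem mv_of_le (h : SI q s γ) (e : ∀ v ∈ W, γ v ∈ W') (e' : Module.finrank F W = Module.finrank F W') :
    Mv γ W W' := by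
  obtain ⟨U, h1, h2, -⟩ := h.exists_mv W
  rwa [← Submodule.eq_of_le_of_finrank_eq (fun v hv => by
    obtain ⟨v, rfl⟩ := γ.surjective v
    exact e v ((h1 v).1 hv)) (h2.trans e')]

theorem lB_mv_perp (h : SI q s γ) (e : Mv γ W W') : Mv γ (perp q W) (perp q W') := by
  obtain ⟨U, h1, -, -, h2⟩ := h.exists_mv W
  rwa [e.uniq h1]

theorem lB_ext (hu : u ∈ W) (h0 : u ≠ 0) (n : ℕ) (hn : n + 1 ≤ Module.finrank F W) :
    ∃ v : Fin (n + 1) → Fin m → F, LinearIndependent F v ∧ (∀ i, v i ∈ W) ∧ v 0 = u := by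
  suffices ∃ v : Fin (n + 1) → W, LinearIndependent F v ∧ v 0 = ⟨u, hu⟩ by
    obtain ⟨v, h1, h2⟩ := this
    exact ⟨fun i => v i, h1.map' W.subtype W.ker_subtype, fun i => (v i).2, congrArg Subtype.val h2⟩
  induction n with
  | zero =>
    exact ⟨fun _ => ⟨u, hu⟩, (linearIndependent_unique_iff (ι := Fin 1)).2 fun e =>
      h0 (congrArg Subtype.val e), rfl⟩
  | succ n ih =>
    obtain ⟨v, h1, h2⟩ := ih (by omega)
    obtain ⟨x, hx⟩ := exists_linearIndependent_snoc_of_lt_finrank h1 hn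
    exact ⟨_, hx, by rw [← h2, ← Fin.castSucc_zero, Fin.snoc_castSucc]⟩

theorem lB_trans (h : MTI q W) (h' : MTI q W') {n : ℕ} (hn : m / 2 = n) {v v' : Fin n → Fin m → F}
    (hv : LinearIndependent F v) (hv' : LinearIndependent F v') (h1 : ∀ i, v i ∈ W)
    (h1' : ∀ i, v' i ∈ W') (j : Fin n) :
    ∃ g : SU m F q, Mv (g • ·) W W' ∧ ∀ i, i ≠ j → g • v i = v' i := by
  obtain ⟨g, -, l, -, -, e⟩ := tuple_in split_top hv hv' (fun _ => trivial) (fun _ => trivial)
    (fun i j => h.1 _ (h1 i) _ (h1 j)) (fun i j => h'.1 _ (h1' i) _ (h1' j)) j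
  refine ⟨g, mv_of_le (si_su g) (fun x hx => ?_) (h.2.trans h'.2.symm), fun i hi => by
    rw [e, if_neg hi]⟩
  have e1 : Submodule.span F (Set.range v) = W := Submodule.eq_of_le_of_finrank_eq
    (Submodule.span_le.2 (by rintro _ ⟨k, rfl⟩; exact h1 k))
    (by rw [finrank_span_eq_card hv, Fintype.card_fin, h.2, hn])
  rw [← e1] at hx
  refine (Submodule.span_le (p := W'.comap (lB_lin g))).2 ?_ hx
  rintro _ ⟨i, rfl⟩
  change g • v i ∈ W'
  rw [e]
  split_ifs
  exacts [W'.smul_mem _ (h1' i), h1' i]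

theorem MTI.trans (h : MTI q W) (h' : MTI q W') : ∃ g : SU m F q, Mv (g • ·) W W' := by
  rcases hn : m / 2 with _ | n
  · have e := Submodule.finrank_eq_zero.1 (h.2.trans hn)
    have e' := Submodule.finrank_eq_zero.1 (h'.2.trans hn)
    exact ⟨1, fun v => by simp [e, e']⟩
  obtain ⟨u, hu, h0⟩ := exists_notMem (U := ⊥) (W := W) (by rw [finrank_bot, h.2]; omega)
  obtain ⟨u', hu', h0'⟩ := exists_notMem (U := ⊥) (W := W') (by rw [finrank_bot, h'.2]; omega)
  obtain ⟨v, a1, a2, -⟩ := lB_ext hu h0 n (by rw [h.2, hn])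
  obtain ⟨v', b1, b2, -⟩ := lB_ext hu' h0' n (by rw [h'.2, hn])
  obtain ⟨g, hg, -⟩ := lB_trans h h' hn a1 b1 a2 b2 0
  exact ⟨g, hg⟩

theorem MTI.trans_vec (hm : 4 ≤ m) (h : MTI q W) (h' : MTI q W') (hu : u ∈ W) (hu' : u' ∈ W')
    (h0 : u ≠ 0) (h0' : u' ≠ 0) : ∃ g : SU m F q, Mv (g • ·) W W' ∧ g • u = u' := by
  obtain ⟨n, hn⟩ : ∃ n, m / 2 = n + 1 + 1 := ⟨m / 2 - 2, by omega⟩
  obtain ⟨v, a1, a2, a3⟩ := lB_ext hu h0 (n + 1) (by rw [h.2, hn])
  obtain ⟨v', b1, b2, b3⟩ := lB_ext hu' h0' (n + 1) (by rw [h'.2, hn])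
  obtain ⟨g, hg, e⟩ := lB_trans h h' hn a1 b1 a2 b2 1
  exact ⟨g, hg, by rw [← a3, ← b3, e 0 zero_ne_one]⟩

theorem lB_H0 (h : TI q W) (hX : X ≤ perp q W) (hX' : X ⊓ W = ⊥)
    (hx : x ∈ W) (hx' : x' ∈ W) (h0 : x ≠ 0) (h0' : x' ∉ Submodule.span F {x}) :
    ∃ g : SU m F q, g • x = x' ∧ (∀ y ∈ X, g • y = y) ∧ ∀ y ∈ perp q W, g • y + y ∈ W := by
  have hw := add_mem hx hx'
  obtain ⟨y, hy, y0, e⟩ := dual (U := X ⊔ Submodule.span F {x + x'}) (h x hx x hx)
    (lB_mem_perp_sup.2 ⟨fun z hz => herm_comm_zero (hX hz x hx), h _ hx _ hw⟩) (fun e => by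
      obtain ⟨z, hz, _, hc, e⟩ := Submodule.mem_sup.1 e
      obtain ⟨c, rfl⟩ := Submodule.mem_span_singleton.1 hc
      have z0 : z ∈ X ⊓ W := ⟨hz, by rw [eq_sub_of_add_eq e]; exact sub_mem hx (W.smul_mem c hw)⟩
      rw [hX', Submodule.mem_bot] at z0
      rw [z0, zero_add] at e
      have c0 : c ≠ 0 := fun h => h0 (by rw [← e, h, zero_smul])
      refine h0' (Submodule.mem_span_singleton.2 ⟨c⁻¹ - 1, ?_⟩)
      rw [sub_smul, one_smul, sub_eq_iff_eq_add', inv_smul_eq_iff₀ c0, e])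
  rw [lB_mem_perp_sup] at hy
  have o : O2 q y (x + x') := ⟨y0, h _ hw _ hw, hy.2⟩
  refine ⟨S q y (x + x'), ?_, fun z hz => ?_, fun z hz => ?_⟩
  · rw [S_smul o, e, h _ hx _ hw, one_smul, zero_smul, add_zero, ← add_assoc, lA_add_self, zero_add]
  · rw [S_smul o, herm_comm_zero (hy.1 z hz), hX hz _ hw]
    simp
  · rw [S_smul o, hz _ hw, zero_smul, add_zero, add_right_comm, lA_add_self, zero_add]
    exact W.smul_mem _ hw

theorem exists_H0 (h : TI q W) (h2 : 2 ≤ Module.finrank F W) (hX : X ≤ perp q W) (hX' : X ⊓ W = ⊥)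
    (hx : x ∈ W) (hx' : x' ∈ W) (h0 : x ≠ 0) (h0' : x' ≠ 0) : ∃ g : SU m F q, g • x = x' ∧
      (∀ y ∈ X, g • y = y) ∧ ∀ y ∈ perp q W, g • y + y ∈ W := by
  by_cases e : x' ∈ Submodule.span F {x}
  swap
  · exact lB_H0 h hX hX' hx hx' h0 e
  obtain ⟨z, hz, hz'⟩ := exists_notMem (U := Submodule.span F {x}) (W := W)
    (by rw [finrank_span_singleton h0]; omega)
  obtain ⟨g, a1, a2, a3⟩ := lB_H0 h hX hX' hx hz h0 hz'
  obtain ⟨k, b1, b2, b3⟩ := lB_H0 h hX hX' hz hx' (fun h => hz' (h ▸ zero_mem _)) fun h => by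
    obtain ⟨c, rfl⟩ := Submodule.mem_span_singleton.1 h
    exact hz' ((Submodule.smul_mem_iff _ (left_ne_zero_of_smul h0')).1 e)
  refine ⟨k * g, by rw [mul_smul, a1, b1], fun y hy => by rw [mul_smul, a2 y hy, b2 y hy],
    fun y hy => ?_⟩
  have h3 : g • y ∈ perp q W := (add_mem_cancel_right hy).1 (h.le_perp (a3 y hy))
  have := add_mem (b3 _ h3) (a3 y hy)
  rwa [add_assoc, ← add_assoc (g • y), lA_add_self, zero_add, ← mul_smul] at this

theorem lB_fix {P : Subgroup (Equiv.Perm (Fin m → F))} (hP : IsPGroup 2 P)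
    (h : ∀ γ ∈ P, ∃ s : F ≃+* F, SI q s γ) (hU : ∀ γ ∈ P, Mv γ U U) (hW : ∀ γ ∈ P, Mv γ W W)
    (hx : x ∈ W) (hx' : x ∉ U) : ∃ y ∈ W, y ∉ U ∧ ∀ γ ∈ P, γ y + y ∈ U := by
  have := UF.finite (F := F) q
  let A := U.comap W.subtype
  letI : MulAction P (W ⧸ A) :=
    { smul := fun γ => Quotient.map' (fun x : W => ⟨γ.1 x, (hW γ γ.2 x).2 x.2⟩) fun x y e => by
        obtain ⟨s, hs⟩ := h γ γ.2
        rw [Submodule.quotientRel_def] at e ⊢
        change γ.1 x - γ.1 y ∈ U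
        rw [← hs.semi.sub]
        exact (hU γ γ.2 _).2 e
      one_smul := fun x => Quotient.inductionOn' x fun _ => rfl
      mul_smul := fun _ _ x => Quotient.inductionOn' x fun _ => rfl }
  have e : ∀ (γ : P) (x : W), γ • (Submodule.Quotient.mk x : W ⧸ A) =
      Submodule.Quotient.mk ⟨γ.1 x, (hW γ γ.2 x).2 x.2⟩ := fun _ _ => rfl
  have h2 : 2 ∣ Nat.card (W ⧸ A) := by
    have : addOrderOf (Submodule.Quotient.mk ⟨x, hx⟩ : W ⧸ A) = 2 := addOrderOf_eq_prime (by
      rw [two_nsmul, ← Submodule.Quotient.mk_add, Submodule.Quotient.mk_eq_zero]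
      change x + x ∈ U
      rw [lA_add_self]; exact zero_mem _) fun e => hx' ((Submodule.Quotient.mk_eq_zero A).1 e)
    exact this ▸ addOrderOf_dvd_natCard _
  have : Finite (W ⧸ A) := Finite.of_surjective _ (Submodule.Quotient.mk_surjective A)
  obtain ⟨b, hb, hb'⟩ := hP.exists_fixed_point_of_prime_dvd_card_of_fixed_point (W ⧸ A) h2
    (a := Submodule.Quotient.mk 0) fun γ => by
      obtain ⟨s, hs⟩ := h γ γ.2
      rw [e]
      congr 1
      exact Subtype.ext hs.semi.zero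
  obtain ⟨y, rfl⟩ := Submodule.Quotient.mk_surjective A b
  refine ⟨y, y.2, fun hy => hb' ((Submodule.Quotient.mk_eq_zero A).2 hy).symm, fun γ hγ => ?_⟩
  have := hb ⟨γ, hγ⟩
  rw [e, Submodule.Quotient.eq] at this
  rw [← lA_sub]
  exact this

theorem lB_mv_sup (h : SI q s γ) (hU : Mv γ U U) (e : γ x + x ∈ U) :
    Mv γ (U ⊔ Submodule.span F {x}) (U ⊔ Submodule.span F {x}) := by
  refine mv_of_le h (fun v hv => ?_) rfl
  obtain ⟨z, hz, _, hc, rfl⟩ := Submodule.mem_sup.1 hv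
  obtain ⟨c, rfl⟩ := Submodule.mem_span_singleton.1 hc
  rw [h.semi.add, h.semi.smul]
  refine add_mem (Submodule.mem_sup_left ((hU z).2 hz)) (Submodule.smul_mem _ _ ?_)
  exact (add_mem_cancel_right (Submodule.mem_sup_right (Submodule.mem_span_singleton_self x))).1
    (Submodule.mem_sup_left e)

theorem lB_fix_herm (h : SI q s γ) (hU : TI q U) (hx : x ∈ perp q U) (e : γ x + x ∈ U) :
    s (𝐡 x x) = 𝐡 x x := by
  obtain ⟨u, hu, e'⟩ : ∃ u ∈ U, γ x = x + u :=
    ⟨_, e, by rw [add_comm (γ x), ← add_assoc, lA_add_self, zero_add]⟩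
  rw [← h.herm, e', herm_add_left, herm_add_right, herm_add_right, hx u hu, herm_comm_zero (hx u hu),
    hU u hu u hu]
  simp

/-- a `2`-group of semilinear isometries stabilises a maximal totally isotropic subspace -/
theorem exists_MTI_inv {P : Subgroup (Equiv.Perm (Fin m → F))} (hP : IsPGroup 2 P)
    (h : ∀ γ ∈ P, ∃ s : F ≃+* F, SI q s γ) (hU : TI q U) (hU' : ∀ γ ∈ P, Mv γ U U) :
    ∃ W, MTI q W ∧ U ≤ W ∧ ∀ γ ∈ P, Mv γ W W := by
  refine lB_grow (Q := fun W => ∀ γ ∈ P, Mv γ W W) (fun U hU hU' h1 => ?_) hU hU'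
  suffices ∃ z ∈ perp q U, z ∉ U ∧ 𝐡 z z = 0 ∧ ∀ γ ∈ P, γ z + z ∈ U by
    obtain ⟨z, a1, a2, a3, a4⟩ := this
    refine ⟨_, hU.sup a3 a1, fun γ hγ => ?_, lB_lt_sup a2⟩
    obtain ⟨s, hs⟩ := h γ hγ
    exact lB_mv_sup hs (hU' γ hγ) (a4 γ hγ)
  obtain ⟨v, hv, hv', -⟩ := exists_iso_perp hU h1
  obtain ⟨x, hx, hx', fx⟩ := lB_fix hP h hU' (fun γ hγ => by
    obtain ⟨s, hs⟩ := h γ hγ
    exact lB_mv_perp hs (hU' γ hγ)) hv hv'
  by_cases x0 : 𝐡 x x = 0
  · exact ⟨x, hx, hx', x0, fx⟩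
  have h3 := finrank_perp (q := q) (U ⊔ Submodule.span F {x})
  have h4 := lB_finrank_sup U x
  obtain ⟨b, hb, hb'⟩ := exists_notMem (U := U) (W := perp q (U ⊔ Submodule.span F {x})) (by omega)
  obtain ⟨y, hy, hy', fy⟩ := lB_fix hP h hU' (fun γ hγ => by
    obtain ⟨s, hs⟩ := h γ hγ
    exact lB_mv_perp hs (lB_mv_sup hs (hU' γ hγ) (fx γ hγ))) hb hb'
  rw [lB_mem_perp_sup] at hy
  by_cases y0 : 𝐡 y y = 0
  · exact ⟨y, hy.1, hy', y0, fy⟩
  obtain ⟨c, hc, hc'⟩ := exists_sqrt (q := q) (a := 𝐡 x x / 𝐡 y y) (by rw [div_pow, herm_pow, herm_pow])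
  refine ⟨x + c • y, add_mem hx (Submodule.smul_mem _ c hy.1), fun e => x0 ?_, ?_, fun γ hγ => ?_⟩
  · have := hx _ e
    rwa [herm_add_right, herm_smul_r, herm_comm_zero hy.2, mul_zero, add_zero] at this
  · rw [eq_div_iff y0] at hc'
    simp only [herm_add_left, herm_add_right, herm_smul_left, herm_smul_r, hy.2, herm_comm_zero hy.2, hc]
    grind
  · obtain ⟨s, hs⟩ := h γ hγ
    have e1 : s c * s c = c * c := by
      rw [← map_mul, hc', map_div₀, lB_fix_herm hs hU hx (fx γ hγ), lB_fix_herm hs hU hy.1 (fy γ hγ)]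
    have e2 : s c = c := by
      have : (s c - c) ^ 2 = 0 := by grind
      exact sub_eq_zero.1 (pow_eq_zero_iff two_ne_zero |>.1 this)
    rw [hs.semi.add, hs.semi.smul, e2, add_add_add_comm, ← smul_add]
    exact add_mem (fx γ hγ) (U.smul_mem c (fy γ hγ))

theorem exists_MTI_inv' {P : Subgroup (SU m F q)} (hP : IsPGroup 2 P) :
    ∃ W : Submodule F (Fin m → F), MTI q W ∧ ∀ g ∈ P, Mv (g • ·) W W := by
  obtain ⟨W, h1, -, h2⟩ := exists_MTI_inv (q := q) (U := ⊥)
    (hP.map (MulAction.toPermHom (SU m F q) (Fin m → F)))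
    (by rintro _ ⟨g, -, rfl⟩; exact ⟨1, si_su g⟩)
    (fun u hu w _ => by rw [(Submodule.mem_bot F).1 hu, herm_zero_left])
    (by rintro _ ⟨g, -, rfl⟩; exact mv_of_le (si_su g) (fun v hv => by
      rw [(Submodule.mem_bot F).1 hv]; exact (si_su g).semi.zero) rfl)
  exact ⟨W, h1, fun g hg => h2 _ ⟨g, hg, rfl⟩⟩

theorem MTI.eq_of_T (h : MTI q W) (h' : MTI q W') (e : ∀ v ∈ W, ∀ x ∈ W', T q v 1 • x ∈ W') :
    W = W' := by
  refine h.eq_of_le h'.1 fun v hv => ?_
  have v0 := h.1 v hv v hv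
  by_cases h1 : v ∈ perp q W'
  · exact h'.mem v0 h1
  rw [mem_perp] at h1
  push Not at h1
  obtain ⟨x, hx, h1⟩ := h1
  have := e v hv x hx
  rwa [T_smul v0 (one_pow q), one_mul, add_mem_cancel_left hx,
    Submodule.smul_mem_iff _ (herm_comm_ne h1)] at this

end Cfsg.Agent.StdU
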