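import Cfsg.Agent.StdU.LinV
import Cfsg.Agent.KSG.Descent

/-! Rigidity of semilinear isometries; fixed vectors (Galois descent). -/

set_option autoImplicit false
set_option linter.unusedSectionVars false

namespace Cfsg.Agent.StdU

open Subgroup Cfsg.Agent.Class.U Cfsg.Agent.KSG Cfsg.Agent.PLocal.Amb
open Cfsg.Agent.StdL (El Od Uq cjh)
open scoped commutatorElement

variable {F : Type*} [Field F] {m q : ℕ} [UF F q] [CharP F 2]

local notation "𝐡" => hermForm m F q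

variable {U W : Submodule F (Fin m → F)} {f : Fin m → F} {e : F} {s : F ≃+* F}
  {γ : Equiv.Perm (Fin m → F)}

theorem lC_pair {u w : Fin m → F} (hu : u ≠ 0) (hw : w ∉ Submodule.span F {u}) {a b c d : F}
    (h : a • u + b • w = c • u + d • w) : a = c ∧ b = d := by
  have h1 : (b - d) • w = (c - a) • u := by
    rw [sub_smul, sub_smul, sub_eq_sub_iff_add_eq_add, add_comm, h]
  have h2 : b = d := by
    by_contra c
    exact hw ((Submodule.smul_mem_iff _ (sub_ne_zero.2 c)).1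
      (h1 ▸ Submodule.smul_mem _ _ (Submodule.mem_span_singleton_self u)))
  rw [h2] at h
  exact ⟨smul_left_injective F hu (add_right_cancel h), h2⟩

theorem lC_sq {l : F} (h : l * l = 1) : l = 1 := by
  rcases mul_self_eq_one_iff.1 h with e | e
  exacts [e, e.trans (CharTwo.neg_eq 1)]

theorem lC_two {l : F} {j : ℕ} (h : l ^ 2 ^ j = 1) : l = 1 := by
  induction j with
  | zero => simpa using h
  | succ j ih => exact ih (lC_sq (by rw [← pow_two, ← pow_mul, ← pow_succ, h]))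

theorem SI.lC_ne (h : SI q s γ) {v : Fin m → F} (hv : v ≠ 0) : γ v ≠ 0 := fun e =>
  hv (γ.injective (e.trans h.semi.zero.symm))

theorem SI.of_fix_pts (h : SI q s γ) (h2 : 2 ≤ Module.finrank F W)
    (hp : ∀ v ∈ W, ∃ l : F, γ v = l • v) : s = 1 ∧ ∃ l : F, ∀ v ∈ W, γ v = l • v := by
  obtain ⟨u, hu, u0⟩ := exists_notMem (U := ⊥) (W := W) (by rw [finrank_bot]; omega)
  obtain ⟨l, hl⟩ := hp u hu
  have key : ∀ w ∈ W, w ∉ Submodule.span F {u} → γ w = l • w ∧ ∀ a, s a = a := fun w hw e => by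
    obtain ⟨l', hl'⟩ := hp w hw
    have h1 : ∀ a, s a * l' = l * a := fun a => by
      obtain ⟨μ, hμ⟩ := hp _ (W.add_mem hu (W.smul_mem a hw))
      rw [h.semi.add, h.semi.smul, hl, hl', smul_add, smul_smul, smul_smul] at hμ
      obtain ⟨rfl, e⟩ := lC_pair u0 e hμ
      exact e
    obtain rfl : l' = l := by simpa using h1 1
    exact ⟨hl', fun a => mul_right_cancel₀ (fun c => h.lC_ne u0 (by rw [hl, c, zero_smul]))
      ((h1 a).trans (mul_comm _ _))⟩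
  obtain ⟨w, hw, w0⟩ := exists_notMem (U := Submodule.span F {u}) (W := W)
    (by rw [finrank_span_singleton u0]; omega)
  have h3 := (key w hw w0).2
  refine ⟨RingEquiv.ext h3, l, fun v hv => ?_⟩
  by_cases e : v ∈ Submodule.span F {u}
  · obtain ⟨a, rfl⟩ := Submodule.mem_span_singleton.1 e
    rw [h.semi.smul, h3, hl, smul_comm]
  · exact (key v hv e).1

theorem SI.lC_gl (h : SI q s γ) : ∃ g : GU m F q, γ = semiPerm (g : GL (Fin m) F) s := by
  obtain ⟨g, rfl⟩ := exists_semiPerm h.semi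
  refine ⟨⟨g, mem_GU_iff.2 fun u v => ?_⟩, rfl⟩
  have := h.herm (fun i => s.symm (u i)) fun i => s.symm (v i)
  rw [← herm_map] at this
  simpa [semiPerm_apply] using this

theorem SI.lC_gu (h : SI q (1 : F ≃+* F) γ) : ∃ g : GU m F q, ∀ v, g • v = γ v :=
  let ⟨g, e⟩ := h.lC_gl
  ⟨g, fun _ => e ▸ rfl⟩

theorem SI.lC_scal (hm : 1 ≤ m) (h : SI q s γ) (hN : ∀ v, γ v = e • v) : s = 1 ∧ e * e ^ q = 1 := by
  let u : Fin m → F := Pi.single ⟨0, hm⟩ 1
  have h1 : 𝐡 u u = 1 := by rw [herm_single_single, if_pos rfl]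
  have h2 := h.herm u u
  rw [hN, herm_smul_left, herm_smul_r, h1, mul_one, map_one] at h2
  refine ⟨h.semi.uniq ⟨h.semi.add, fun c x => ?_⟩ (v := u) fun c => ?_, h2⟩
  · rw [hN, hN, smul_comm]; rfl
  · rw [c, herm_zero_left] at h1; exact zero_ne_one h1

theorem lC_inv {l : F} (h : l * l ^ q = 1) : l⁻¹ * l⁻¹ ^ q = 1 := by
  rw [inv_pow, ← mul_inv, h, inv_one]

theorem SI.su_of_two (h : SI q (1 : F ≃+* F) γ) {j : ℕ} (h2 : ∀ v, (γ ^ 2 ^ j) v = e • v) :
    ∃ l : F, l * l ^ q = 1 ∧ ∃ g : SU m F q, g ^ 2 ^ j = 1 ∧ ∀ v, γ v = l • g • v := by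
  rcases Nat.eq_zero_or_pos m with rfl | hm
  · exact ⟨1, by simp, 1, one_pow _, fun v => Subsingleton.elim _ _⟩
  have : Finite F := UF.finite q
  obtain ⟨l, rfl⟩ := (iterateFrobeniusEquiv F 2 j).surjective e
  rw [iterateFrobeniusEquiv_def] at h2
  have h3 : l * l ^ q = 1 := lC_two (j := j) (by
    rw [mul_pow, pow_right_comm, ((h.pow _).lC_scal hm h2).2])
  have l0 : l ≠ 0 := left_ne_zero_of_mul_eq_one h3
  obtain ⟨γ', h4, h5, -⟩ := h.scal (lC_inv h3)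
  obtain ⟨k, hk⟩ := h4.lC_gu
  have h6 : ∀ (n : ℕ) v, k ^ n • v = l⁻¹ ^ n • (γ ^ n) v := fun n v => by
    induction n with
    | zero => simp
    | succ n ih =>
      rw [pow_succ', mul_smul, ih, hk, h5, h.semi.smul, smul_smul, pow_succ', pow_succ']
      rfl
  have h7 : k ^ 2 ^ j = 1 := GU_ext fun v => by
    rw [h6, h2, smul_smul, ← mul_pow, inv_mul_cancel₀ l0, one_pow, one_smul, one_smul]
  obtain ⟨g, hg⟩ := exists_su (g := k) (lC_two (j := j) (by
    rw [← coe_detGU, ← Units.val_pow_eq_pow_val, ← map_pow, h7, map_one, Units.val_one]))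
  exact ⟨l, h3, g, toGU_injective (by rw [map_pow, hg, h7, map_one]), fun v => by
    rw [← toGU_smul, hg, hk, h5, smul_inv_smul₀ l0]⟩

theorem SI.lC_T (h : SI q s γ) {v : Fin m → F} (hv : 𝐡 v v = 0) (e : Rel γ (T q v 1) (T q v 1)) :
    ∃ l : F, γ v = l • v := by
  by_cases v0 : v = 0
  · exact ⟨1, by rw [v0, h.semi.zero, smul_zero]⟩
  have h1 := e.uniq (h.rel_T hv (one_pow q))
  rw [map_one] at h1
  exact (T_eq_T hv (by rw [h.herm, hv, map_zero]) v0 (one_pow q) one_ne_zero (one_pow q) h1).imp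
    fun _ e => e.1

theorem lC_two_le (hm : 4 ≤ m) (hW : MTI q W) : 2 ≤ Module.finrank F W := by rw [hW.2]; omega

theorem SI.scalar (hm : 4 ≤ m) (h : SI q s γ)
    (hT : ∀ v, 𝐡 v v = 0 → Rel γ (T q v 1) (T q v 1)) :
    s = 1 ∧ ∃ l : F, l * l ^ q = 1 ∧ ∀ v, γ v = l • v := by
  obtain ⟨W, hW, -⟩ := TI.exists_MTI (q := q) (U := (⊥ : Submodule F (Fin m → F))) fun u hu w _ => by
    rw [(Submodule.mem_bot F).1 hu, herm_zero_left]
  obtain ⟨rfl, -⟩ := h.of_fix_pts (lC_two_le hm hW) fun v hv =>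
    h.lC_T (hW.1 v hv v hv) (hT v (hW.1 v hv v hv))
  obtain ⟨k, hk⟩ := h.lC_gu
  obtain ⟨l, hl⟩ := exists_scalar_of_fix_lines (q := q) (by omega)
    (M := ((k : GL (Fin m) F) : Matrix (Fin m) (Fin m) F)) fun u hu => by
      rw [← GU_smul_def, hk]; exact h.lC_T hu (hT u hu)
  have h1 : ∀ v, γ v = l • v := fun v => by rw [← hk, GU_smul_def, hl]
  exact ⟨rfl, l, (h.lC_scal (by omega) h1).2, h1⟩

/-- normalisation on a maximal subspace -/
theorem SI.lC_norm (hm : 4 ≤ m) (h : SI q s γ) (hW : MTI q W)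
    (hT : ∀ v ∈ W, Rel γ (T q v 1) (T q v 1)) : s = 1 ∧ ∃ l : F, l * l ^ q = 1 ∧
      ∃ γ', SI q (1 : F ≃+* F) γ' ∧ (∀ v, γ v = l • γ' v) ∧ (∀ v ∈ W, γ' v = v) ∧
        ∀ g g' : SU m F q, Rel γ g g' → Rel γ' g g' := by
  obtain ⟨rfl, l, hl⟩ := h.of_fix_pts (lC_two_le hm hW) fun v hv => h.lC_T (hW.1 v hv v hv) (hT v hv)
  obtain ⟨u, hu, u0⟩ := exists_notMem (U := ⊥) (W := W) (by
    rw [finrank_bot]; have := lC_two_le hm hW; omega)
  have h0 := hW.1 u hu u hu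
  have h1 := (hT u hu).uniq (h.rel_T h0 (one_pow q))
  rw [map_one, hl u hu, T_smul_vec h0 (one_pow q), mul_one] at h1
  have h2 := (T_inj h0 u0 (one_pow q) (by rw [mul_pow, lA_pow_pow, mul_comm]) h1).symm
  have l0 : l ≠ 0 := left_ne_zero_of_mul_eq_one h2
  obtain ⟨γ', h4, h5, h6⟩ := h.scal (lC_inv h2)
  exact ⟨rfl, l, h2, γ', h4, fun v => by rw [h5, smul_inv_smul₀ l0],
    fun v hv => by rw [h5, hl v hv, inv_smul_smul₀ l0], fun g g' => (h6 g g').2⟩

theorem SI.lC_sg (h : SI q (1 : F ≃+* F) γ) {w : Fin m → F} (w0 : w ≠ 0) (hw : 𝐡 w w = 0)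
    (h1 : γ w = w) (h2 : ∀ y ∈ U, 𝐡 y w = 0)
    (h3 : ∀ y ∈ U, ∀ a, Ok q w y a → Rel γ (sg q w y a) (sg q w y a)) : ∀ y ∈ U, γ y = y := by
  have key : ∀ y ∈ U, ∃ b : F, b ^ q = b ∧ γ y = y + b • w := fun y hy => by
    obtain ⟨a, ha⟩ := exists_ok hw (h2 y hy)
    obtain ⟨h4, h5⟩ := h.rel_sg ha
    rw [h1] at h4 h5
    obtain ⟨b, h6, h7⟩ := ha.inj h4 w0 ((h3 y hy a ha).uniq h5)
    refine ⟨b, (CharTwo.add_eq_zero.1 ?_).symm, h6⟩
    rw [add_assoc] at h7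
    exact left_eq_add.1 h7
  intro y hy
  obtain ⟨ω, hω⟩ := exists_om (F := F) (q := q)
  obtain ⟨b, h4, h5⟩ := key y hy
  obtain ⟨b', h6, h7⟩ := key _ (U.smul_mem ω hy)
  rw [h.semi.smul, h5, smul_add, smul_smul] at h7
  obtain rfl : ω * b = b' := smul_left_injective F w0 (add_left_cancel h7)
  rw [mul_pow, h4] at h6
  have : b = 0 := by rw [← one_mul b, ← hω, add_mul, h6, CharTwo.add_self_eq_zero]
  rw [h5, this, zero_smul, add_zero]

theorem SI.lC_VW (hm : 1 ≤ m) (h : SI q (1 : F ≃+* F) γ) (hW : TI q W)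
    (h1 : ∀ y ∈ perp q W, γ y = y) : ∃ g ∈ VW q W, ∀ v, γ v = g • v := by
  have h2 : ∀ v, γ (γ v) = v := fun v => by
    have : γ v + v ∈ W := perp_perp (q := q) W ▸ fun y hy => by
      rw [herm_add_left, ← h1 y hy, h.herm, h1 y hy]
      exact CharTwo.add_self_eq_zero _
    have h3 := h1 _ (hW.le_perp this)
    rw [h.semi.add, add_comm (γ v)] at h3
    exact add_right_cancel h3
  obtain ⟨l, -, g, h3, h4⟩ := h.su_of_two (j := 1) (e := 1) fun v => by rw [one_smul]; exact h2 v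
  have h5 : l = 1 := lC_sq (by
    have := h2 (Pi.single ⟨0, hm⟩ 1)
    rw [h4, h4, SU_smul_comm, ← mul_smul g, ← pow_two, show g ^ 2 = 1 from h3, one_smul,
      smul_smul] at this
    simpa using congrFun this ⟨0, hm⟩)
  simp only [h5, one_smul] at h4
  exact ⟨g, fun y hy => (h4 y).symm.trans (h1 y hy), h4⟩

theorem lC_four {w y : Fin m → F} {a : F} (h : Ok q w y a) : sg q w y a ^ 4 = 1 := by
  rw [show 4 = 2 * 2 from rfl, pow_mul, pow_two, pow_two, h.sq, T_sq h.uu (herm_pow y y)]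

theorem SI.cent_Fx (hm : 4 ≤ m) (h : SI q s γ) (hW : TI q W) (h0 : W ≠ ⊥)
    (hc : ∀ g ∈ Fx q (W : Set (Fin m → F)), g ^ 4 = 1 → Rel γ g g) :
    s = 1 ∧ ∃ l : F, l * l ^ q = 1 ∧ ∃ g ∈ VW q W, ∀ v, γ v = l • g • v := by
  obtain ⟨W₁, h1, h2⟩ := hW.exists_MTI
  obtain ⟨h3, l, h4, γ', h5, h6, h7, h8⟩ := h.lC_norm hm h1 fun v hv => hc _ (fun x hx => by
    rw [T_smul (h1.1 v hv v hv) (one_pow q), h1.1 x (h2 hx) v hv]; simp) (by
    rw [show 4 = 2 * 2 from rfl, pow_mul, pow_two (T q v 1), T_sq (h1.1 v hv v hv) (one_pow q),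
      one_pow])
  obtain ⟨w, hw, w0⟩ := W.exists_mem_ne_zero_of_ne_bot h0
  obtain ⟨g, hg, e⟩ := h5.lC_VW (by omega) hW (h5.lC_sg w0 (hW w hw w hw) (h7 w (h2 hw))
    (fun y hy => hy w hw) fun y hy a ha => h8 _ _ (hc _ (fun x hx => ha.isSiegel.smul_of_orth
      (hW x hx w hw) (herm_comm_zero (hy x hx))) (lC_four ha)))
  exact ⟨h3, l, h4, g, hg, fun v => by rw [h6, e]⟩

theorem SI.cent_c (hm : 4 ≤ m) (h : SI q s γ) (hW : MTI q W) (hf : 𝐡 f f = 0) (hf' : f ∉ W)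
    (hc : ∀ g ∈ VW q W, Rel γ g g)
    (hc' : ∀ g ∈ Fx q (insert f (W : Set (Fin m → F))), g ^ 4 = 1 → Rel γ g g) :
    s = 1 ∧ ∃ l : F, l * l ^ q = 1 ∧ ∃ g ∈ VW q W, ∀ v, γ v = l • g • v := by
  obtain ⟨h3, l, h4, γ', h5, h6, h7, h8⟩ := h.lC_norm hm hW fun v hv =>
    hc _ (T_mem_VW (hW.1 v hv v hv) (one_pow q) hv)
  obtain ⟨u, hu, u1⟩ : ∃ u ∈ W, 𝐡 u f ≠ 0 := by
    by_contra c
    push Not at c
    exact hf' (hW.mem hf fun w hw => herm_comm_zero (c w hw))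
  have pr : ∀ y, 𝐡 (y + (𝐡 y f / 𝐡 u f) • u) f = 0 := fun y => by
    rw [herm_add_left, herm_smul_left, div_mul_cancel₀ _ u1, CharTwo.add_self_eq_zero]
  obtain ⟨x, hx, x1⟩ := exists_notMem (U := Submodule.span F {u}) (W := W) (by
    rw [finrank_span_singleton fun c => u1 (by rw [c, herm_zero_left])]; exact lC_two_le hm hW)
  have hw := W.add_mem hx (W.smul_mem (𝐡 x f / 𝐡 u f) hu)
  have h9 := h5.lC_sg (U := perp q (W ⊔ Submodule.span F {f})) (fun c => x1 (by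
    rw [lA_add_eq_zero.1 c]
    exact Submodule.smul_mem _ _ (Submodule.mem_span_singleton_self u))) (hW.1 _ hw _ hw) (h7 _ hw)
    (fun y hy => (lB_mem_perp_sup.1 hy).1 _ hw) fun y hy a ha => h8 _ _ (hc' _ (by
      rintro z (rfl | hz)
      · exact ha.isSiegel.smul_of_orth (herm_comm_zero (pr x))
          (herm_comm_zero (lB_mem_perp_sup.1 hy).2)
      · exact ha.isSiegel.smul_of_orth (hW.1 z hz _ hw)
          (herm_comm_zero ((lB_mem_perp_sup.1 hy).1 z hz))) (lC_four ha))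
  obtain ⟨g, hg, e⟩ := h5.lC_VW (by omega) hW.1 fun y hy => by
    have := h9 _ (lB_mem_perp_sup.2 ⟨add_mem hy (hW.1.le_perp (W.smul_mem _ hu)), pr y⟩)
    rw [h5.semi.add, h7 _ (W.smul_mem _ hu)] at this
    exact add_right_cancel this
  exact ⟨h3, l, h4, g, hg, fun v => by rw [h6, e]⟩

theorem conj_mem_zpowers (h : Even (orderOf s)) : ∃ i : ℕ, ∀ a, (s ^ i) a = a ^ q := by
  have : Finite F := UF.finite q
  obtain ⟨k, hk⟩ := h
  have h0 := orderOf_pos s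
  refine ⟨k, (aut_sq (by rw [← pow_add, ← hk, pow_orderOf_eq_one])).resolve_left fun c => ?_⟩
  have := Nat.le_of_dvd (by omega) (orderOf_dvd_of_pow_eq_one c)
  omega

theorem lC_fix (h : Even (orderOf s)) {a : F} (ha : s a = a) : a ^ q = a := by
  obtain ⟨i, hi⟩ := conj_mem_zpowers (q := q) h
  rw [← hi]
  clear hi
  induction i with
  | zero => rfl
  | succ i ih => rw [pow_succ]; exact (congrArg (s ^ i) ha).trans ih

/-- if a power of `γ` is a scalar -/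
theorem SI.pow_scalar (hm : 1 ≤ m) (h : SI q s γ) {N : ℕ} (hN : ∀ v, (γ ^ N) v = e • v) :
    s ^ N = 1 ∧ (Even (orderOf s) → γ ^ N = 1) := by
  obtain ⟨h1, h2⟩ := (h.pow N).lC_scal hm hN
  refine ⟨h1, fun he => Equiv.ext fun v => ?_⟩
  have h3 : (Pi.single ⟨0, hm⟩ 1 : Fin m → F) ≠ 0 := by simp
  have h4 : s e = e := smul_left_injective F (h.lC_ne h3) (by
    change s e • _ = e • _
    rw [← h.semi.smul, ← hN, ← hN, ← Equiv.Perm.mul_apply, ← Equiv.Perm.mul_apply, ← pow_succ,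
      ← pow_succ'])
  rw [lC_fix he h4] at h2
  rw [hN, lC_sq h2, one_smul, Equiv.Perm.one_apply]

theorem card_fix (s : F ≃+* F) : Nat.card {a : F // s a = a} ^ orderOf s = q ^ 2 := by
  have : Finite F := UF.finite q
  rw [← UF.card_eq (F := F), ← card_fixF_pow s]
  rfl

/-- an invariant subspace has a basis of fixed vectors -/
theorem SI.lC_basis (h : SI q s γ) (hN : γ ^ orderOf s = 1) (hU : Mv γ U U) :
    ∃ b : Module.Basis (Fin (Module.finrank F U)) F U, ∀ i, γ (b i) = b i := by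
  have : Finite F := UF.finite q
  let A : U → U := fun v => ⟨γ v, (hU v).2 v.2⟩
  have h1 : ∀ (n : ℕ) (v : U), (A^[n] v : Fin m → F) = (γ ^ n) v := fun n v => by
    induction n with
    | zero => rfl
    | succ n ih => rw [Function.iterate_succ_apply', pow_succ', Equiv.Perm.mul_apply, ← ih]
  obtain ⟨b, hb⟩ := exists_basis_fixed (σ := s) (T := A) ⟨fun x y => Subtype.ext (h.semi.add _ _),
    fun c x => Subtype.ext (h.semi.smul _ _)⟩ (orderOf_pos s)
    (fun v => Subtype.ext (by rw [h1, hN]; rfl)) (Fintype.card_fin _)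
  exact ⟨b, fun i => congrArg Subtype.val (hb i)⟩

theorem SI.span_fix (h : SI q s γ) (hN : γ ^ orderOf s = 1) (hU : Mv γ U U) :
    U ≤ Submodule.span F {v | v ∈ U ∧ γ v = v} := fun v hv => by
  obtain ⟨b, hb⟩ := h.lC_basis hN hU
  rw [show v = U.subtype ⟨v, hv⟩ from rfl, ← b.sum_repr ⟨v, hv⟩, map_sum]
  exact Submodule.sum_mem _ fun i _ => Submodule.smul_mem _ _ (Submodule.subset_span ⟨(b i).2, hb i⟩)

theorem SI.fix_triple (hm : 6 ≤ m) (h : SI q s γ) (hN : γ ^ orderOf s = 1) {j : ℕ}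
    (hj : orderOf s = 2 ^ j) : ∃ v : Fin 3 → Fin m → F, LinearIndependent F v ∧
      (∀ i, γ (v i) = v i) ∧ ∀ i j, 𝐡 (v i) (v j) = 0 := by
  have : Finite F := UF.finite q
  have h1 : ∀ δ ∈ zpowers γ, ∃ s : F ≃+* F, SI q s δ := fun δ hδ => by
    obtain ⟨n, rfl⟩ := mem_powers_iff_mem_zpowers.2 hδ
    exact ⟨_, h.pow n⟩
  obtain ⟨W, h2, -, h3⟩ := exists_MTI_inv (U := ⊥) (isPGroup_zpowers ⟨j, hj ▸ hN⟩) h1
    (fun u hu w _ => by rw [(Submodule.mem_bot F).1 hu, herm_zero_left]) fun δ hδ =>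
      let ⟨_, a⟩ := h1 δ hδ
      mv_of_le a (fun v hv => by rw [(Submodule.mem_bot F).1 hv, a.semi.zero]; rfl) rfl
  obtain ⟨b, hb⟩ := h.lC_basis hN (h3 γ (mem_zpowers γ))
  have h4 : 3 ≤ Module.finrank F W := by rw [h2.2]; omega
  exact ⟨fun i => b (Fin.castLE h4 i), (b.linearIndependent.comp _ (Fin.castLE_injective h4)).map'
    W.subtype W.ker_subtype, fun i => hb _, fun i j => h2.1 _ (b _).2 _ (b _).2⟩

theorem SI.frame (hm : 6 ≤ m) (h : SI q s γ) (hs : ∀ a, s a = a ^ q) (h2 : γ * γ = 1) :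
    ∃ (v : Fin 3 → Fin m → F) (y : Fin m → F), LinearIndependent F v ∧ (∀ i, γ (v i) = v i) ∧
      (∀ i j, 𝐡 (v i) (v j) = 0) ∧ γ y = y ∧ 𝐡 y y = 0 ∧ 𝐡 (v 0) y = 0 ∧ 𝐡 (v 1) y = 0 ∧
      𝐡 (v 2) y = 1 := by
  obtain ⟨ω, hω⟩ := exists_om (F := F) (q := q)
  have h1 : orderOf s = 2 := orderOf_eq_prime (RingEquiv.ext fun a => by
    rw [pow_two]; change s (s a) = a; rw [hs, hs, lA_pow_pow]) fun c => by
    rw [← hs, c] at hω
    exact zero_ne_one ((CharTwo.add_self_eq_zero ω).symm.trans hω)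
  obtain ⟨v, h3, h4, h5⟩ := h.fix_triple hm (by rw [h1, pow_two, h2]) (j := 1) h1
  have key : ∀ i, ∃ y, γ y = y ∧ 𝐡 (v i) y = 1 ∧ ∀ k, k ≠ i → 𝐡 (v k) y = 0 := fun i => by
    obtain ⟨y, -, -, a, b⟩ := lB_partner split_top h3 (fun _ => trivial) h5 i
    have e : ∀ k, 𝐡 (v k) (ω ^ q • y + ω • γ y) = ω * 𝐡 (v k) y + ω ^ q * 𝐡 (v k) y ^ q := fun k => by
      rw [herm_add_right, herm_smul_r, herm_smul_r, lA_pow_pow, ← hs (𝐡 _ _), ← h.herm, h4]
    refine ⟨ω ^ q • y + ω • γ y, ?_, by rw [e, a, one_pow, mul_one, mul_one, hω], fun k hk => by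
      rw [e, b k hk, lA_zero_pow, mul_zero, mul_zero, add_zero]⟩
    rw [h.semi.add, h.semi.smul, h.semi.smul, hs, hs, lA_pow_pow, ← Equiv.Perm.mul_apply, h2,
      add_comm, Equiv.Perm.one_apply]
  obtain ⟨y, a1, a2, a3⟩ := key 0
  by_cases n0 : 𝐡 y y = 0
  · exact ⟨v ∘ Equiv.swap 0 2, y, h3.comp _ (Equiv.injective _), fun i => h4 _, fun i j => h5 _ _,
      a1, n0, a3 _ (by decide), a3 _ (by decide), a2⟩
  obtain ⟨z, b1, b2, b3⟩ := key 2
  obtain ⟨c, c1, c2⟩ := exists_sqrt (q := q) (a := 𝐡 z z / 𝐡 y y) (by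
    rw [div_pow, herm_pow, herm_pow])
  have h6 : 𝐡 z y = 𝐡 y z := by rw [← herm_pow, ← hs, ← h.herm, a1, b1]
  have e : ∀ k, 𝐡 (v k) (z + c • y) = 𝐡 (v k) z + c * 𝐡 (v k) y := fun k => by
    rw [herm_add_right, herm_smul_r, c1]
  have e2 : 𝐡 (v 2) (z + c • y) = 1 := by rw [e, b2, a3 2 (by decide), mul_zero, add_zero]
  refine ⟨![v 0 + c • v 2, v 1, v 2], z + c • y, Fintype.linearIndependent_iff.2 fun g hg => ?_,
    fun i => ?_, fun i j => ?_, by rw [h.semi.add, h.semi.smul, hs, c1, a1, b1], ?_, ?_, ?_, e2⟩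
  · have := Fintype.linearIndependent_iff.1 h3 ![g 0, g 1, g 0 * c + g 2] (by
      rw [← hg]; simp [Fin.sum_univ_three, add_smul, smul_smul]; abel)
    have g0 : g 0 = 0 := this 0
    have g2 : g 0 * c + g 2 = 0 := this 2
    intro i
    fin_cases i
    exacts [g0, this 1, by simpa [g0] using g2]
  · fin_cases i <;> simp [h.semi.add, h.semi.smul, hs, c1, h4]
  · fin_cases i <;> fin_cases j <;>
      simp [herm_add_left, herm_add_right, herm_smul_left, herm_smul_right, h5]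
  · rw [herm_add_left, herm_smul_left, herm_add_right, herm_add_right, herm_smul_r, herm_smul_r, c1,
      h6, mul_add, ← mul_assoc, c2, div_mul_cancel₀ _ n0]
    linear_combination (𝐡 z z + c * 𝐡 y z) * (CharTwo.two_eq_zero (R := F))
  · change 𝐡 (v 0 + c • v 2) _ = 0
    rw [herm_add_left, herm_smul_left, e2, e, a2, b3 0 (by decide), zero_add,
      CharTwo.add_self_eq_zero]
  · change 𝐡 (v 1) _ = 0
    rw [e, a3 1 (by decide), b3 1 (by decide), mul_zero, add_zero]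

theorem SI.fld (hm : 1 ≤ m) (h : SI q s γ) {j : ℕ} (hj : orderOf s = 2 ^ (j + 1)) :
    ∃ g : SU m F q, ((MulAction.toPerm g : Equiv.Perm (Fin m → F)) * γ) ^ orderOf s = 1 := by
  have : Finite F := UF.finite q
  obtain ⟨g₀, rfl⟩ := h.lC_gl
  have he : Even (orderOf s) := hj ▸ (Nat.even_pow' (by omega)).2 even_two
  let D := (detGU : GU m F q →* Fˣ)
  have hD : ∀ k, D (guAct m F q s k) = unitsAct s (D k) := fun k => Units.ext (det_glAct s _)
  let ψ : D.range → D.range := fun x => ⟨x * (unitsAct s x)⁻¹, mul_mem x.2 (inv_mem (by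
    obtain ⟨_, k, rfl⟩ := x
    exact ⟨_, hD k⟩))⟩
  have h1 : Function.Injective ψ := fun x y e => by
    have e1 : unitsAct s (x / y : D.range) = (x / y : D.range) := by
      have : x.1 / unitsAct s x = y.1 / unitsAct s y := congrArg Subtype.val e
      rw [Subgroup.coe_div, map_div, div_eq_div_iff_mul_eq_mul, mul_comm]
      exact (div_eq_div_iff_mul_eq_mul.1 this).symm
    have e2 := (mem_range_detGU hm).1 (x / y).2
    rw [conj_apply, lC_fix he (congrArg Units.val e1)] at e2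
    exact div_eq_one.1 (Subtype.ext (Units.ext (lC_sq e2)))
  obtain ⟨⟨_, k, rfl⟩, hk⟩ := Finite.injective_iff_surjective.1 h1 ⟨_, g₀, rfl⟩
  obtain ⟨g, hg⟩ := exists_su (g := k * (guAct m F q s k)⁻¹ * g₀⁻¹) (by
    rw [← coe_detGU, map_mul, map_mul, map_inv, map_inv, hD,
      show detGU k * _ = _ from congrArg Subtype.val hk, mul_inv_cancel, Units.val_one])
  let φ : RingAut F →* Equiv.Perm (Fin m → F) := .mk' (semiPerm 1) fun a b => by
    rw [semiPerm_mul, map_one, mul_one]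
  have h2 : (MulAction.toPerm g : Equiv.Perm (Fin m → F)) * semiPerm (g₀ : GL (Fin m) F) s =
      semiPerm (k : GL (Fin m) F) 1 * φ s * (semiPerm (k : GL (Fin m) F) 1)⁻¹ := by
    rw [eq_mul_inv_iff_mul_eq, show (MulAction.toPerm g : Equiv.Perm (Fin m → F)) =
      semiPerm (toGU g : GL (Fin m) F) 1 from rfl, hg]
    simp [φ, semiPerm_mul, guAct_coe]
  exact ⟨g, by rw [h2, conj_pow, ← map_pow, pow_orderOf_eq_one, map_one, mul_one, mul_inv_cancel]⟩

end Cfsg.Agent.StdU
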