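import Cfsg.Agent.StdU.St0
import Cfsg.Agent.StdU.AutM

/-! Step 1: the translation `t ↦ t z` is induced by an element centralising the stabiliser of `p`. -/

set_option autoImplicit false
set_option linter.unusedSectionVars false

namespace Cfsg.Agent.StdU

open Subgroup Cfsg.Agent.Class.U Cfsg.Agent.KSG Cfsg.Agent.PLocal.Amb
open Cfsg.Agent.StdL (El Od Uq cjh)
open scoped commutatorElement

variable {F : Type*} [Field F] {m q : ℕ} [UF F q] [CharP F 2]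
  {G : Type*} [Group G] [Finite G] {ι r : SU m F q →* G} {t : G} {c : (Fin m → F) → G}

local notation "𝐡" => hermForm m F q

section

variable {p : Fin m → F} {W U : Submodule F (Fin m → F)} {x y : SU m F q} {g n n' : G}
  {s s' : F ≃+* F} {γ γ' : Equiv.Perm (Fin m → F)}

theorem s1_T (hp : 𝐡 p p = 0) (h : T q p 1 ∈ VW q U) : p ∈ U := by
  by_cases h0 : p = 0
  · exact h0 ▸ zero_mem U
  obtain ⟨x, hx⟩ := exists_herm_ne_zero (q := q) h0
  have h6 := mem_VW'.1 h x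
  rw [T_smul hp (one_pow q), one_mul, add_right_comm, lA_add_self, zero_add] at h6
  exact (U.smul_mem_iff (herm_comm_ne hx)).1 h6

theorem Rp.s1_inv (h : Rp ι) (hW : TI q W) (hx : x * x = 1) (e : ι x ∈ (VW q W).map ι) :
    x ∈ VW q W :=
  let ⟨y, a, b⟩ := e
  h.eq_of_sq (hW.el y a) hx b ▸ a

theorem s1_fix (hW : TI q W) (hp : p ∈ W) (hx : x ∈ VW q W) : x • p = p := hx p (hW.le_perp hp)

theorem Rp.s1_mem (h : Rp ι) (hW : TI q W) (hp : p ∈ W) (h0 : p ≠ 0) (hx : x • p = p) :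
    ι x ∈ (VW q W).map ι ↔ x ∈ VW q W :=
  ⟨fun ⟨_, a, b⟩ => h.eq_of_fix h0 (s1_fix hW hp a) hx b ▸ a, fun a => ⟨x, a, rfl⟩⟩

theorem Rel.s1_fix (h : Rel γ x y) (h1 : γ p = p) (h2 : x • p = p) : y • p = p := by
  rw [← h1, h, h2]

theorem s1_mul (a : SI q s γ) (a' : SI q s' γ') (b : IndOn (Fx q {p}) ι n γ)
    (b' : IndOn (Fx q {p}) ι n' γ') (e : γ' p = p) : IndOn (Fx q {p}) ι (n * n') (γ * γ') :=
  fun g hg k c => by
  obtain ⟨g1, e1⟩ := a'.rel g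
  obtain ⟨g2, e2⟩ := a.rel g1
  rw [c.uniq (e1.comp e2), ← b _ (mem_Fx_one.2 (e1.s1_fix e (mem_Fx_one.1 hg))) _ e2,
    ← b' _ hg _ e1]
  group

theorem s1_pow (a : SI q s γ) (b : IndOn (Fx q {p}) ι n γ) (e : γ p = p) (k : ℕ) :
    IndOn (Fx q {p}) ι (n ^ k) (γ ^ k) := by
  induction k with
  | zero => rw [pow_zero, pow_zero]; exact fun g _ => au_ind_cent (fun y => by simp) g trivial
  | succ k ih => rw [pow_succ, pow_succ]; exact s1_mul (a.pow k) a ih b e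

theorem Rp.s1_self (h : Rp ι) (h0 : p ≠ 0) (a : SI q s γ) (b : IndOn (Fx q {p}) ι n γ) (e : γ p = p)
    (hx : x • p = p) (c : n * ι x = ι x * n) : Rel γ x x := by
  obtain ⟨y, hy⟩ := a.rel x
  rwa [h.eq_of_fix h0 (hy.s1_fix e hx) hx (by
    rw [← b x (mem_Fx_one.2 hx) y hy, c, mul_inv_cancel_right])] at hy

theorem s1_sq (hp : 𝐡 p p = 0) : ι (T q p 1) * ι (T q p 1) = 1 := by
  rw [← map_mul, T_sq hp (one_pow q), map_one]

theorem s1_inv {z : G} (hz : z * z = 1) (h1 : g * t * g⁻¹ = t * z) (h2 : g * z = z * g) :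
    g⁻¹ * t * g⁻¹⁻¹ = t * z := by
  have : t = g * (t * z) * g⁻¹ := by
    rw [← conj_mul, h1, h2, mul_inv_cancel_right, mul_assoc, hz, mul_one]
  nth_rw 1 [this]
  group

end

theorem Su.ind (h : Su ι t) {p : Fin m → F} (hp : 𝐡 p p = 0) (h0 : p ≠ 0) {g : G}
    (h1 : g * t * g⁻¹ = t * ι (T q p 1)) (h2 : g * ι (T q p 1) = ι (T q p 1) * g) :
    ∃ (s : F ≃+* F) (γ : Equiv.Perm (Fin m → F)), SI q s γ ∧ γ p = p ∧
      IndOn (Fx q {p}) ι g γ := by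
  have key : ∀ W, MTI q W → p ∈ W → ∃ W', MTI q W' ∧ p ∈ W' ∧
      cj(g, (VW q W).map ι) = (VW q W').map ι := fun W a b => by
    obtain ⟨W', c, d⟩ := h.key a b (one_pow q) (.inr (s1_inv (s1_sq hp) h1 h2))
    rw [← cj_inj (g := g), cj_cj_inv] at d
    refine ⟨W', c, s1_T hp (h.s1_inv c.1 (T_sq hp (one_pow q)) ?_), d.symm⟩
    rw [d, ← mul_inv_eq_iff_eq_mul.2 h2]
    exact conj_mem_cj g ⟨_, T_mem_VW hp (one_pow q) b, rfl⟩
  have h3 : g ∈ 𝐍[(Fx q {p}).map ι] := mem_normalizer_of_cj_le (by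
    rintro _ ⟨_, ⟨x, hx, rfl⟩, rfl⟩
    refine am_gen h.m6 hp h0 (H := ((Fx q {p}).map ι).comap (cjh g ι)) (fun v hv => ?_)
      (mem_Fx_one.1 hx)
    obtain ⟨W, a, b⟩ := hv.ti.exists_MTI
    obtain ⟨W', c, d, e⟩ := key W a (b (Submodule.subset_span (by simp)))
    exact map_mono (fun y hy => mem_Fx_one.2 (s1_fix c.1 d hy)) (e.le (conj_mem_cj g
      ⟨_, T_mem_VW hv.r (one_pow q) (b (Submodule.subset_span (by simp))), rfl⟩)))
  let e := MulEquiv.ofBijective (ι.subgroupMap (Fx q {p})) ⟨fun x y e => Subtype.ext (h.eq_of_fix h0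
    (mem_Fx_one.1 x.2) (mem_Fx_one.1 y.2) (congrArg Subtype.val e)), ι.subgroupMap_surjective _⟩
  let β : MulAut (Fx q {p} : Subgroup (SU m F q)) :=
    e.trans ((((Fx q {p}).map ι).normalizerMonoidHom ⟨g, h3⟩).trans e.symm)
  have hβ : ∀ x, ι (β x).1 = g * ι x.1 * g⁻¹ := fun x =>
    congrArg Subtype.val (e.apply_symm_apply _)
  obtain ⟨s, γ, a, b, c⟩ := exists_si_of_aut h.m6 hp h0 β (fun W a b => by
    obtain ⟨W', c, d, e⟩ := key W a b
    exact ⟨W', c, d, fun x => by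
      rw [← h.s1_mem c.1 d h0 (mem_Fx_one.1 (β x).2), hβ, ← e, conj_mem_cj_iff,
        h.s1_mem a.1 b h0 (mem_Fx_one.1 x.2)]⟩) fun x e => Subtype.ext (h.eq_of_fix h0
      (mem_Fx_one.1 (β x).2) (mem_Fx_one.1 x.2) (by rw [hβ, e, h2, mul_inv_cancel_right]))
  exact ⟨s, γ, a, b, fun x hx y e => by rw [e.uniq (c ⟨x, hx⟩), hβ]⟩

theorem Su.s1_comm (h : Su ι t) {p : Fin m → F} (hp : 𝐡 p p = 0) (h0 : p ≠ 0) {g : G}
    (h1 : g * t * g⁻¹ = t * ι (T q p 1)) :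
    ∃ g : G, g * t * g⁻¹ = t * ι (T q p 1) ∧ g * ι (T q p 1) = ι (T q p 1) * g := by
  choose! f f1 f2 using fun W (a : MTI q W) (b : p ∈ W) => h.key a b (one_pow q) (.inr h1)
  have pm := Submodule.mem_span_singleton_self (R := F) p
  obtain ⟨W, a, b⟩ := (am_ti hp).exists_MTI
  let U := ⨅ W, ⨅ _ : MTI q W ∧ p ∈ W, f W
  have u1 : ∀ W, MTI q W → p ∈ W → U ≤ f W := fun W a b => iInf₂_le W ⟨a, b⟩
  have u2 := (f1 W a (b pm)).1.mono (u1 W a (b pm))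
  have h2 : cj(g, (VW q U).map ι) ≤ (VW q (Submodule.span F {p})).map ι := fun y hy => by
    have e : ∀ W, MTI q W → p ∈ W → y ∈ (VW q W).map ι := fun W a b =>
      f2 W a b ▸ cj_mono g (map_mono (VW_mono (u1 W a b))) hy
    obtain ⟨x, c, rfl⟩ := e W a (b pm)
    exact ⟨x, mem_VW'.2 fun v => iInf_MTI (am_ti hp) fun W' a' b' =>
      mem_VW'.1 (h.s1_inv a'.1 (a.1.el x c) (e W' a' (b' pm))) v, rfl⟩
  have h3 := card_le_of_le h2
  rw [card_cj, h.card_VW u2, h.card_VW (am_ti hp), finrank_span_singleton h0,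
    Nat.pow_le_pow_iff_right (two_le_q F q), Nat.pow_le_pow_iff_left two_ne_zero] at h3
  obtain ⟨p', h4⟩ := (Submodule.finrank_le_one_iff_isPrincipal U).1 h3
  have h5 : ∀ W, MTI q W → p ∈ W → g⁻¹ * ι (T q p 1) * g ∈ (VW q (f W)).map ι := fun W a b =>
    mem_cj.1 ((f2 W a b).ge ⟨_, T_mem_VW hp (one_pow q) b, rfl⟩)
  obtain ⟨x, c, e⟩ := h5 W a (b pm)
  have h6 : x ∈ VW q U := mem_VW'.2 fun v => by
    simp only [U, Submodule.mem_iInf]
    exact fun W' d => mem_VW'.1 (h.s1_inv (f1 W' d.1 d.2).1 ((f1 W a (b pm)).1.el x c)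
      (e ▸ h5 W' d.1 d.2)) v
  have h7 : p' ∈ U := h4.ge (Submodule.mem_span_singleton_self p')
  have h8 := u2 p' h7 p' h7
  obtain ⟨d, d1, rfl⟩ := (mem_VW_one h8).1 (h4 ▸ h6)
  obtain ⟨d', rfl⟩ := exists_norm d1
  rw [← mul_one (d' * _), ← T_smul_vec h8 (one_pow q)] at e
  obtain ⟨l, hl⟩ := exists_SU_smul_eq (by have := h.m6; omega) h0 (u' := d' • p') (fun c => by
    rw [c, T_zero_vec, map_one, eq_comm, mul_eq_one_iff_eq_inv, mul_eq_left, ← map_one ι] at e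
    exact T_ne_one hp h0 (one_pow q) one_ne_zero (h.eq_of_sq (T_sq hp (one_pow q)) (mul_one 1) e)) hp
    ((O2.self h8).smul d' d').l
  rw [← hl, ← T_conj hp (one_pow q), map_mul, map_mul, map_inv, mul_inv_eq_iff_eq_mul] at e
  exact ⟨g * ι l, by rw [mul_assoc g, ← h.tc, ← h1]; group, by rw [mul_assoc, e]; group⟩

theorem Su.s1_cent (h : Su ι t) {p : Fin m → F} (hp : 𝐡 p p = 0) (h0 : p ≠ 0) {g : G}
    (h1 : g * t * g⁻¹ = t * ι (T q p 1)) (h2 : g * ι (T q p 1) = ι (T q p 1) * g)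
    {W : Submodule F (Fin m → F)} (hW : MTI q W) (hp' : p ∈ W) :
    ∃ c : G, (∀ x ∈ VW q W, c * ι x = ι x * c) ∧ c * t * c⁻¹ = t * ι (T q p 1) := by
  have m4 : 4 ≤ m := by have := h.m6; omega
  obtain ⟨g, s, γ, h1, h2, a, b, c, d⟩ : ∃ (g : G) (s : F ≃+* F) (γ : Equiv.Perm (Fin m → F)),
      g * t * g⁻¹ = t * ι (T q p 1) ∧ g * ι (T q p 1) = ι (T q p 1) * g ∧ SI q s γ ∧ γ p = p ∧
      IndOn (Fx q {p}) ι g γ ∧ Mv γ W W := by
    obtain ⟨s, γ, a, b, c⟩ := h.ind hp h0 h1 h2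
    obtain ⟨W', d1, d2, d3, -⟩ := a.exists_mv W
    have d4 : p ∈ W' := b ▸ (d1 p).2 hp'
    obtain ⟨k, k1, k2⟩ := MTI.trans_vec m4 ⟨d3 hW.1, d2.trans hW.2⟩ hW d4 hp' h0 h0
    have k3 : Commute (ι k) (ι (T q p 1)) := (comm_T hp (one_pow q) k2).map ι
    refine ⟨ι k * g, _, _, ?_, k3.mul_left h2, (si_su k).mul a, by simp [b, k2],
      s1_mul (si_su k) a (fun x _ => au_ind_su k x trivial) c b, fun v => (k1 _).trans (d1 v)⟩
    rw [mul_inv_rev, mul_assoc (ι k), mul_assoc (ι k), ← mul_assoc _ g⁻¹, h1, ← mul_assoc, ← mul_assoc,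
      ← h.tc, mul_assoc t, k3.eq]
    group
  let A : SU m F q → Prop := fun v =>
    ∃ c : G, (∀ x ∈ VW q W, c * ι x = ι x * c) ∧ c * t * c⁻¹ = t * ι v
  have ind : ∀ x ∈ VW q W, ∀ y, Rel γ x y → g * ι x * g⁻¹ = ι y := fun x hx =>
    c x (mem_Fx_one.2 (s1_fix hW.1 hp' hx))
  have tm : ∀ u ∈ W, T q u 1 ∈ VW q W := fun u hu => T_mem_VW (hW.1 u hu u hu) (one_pow q) hu
  have key : ∀ u ∈ W, u ≠ 0 → T q u 1 ∈ VW q W ∧ A (T q u 1 * T q p 1 ^ 1) := fun u hu u0 => by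
    obtain ⟨k, k1, k2⟩ := MTI.trans_vec m4 hW hW hu hp' u0 h0
    obtain ⟨l, l1⟩ := a.inv.rel k
    replace l1 : Rel γ l k := by simpa using l1.symm
    have l2 : Mv (l • ·) W W := fun v => by rw [← d, ← l1, k1, d]
    refine ⟨tm u hu, (ι k)⁻¹ * g * ι l * g⁻¹, fun x hx => mul_inv_eq_iff_eq_mul.1 ?_, ?_⟩
    · obtain ⟨x', e⟩ := a.inv.rel x
      replace e : Rel γ x' x := by simpa using e.symm
      have e1 := (e.mem_VW a d).1 hx
      have e2 := ind _ ((conj_mem_VW l2).2 e1) _ ((l1.mul e).mul l1.inv)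
      simp only [map_mul, map_inv] at e2
      calc _ = (ι k)⁻¹ * (g * (ι l * ι x' * (ι l)⁻¹) * g⁻¹) * ι k := by rw [← ind _ e1 _ e]; group
        _ = _ := by rw [e2]; group
    · have e1 := ind _ (tm _ ((l2 p).2 hp')) _ (a.rel_T (hW.1 _ ((l2 p).2 hp') _ ((l2 p).2 hp'))
        (one_pow q))
      rw [map_one, ← l1, b, ← T_conj hp (one_pow q), ← T_conj hp (one_pow q)] at e1
      have e2 := congrArg ι (T_conj (hW.1 u hu u hu) (one_pow q) k)
      rw [k2] at e2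
      simp only [map_mul, map_inv, pow_one] at e1 e2 ⊢
      calc _ = (ι k)⁻¹ * (g * (ι l * (g⁻¹ * t * g⁻¹⁻¹) * (ι l)⁻¹) * g⁻¹) * ι k := by group
        _ = (ι k)⁻¹ * (g * t * g⁻¹ * (g * (ι l * ι (T q p 1) * (ι l)⁻¹) * g⁻¹)) * ι k := by
          rw [s1_inv (s1_sq hp) h1 h2, ← mul_assoc (ι l), ← h.tc]; group
        _ = (ι k)⁻¹ * t * (ι k * ι (T q u 1) * (ι k)⁻¹) * ι k * ι (T q p 1) := by
          rw [h1, e1, e2]; group
        _ = _ := by rw [← map_inv, ← h.tc, map_inv]; group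
  have mu : ∀ {x y : SU m F q} {i j : ℕ}, x ∈ VW q W ∧ A (x * T q p 1 ^ i) →
      y ∈ VW q W ∧ A (y * T q p 1 ^ j) → x * y ∈ VW q W ∧ A (x * y * T q p 1 ^ (i + j)) :=
    fun {x y i j} ⟨a1, c, a2, a3⟩ ⟨b1, c', b2, b3⟩ => ⟨mul_mem a1 b1, c * c', fun v hv =>
      Commute.mul_left (a2 v hv) (b2 v hv), by
        rw [pow_add, Commute.mul_mul_mul_comm (hW.1.el.comm b1 (pow_mem (tm p hp') i)), map_mul,
          ← mul_assoc t, ← a3, ← mul_inv_eq_iff_eq_mul.2 (a2 _ (mul_mem b1 (pow_mem (tm p hp') j))),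
          conj_mul, ← b3]
        group⟩
  obtain ⟨w, w1, w2⟩ := exists_notMem (U := Submodule.span F {p}) (W := W) (by
    rw [finrank_span_singleton h0]; exact lC_two_le m4 hW)
  have k2 : ∀ a : F, a ≠ 0 → _ := fun a a0 => key (p + a • w) (add_mem hp' (W.smul_mem a w1))
    fun e => w2 ((Submodule.smul_mem_iff _ a0).1
      (lA_add_eq_zero.1 e ▸ Submodule.mem_span_singleton_self p))
  obtain ⟨ω, hω⟩ := exists_om (F := F) (q := q)
  have ω0 : ω ≠ 0 := fun c => by simp [c, lA_zero_pow] at hω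
  have := (mu (mu (mu (mu (key p hp' h0) (key w w1 fun e => w2 (e ▸ zero_mem _))) (k2 1 one_ne_zero))
    (k2 ω ω0)) (k2 _ (pow_ne_zero q ω0))).2
  rwa [one_smul, five (hW.1.o2 hp' w1) hω (one_pow q), one_mul, pow_succ,
    show 1 + 1 + 1 + 1 = 2 * 2 from rfl, pow_mul, pow_two (T q p 1), T_sq hp (one_pow q), one_pow,
    one_mul] at this

theorem Su.trl (h : Su ι t) (hz : Tz ι t) : Trl ι t := fun p h0 hp => by
  have m4 : 4 ≤ m := by have := h.m6; omega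
  obtain ⟨g, h1⟩ := isConj_iff.1 (hz p h0 hp)
  obtain ⟨g, h1, h2⟩ := h.s1_comm hp h0 h1
  obtain ⟨W, hW, b⟩ := (am_ti hp).exists_MTI
  have hp' := b (Submodule.mem_span_singleton_self p)
  have tm : ∀ u ∈ W, T q u 1 ∈ VW q W := fun u hu => T_mem_VW (hW.1 u hu u hu) (one_pow q) hu
  obtain ⟨c, j, c1, c2, c3⟩ : ∃ (c : G) (j : ℕ), (∀ x ∈ VW q W, c * ι x = ι x * c) ∧
      c * t * c⁻¹ = t * ι (T q p 1) ∧ c ^ 2 ^ j = 1 := by
    obtain ⟨c, c1, c2⟩ := h.s1_cent hp h0 h1 h2 hW hp'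
    obtain ⟨j, _, ⟨i, rfl⟩, e⟩ := StdL.exists_two_odd c
    refine ⟨_, j, fun x hx => Commute.pow_left (c1 x hx) _, ?_, e⟩
    have e1 : Commute (c ^ 2) t := mul_inv_eq_iff_eq_mul.1 (by
      rw [show c ^ 2 * t * (c ^ 2)⁻¹ = c * (c * t * c⁻¹) * c⁻¹ by simp [pow_two, mul_assoc], c2, ← conj_mul, c2,
        c1 _ (tm p hp'), mul_inv_cancel_right, mul_assoc, s1_sq hp, mul_one])
    rw [pow_succ', pow_mul, mul_assoc c, (e1.pow_left i).eq, ← c2]
    group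
  obtain ⟨s, γ, a, a1, a2⟩ := h.ind hp h0 c2 (c1 _ (tm p hp'))
  obtain rfl := (a.lC_norm m4 hW fun v hv => h.s1_self h0 a a2 a1 (s1_fix hW.1 hp' (tm v hv))
    (c1 _ (tm v hv))).1
  obtain ⟨-, l, -, x, x1, x2⟩ := (a.pow (2 ^ j)).cent_Fx m4 (am_ti hp) (by simpa using h0)
    fun g hg _ => h.s1_self h0 (a.pow _) (s1_pow a a2 a1 _) (by
      rw [Equiv.Perm.coe_pow]; exact Function.iterate_fixed a1 _)
      (hg p (Submodule.mem_span_singleton_self p)) (by simp [c3])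
  obtain ⟨l', l1, y, y1, y2⟩ := a.su_of_two (j := j + 1) (e := l * l) fun v => by
    rw [pow_succ, pow_mul, pow_two, Equiv.Perm.mul_apply, x2, x2, SU_smul_comm, ← mul_smul x,
      (am_ti hp).el x x1, one_smul, smul_smul]
  have y3 : ∀ n : ℕ, l' ^ n • y ^ n • p = p := fun n => by
    induction n with
    | zero => simp
    | succ n ih => rw [pow_succ, pow_succ', mul_smul, mul_smul, ← y2, y2, smul_comm, ← SU_smul_comm,
        ih, ← y2, a1]
  obtain rfl : l' = 1 := lC_two (j := j + 1) (smul_left_injective F h0 (by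
    simpa [y1] using y3 (2 ^ (j + 1))))
  have y4 : y • p = p := by simpa using y3 1
  refine ⟨(ι y)⁻¹ * c, fun g hg => mul_inv_eq_iff_eq_mul.1 ?_, ?_⟩
  · have := a2 g hg (y * g * y⁻¹) fun v => by simp [y2, mul_smul]
    rw [mul_inv_rev, mul_assoc _ c, mul_assoc, ← mul_assoc _ c⁻¹, this]
    simp [mul_assoc]
  · rw [mul_inv_rev, mul_assoc _ c, mul_assoc, ← mul_assoc _ c⁻¹, c2, inv_inv, mul_assoc t,
      ← ((comm_T hp (one_pow q) y4).map ι).eq, ← mul_assoc t, h.tc]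
    group

theorem Su.nsq (h : Su ι t) (hz : Trl ι t) : Nsq ι t := h.nsq_of fun k hk e => by
  obtain ⟨p, h0, hp⟩ := exists_isotropic (n := m) (F := F) (q := q) (by have := h.m6; omega)
  obtain ⟨c, c1, c2⟩ := hz p h0 hp
  have h1 : ∀ g ∈ Fx q {p}, Commute (c * k * c⁻¹) (ι g) := fun g hg =>
    (Commute.mul_left (c1 g hg) ((mem_K0.1 hk).2 g)).mul_left (Commute.inv_left (c1 g hg))
  have h2 : c * k * c⁻¹ * (c * k * c⁻¹) = t * ι (T q p 1) := by rw [conj_mul, e, c2]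
  obtain ⟨g, hg, k', hk', h3⟩ := h.cent_Fx (am_ti hp) (n := c * k * c⁻¹) (by simpa using h0) (by
    rw [eq_mul_inv_of_mul_eq h2.symm]
    exact ((Commute.refl _).mul_right (Commute.refl _)).mul_right
      (h1 _ (mem_Fx_one.2 ((O2.self hp).am_fix (one_pow q)))).inv_right) (by rwa [Fx_span])
  rw [h3, (show Commute k' (ι g) from (mem_K0.1 hk').2 g).mul_mul_mul_comm, ← map_mul,
    (am_ti hp).el g hg, map_one, one_mul] at h2
  have h4 := (mul_mem_cancel_left h.t_mem).1 (h2 ▸ mul_mem hk' hk')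
  exact T_ne_one hp h0 (one_pow q) one_ne_zero (h.cen1 (h.mem_center (mem_K0.1 h4).2) (au_T_sq hp))

end Cfsg.Agent.StdU
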