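import Cfsg.Agent.StdU.LinC

/-! A Sylow `2`-subgroup of `SU` fixes a flag `⟨p⟩ < ⟨p, e⟩`; rigidity on `p^⊥ / p`. -/

set_option autoImplicit false
set_option linter.unusedSectionVars false

namespace Cfsg.Agent.StdU

open Subgroup Cfsg.Agent.Class.U Cfsg.Agent.KSG Cfsg.Agent.PLocal.Amb
open Cfsg.Agent.StdL (El Od Uq cjh)
open scoped commutatorElement

variable {F : Type*} [Field F] {m q : ℕ} [UF F q] [CharP F 2]

local notation "𝐡" => hermForm m F q
local notation "⟪" p "⟫" => Submodule.span F {p}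

variable {A B C : Submodule F (Fin m → F)} {U : Subgroup (SU m F q)} {p e w y : Fin m → F} {a l : F}
  {s : F ≃+* F} {γ : Equiv.Perm (Fin m → F)} {g u : SU m F q}

theorem wl_pre (h : A ≤ B) (hg : ∀ y ∈ B, g • y + y ∈ A) (hy : y ∈ B) : g⁻¹ • y ∈ B := by
  have : Finite F := UF.finite q
  let f : B → B := fun y => ⟨g • y.1, (B.add_mem_iff_left y.2).1 (h (hg _ y.2))⟩
  obtain ⟨z, hz⟩ := Finite.injective_iff_surjective.1
    (show Function.Injective f from fun a b e => Subtype.ext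
      (MulAction.injective g (congrArg Subtype.val e))) ⟨y, hy⟩
  rw [← show g • z.1 = y from congrArg Subtype.val hz, inv_smul_smul]
  exact z.2

/-- elements acting trivially on `B / A` -/
def St (q : ℕ) [UF F q] (h : A ≤ B) : Subgroup (SU m F q) where
  carrier := {g | ∀ y ∈ B, g • y + y ∈ A}
  one_mem' y _ := by rw [one_smul, lA_add_self]; exact zero_mem _
  mul_mem' {g k} hg hk y hy := by
    have := add_mem (hg _ ((B.add_mem_iff_left hy).1 (h (hk y hy)))) (hk y hy)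
    rwa [add_assoc, ← add_assoc (k • y), lA_add_self, zero_add, ← mul_smul] at this
  inv_mem' {g} hg y hy := by
    have := hg _ (wl_pre h hg hy)
    rwa [smul_inv_smul, add_comm] at this

theorem St.stab {h : A ≤ B} (hg : g ∈ St q h) (h1 : A ≤ C) (h2 : C ≤ B) (hy : y ∈ C) : g • y ∈ C :=
  (C.add_mem_iff_left hy).1 (h1 (hg y (h2 hy)))

theorem St.perp {h : A ≤ B} (hg : g ∈ St q h) : g ∈ St q (perp_anti (q := q) h) := fun y hy b hb => by
  have h1 := hy _ (inv_mem hg b hb)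
  rw [herm_add_right] at h1
  rw [herm_add_left, ← smul_inv_smul g b, SU_herm, smul_inv_smul, h1]

theorem St.sq {h : A ≤ B} {h' : B ≤ C} (hg : g ∈ St q h) (hg' : g ∈ St q h') :
    g * g ∈ St q (h.trans h') := fun y hy => by
  have := hg _ (hg' y hy)
  rwa [smul_add, add_assoc, ← add_assoc (g • y), lA_add_self, zero_add, ← mul_smul] at this

theorem St.conj {h : A ≤ B} (hg : g ∈ St q h) (h1 : ∀ y ∈ A, u • y ∈ A) (h2 : ∀ y ∈ B, u⁻¹ • y ∈ B) :
    u * g * u⁻¹ ∈ St q h := fun y hy => by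
  have := h1 _ (hg _ (h2 y hy))
  rwa [smul_add, smul_inv_smul, ← mul_smul, ← mul_smul] at this

/-- a flag fixed by `U`, with the root groups -/
structure Fg (U : Subgroup (SU m F q)) (p e : Fin m → F) : Prop where
  o2 : O2 q p e
  p0 : p ≠ 0
  ne : e ∉ ⟪p⟫
  fp : ∀ u ∈ U, u • p = p
  Q : ∀ w a, Ok q p w a → sg q p w a ∈ U
  R : ∀ w a, Ok q e w a → 𝐡 w p = 0 → sg q e w a ∈ U
  fe : ∀ u ∈ U, u • e + e ∈ ⟪p⟫

theorem wl_le (p e : Fin m → F) : ⟪p⟫ ≤ Submodule.span F {p, e} := Submodule.span_mono (by simp)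

theorem wl_p (p e : Fin m → F) : p ∈ Submodule.span F {p, e} := Submodule.subset_span (by simp)

theorem wl_e (p e : Fin m → F) : e ∈ Submodule.span F {p, e} := Submodule.subset_span (by simp)

theorem wl_perp : y ∈ perp q (Submodule.span F {p, e}) ↔ 𝐡 y p = 0 ∧ 𝐡 y e = 0 := by
  simp [mem_perp_span]

theorem wl_perp1 : y ∈ perp q ⟪p⟫ ↔ 𝐡 y p = 0 := by simp [mem_perp_span]

theorem wl_sp (a : F) (p : Fin m → F) : a • p ∈ ⟪p⟫ :=
  Submodule.smul_mem _ _ (Submodule.mem_span_singleton_self p)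

theorem exists_fg (hm : 4 ≤ m) (hU : IsSyl 2 U ⊤) : ∃ p e, Fg U p e := by
  obtain ⟨W, hW, h1⟩ := exists_MTI_inv' hU.pgrp
  have h2 := lC_two_le hm hW
  let P := U.map (MulAction.toPermHom (SU m F q) (Fin m → F))
  have p1 : IsPGroup 2 P := hU.pgrp.map _
  have p2 : ∀ γ ∈ P, ∃ s : F ≃+* F, SI q s γ := by rintro _ ⟨g, -, rfl⟩; exact ⟨1, si_su g⟩
  have p3 : ∀ γ ∈ P, Mv γ W W := by rintro _ ⟨g, hg, rfl⟩; exact h1 g hg
  obtain ⟨x, x1, x2⟩ := exists_notMem (U := ⊥) (W := W) (by rw [finrank_bot]; omega)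
  obtain ⟨p, a1, a2, a3⟩ := lB_fix p1 p2 (U := ⊥) (by
    rintro _ ⟨g, -, rfl⟩ v
    exact smul_eq_zero_iff_eq g) p3 x1 x2
  have fp : ∀ u ∈ U, u • p = p := fun u hu => lA_add_eq_zero.1 (a3 _ ⟨u, hu, rfl⟩)
  have s1 : U ≤ St q (bot_le : ⊥ ≤ ⟪p⟫) := fun u hu y hy => by
    obtain ⟨c, rfl⟩ := Submodule.mem_span_singleton.1 hy
    rw [SU_smul_comm, fp u hu, lA_add_self]; exact zero_mem _
  obtain ⟨x, x1, x2⟩ := exists_notMem (U := ⟪p⟫) (W := W) (by
    have := finrank_span_le_card (R := F) ({p} : Set (Fin m → F))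
    simp at this; omega)
  obtain ⟨e, b1, b2, b3⟩ := lB_fix p1 p2 (U := ⟪p⟫) (by
    rintro _ ⟨g, hg, rfl⟩
    exact mv_of_le (si_su g) (fun v hv => St.stab (s1 hg) bot_le le_rfl hv) rfl) p3 x1 x2
  have o := hW.1.o2 a1 b1
  have k : ∀ g : SU m F q, g • p = p → g • e + e ∈ ⟪p⟫ → g ∈ St q (wl_le p e) := fun g g1 g2 y hy => by
    obtain ⟨c, d, rfl⟩ := Submodule.mem_span_pair.1 hy
    rw [smul_add, SU_smul_comm, SU_smul_comm, g1, add_add_add_comm, lA_add_self, zero_add, ← smul_add]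
    exact Submodule.smul_mem _ _ g2
  have s2 : U ≤ St q (wl_le p e) := fun u hu => k u (fp u hu) (b3 _ ⟨u, hu, rfl⟩)
  have l3 := o.ti.le_perp
  have key : St q (bot_le : ⊥ ≤ ⟪p⟫) ⊓ St q (wl_le p e) ⊓ St q l3 ≤ U := by
    refine hU.le_of_le_normalizer (isPGroup_iff.2 fun g hg => ⟨3, SU_ext fun v => ?_⟩) le_top
      (le_normalizer_iff_cj.2 fun u hu => cj_le_iff_forall.2 fun g hg => ⟨⟨?_, ?_⟩, ?_⟩)
    · obtain ⟨hg, g3⟩ := mem_inf.1 hg
      obtain ⟨g1, g2⟩ := mem_inf.1 hg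
      have c1 := St.sq g1 g2
      have c2 := St.sq g3 (St.perp g2)
      have c3 := St.perp g1
      have c4 := St.sq (St.sq c1 c2) (mul_mem (mul_mem c3 c3) (mul_mem c3 c3)) v fun w hw => by
        rw [(Submodule.mem_bot F).1 hw, herm_zero_right]
      rw [one_smul, show g ^ 2 ^ 3 = g * g * (g * g) * (g * g * (g * g)) by
        rw [show 2 ^ 3 = 8 from rfl]; simp only [pow_succ, pow_zero, one_mul, mul_assoc]]
      exact lA_add_eq_zero.1 ((Submodule.mem_bot F).1 c4)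
    · exact St.conj hg.1.1 (fun y hy => St.stab (s1 hu) le_rfl bot_le hy)
        fun y hy => St.stab (s1 (inv_mem hu)) bot_le le_rfl hy
    · exact St.conj hg.1.2 (fun y hy => St.stab (s1 hu) bot_le le_rfl hy)
        fun y hy => St.stab (s2 (inv_mem hu)) (wl_le p e) le_rfl hy
    · exact St.conj hg.2 (fun y hy => St.stab (s2 hu) (wl_le p e) le_rfl hy)
        fun y hy => St.stab (St.perp (s2 (inv_mem hu))) le_rfl (perp_anti (wl_le p e)) hy
  have k0 : ∀ g : SU m F q, g • p = p → g ∈ St q (bot_le : ⊥ ≤ ⟪p⟫) := fun g hg y hy => by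
    obtain ⟨c, rfl⟩ := Submodule.mem_span_singleton.1 hy
    rw [SU_smul_comm, hg, lA_add_self]; exact zero_mem _
  have z : ∀ x y : Fin m → F, x + y + x = y := fun x y => by
    rw [add_comm, ← add_assoc, lA_add_self, zero_add]
  refine ⟨p, e, o, a2, b2, fp, fun w a h => ?_, fun w a h hw => ?_, fun u hu => b3 _ ⟨u, hu, rfl⟩⟩
  · have e1 : ∀ y, 𝐡 y p = 0 → sg q p w a • y + y = 𝐡 y w • p := fun y hy => by
      rw [sg_smul h, hy]; simp [z]
    have e2 : sg q p w a • p = p := lA_add_eq_zero.1 (by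
      rw [e1 p o.l, herm_comm_zero h.wu, zero_smul])
    exact key ⟨⟨k0 _ e2, k _ e2 (e1 e o.rl ▸ wl_sp _ _)⟩, fun y hy =>
      e1 y (wl_perp.1 hy).1 ▸ wl_le p e (wl_sp _ _)⟩
  · have e1 : ∀ y, 𝐡 y e = 0 → sg q e w a • y + y = 𝐡 y w • e := fun y hy => by
      rw [sg_smul h, hy]; simp [z]
    have e2 : sg q e w a • p = p := lA_add_eq_zero.1 (by
      rw [e1 p o.lr, herm_comm_zero hw, zero_smul])
    exact key ⟨⟨k0 _ e2, k _ e2 (by
      rw [e1 e o.r, herm_comm_zero h.wu, zero_smul]; exact zero_mem _)⟩, fun y hy =>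
      e1 y (wl_perp.1 hy).2 ▸ Submodule.smul_mem _ _ (wl_e p e)⟩

/-- one of three multiples -/
theorem wl_three (q : ℕ) [UF F q] {Y : (Fin m → F) → Prop} (hY : ∀ a ∈ B, ∀ b ∈ B, Y a ∨ Y b ∨ Y (a + b))
    (hy : y ∈ B) : ∃ c : F, c ≠ 0 ∧ Y (c • y) := by
  obtain ⟨ω, hω⟩ := exists_om (F := F) (q := q)
  rcases hY y hy _ (B.smul_mem ω hy) with h | h | h
  · exact ⟨1, one_ne_zero, by rwa [one_smul]⟩
  · exact ⟨ω, fun c => by simp [c, lA_zero_pow (F := F) (q := q)] at hω, h⟩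
  · exact ⟨1 + ω, fun c => by
      rw [← CharTwo.add_eq_zero.1 c, one_pow, CharTwo.add_self_eq_zero] at hω
      exact zero_ne_one hω, by rwa [add_smul, one_smul]⟩

theorem SI.of_half (hm : 4 ≤ m) (h : SI q s γ) (hp : 𝐡 p p = 0) (h0 : p ≠ 0) (hl : γ p = l • p)
    {Y : (Fin m → F) → Prop} (hY : ∀ a ∈ perp q ⟪p⟫, ∀ b ∈ perp q ⟪p⟫, Y a ∨ Y b ∨ Y (a + b))
    (hc : ∀ w ∈ perp q ⟪p⟫, Y w → l ^ q • γ w + w ∈ ⟪p⟫) :
    s = 1 ∧ ∃ w a, Ok q p w a ∧ ∀ g, Rel γ g (sg q p w a * g * (sg q p w a)⁻¹) := by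
  have f1 := finrank_perp (q := q) ⟪p⟫
  have f2 : Module.finrank F ⟪p⟫ = 1 := finrank_span_singleton h0
  have fix : ∀ (a : F) w, w ∉ ⟪p⟫ → l ^ q • γ w + w ∈ ⟪p⟫ → l ^ q • γ (a • w) + a • w ∈ ⟪p⟫ →
      s a = a := fun a w h1 h2 h3 => by
    by_contra c
    have := add_mem (Submodule.smul_mem _ (s a) h2) h3
    rw [h.semi.smul, smul_comm (l ^ q), smul_add, add_add_add_comm, lA_add_self, zero_add,
      ← add_smul, Submodule.smul_mem_iff _ fun e => c (CharTwo.add_eq_zero.1 e)] at this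
    exact h1 this
  obtain ⟨v, v1, v2⟩ := exists_notMem (U := ⟪p⟫) (W := perp q ⟪p⟫) (by omega)
  obtain ⟨c, c1, c2⟩ := wl_three q hY v1
  have f3 := lB_finrank_sup ⟪p⟫ (c • v)
  obtain ⟨v', v3, v4⟩ := exists_notMem (U := ⟪p⟫ ⊔ ⟪c • v⟫) (W := perp q ⟪p⟫) (by omega)
  obtain ⟨d, d1, d2⟩ := wl_three q hY v3
  have m1 := Submodule.smul_mem _ c v1
  have m2 := Submodule.smul_mem _ d v3
  have hs : s = 1 := RingEquiv.ext fun a => by
    rcases hY _ (Submodule.smul_mem _ a m1) _ (Submodule.smul_mem _ a m2) with e | e | e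
    · exact fix a _ (by rwa [Submodule.smul_mem_iff _ c1]) (hc _ m1 c2)
        (hc _ (Submodule.smul_mem _ a m1) e)
    · exact fix a _ (fun e => v4 (Submodule.mem_sup_left ((Submodule.smul_mem_iff _ d1).1 e)))
        (hc _ m2 d2) (hc _ (Submodule.smul_mem _ a m2) e)
    · rw [← smul_add] at e
      refine fix a _ (fun e => v4 ((Submodule.smul_mem_iff _ d1).1 ((Submodule.add_mem_iff_right _
        (Submodule.mem_sup_right (Submodule.mem_span_singleton_self _))).1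
          (Submodule.mem_sup_left e)))) ?_ (hc _ (Submodule.smul_mem _ a (add_mem m1 m2)) e)
      rw [h.semi.add, smul_add, add_add_add_comm]
      exact add_mem (hc _ m1 c2) (hc _ m2 d2)
  subst hs
  have all : ∀ w ∈ perp q ⟪p⟫, ∃ b : F, l ^ q • γ w = w + b • p := fun w hw => by
    obtain ⟨c, c1, c2⟩ := wl_three q hY hw
    have := hc _ (Submodule.smul_mem _ c hw) c2
    rw [h.semi.smul, smul_comm (l ^ q), show (1 : F ≃+* F) c = c from rfl, ← smul_add,
      Submodule.smul_mem_iff _ c1] at this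
    obtain ⟨b, hb⟩ := Submodule.mem_span_singleton.1 this
    exact ⟨b, by rw [hb, add_comm _ w, ← add_assoc, lA_add_self, zero_add]⟩
  have nl : l ^ q * (l ^ q) ^ q = 1 := by
    obtain ⟨y, y1, y2⟩ := dual' (q := q) v2
    obtain ⟨b, hb⟩ := all v v1
    obtain ⟨b', hb'⟩ := all y y1
    have e := congrArg₂ (fun a b => 𝐡 a b) hb hb'
    simp only [herm_add_left, herm_add_right, herm_smul_left, herm_smul_r, h.herm, y2, hp,
      wl_perp1.1 v1, herm_comm_zero (wl_perp1.1 y1), map_one] at e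
    simpa [mul_comm] using e
  obtain ⟨δ, d1, d2, d3⟩ := h.scal nl
  have e1 : δ p = p := by
    rw [d2, hl, smul_smul, ← lA_pow_pow (q := q) l, lA_pow_pow (l ^ q), nl, one_smul]
  have e2 : ∀ v, ∃ b : F, δ (δ v) = v + b • p := fun v => by
    obtain ⟨b, hb⟩ := all (δ v + v) (wl_perp1.2 (by
      rw [herm_add_left, ← e1, d1.herm, e1]; exact CharTwo.add_self_eq_zero _))
    rw [← d2, d1.semi.add, add_comm (δ v) v, add_right_comm] at hb
    exact ⟨b, add_right_cancel hb⟩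
  have e3 : ∀ v, (δ ^ 2 ^ 2) v = (1 : F) • v := fun v => by
    obtain ⟨b, hb⟩ := e2 v
    change δ (δ (δ (δ v))) = _
    rw [hb, d1.semi.add, d1.semi.add, d1.semi.smul, d1.semi.smul, e1, e1, hb, add_assoc, one_smul]
    exact add_eq_left.2 (lA_add_self _)
  obtain ⟨k, -, g, g1, g2⟩ := d1.su_of_two e3
  have k1 : k = 1 := lC_two (j := 2) (smul_left_injective F h0 (by
    have := e3 p
    change δ (δ (δ (δ p))) = _ at this
    simp only [g2, SU_smul_comm, smul_smul] at this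
    rw [show 2 ^ 2 = 4 from rfl] at g1 ⊢
    simp only [pow_succ, pow_zero, one_mul, mul_assoc] at g1 ⊢
    rwa [g1, one_smul] at this))
  simp only [k1, one_smul] at g2
  obtain ⟨w, a, o, rfl⟩ := exists_sg hp h0 ((g2 p).symm.trans e1) fun y hy => by
    rw [← g2, d2]; exact all y (wl_perp1.2 hy)
  exact ⟨rfl, w, a, o, fun g => (d3 _ _).1 fun v => by
    rw [g2, g2, mul_smul, mul_smul, inv_smul_smul]⟩

/-- vectors fixed modulo `p` by half of the second root group -/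
theorem Fg.mem_two (hm : 5 ≤ m) (h : Fg U p e) {Y : (Fin m → F) → Prop}
    (hY : ∀ a ∈ perp q (Submodule.span F {p, e}), ∀ b ∈ perp q (Submodule.span F {p, e}),
      Y a ∨ Y b ∨ Y (a + b))
    (hc : ∀ y ∈ perp q (Submodule.span F {p, e}), Y y →
      ∃ b, Ok q e y b ∧ sg q e y b • w + w ∈ ⟪p⟫) : w ∈ Submodule.span F {p, e} := by
  classical
  have f1 := finrank_perp (q := q) (Submodule.span F {p, e})
  have f2 := finrank_span_le_card (R := F) ({p, e} : Set (Fin m → F))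
  have f3 : ({p, e} : Set (Fin m → F)).toFinset.card ≤ 2 := by
    rw [Set.toFinset_insert, Set.toFinset_singleton]; exact Finset.card_le_two
  have key : ∀ y ∈ perp q (Submodule.span F {p, e}), ∃ c b : F, c ≠ 0 ∧
      (𝐡 w e * c) • y + (c ^ q * 𝐡 w y + b * 𝐡 w e) • e ∈ ⟪p⟫ := fun y hy => by
    obtain ⟨c, c1, c2⟩ := wl_three q hY hy
    obtain ⟨b, b1, b2⟩ := hc _ (Submodule.smul_mem _ c hy) c2
    refine ⟨c, b, c1, ?_⟩
    rw [sg_smul b1, herm_smul_r, add_comm _ w, add_assoc w, add_assoc w, ← add_assoc w w,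
      lA_add_self, zero_add, smul_smul, add_assoc, ← add_smul] at b2
    exact b2
  have h1 : 𝐡 w e = 0 := by
    obtain ⟨y, y1, y2⟩ := exists_notMem (U := Submodule.span F {p, e})
      (W := perp q (Submodule.span F {p, e})) (by omega)
    obtain ⟨c, b, c1, c2⟩ := key y y1
    by_contra c3
    exact y2 ((Submodule.smul_mem_iff _ (mul_ne_zero c3 c1)).1 ((Submodule.add_mem_iff_left _
      (Submodule.smul_mem _ _ (wl_e p e))).1 (wl_le p e c2)))
  rw [← perp_perp (q := q) (Submodule.span F {p, e})]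
  intro y hy
  obtain ⟨c, b, c1, c2⟩ := key y hy
  rw [h1, zero_mul, zero_smul, zero_add, mul_zero, add_zero] at c2
  by_contra c3
  exact h.ne ((Submodule.smul_mem_iff _ (mul_ne_zero (lA_pow_ne c1) c3)).1 c2)

end Cfsg.Agent.StdU
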